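import Cfsg.Agent.BLK.McKay

/-! Quadratic refinements of a commutator form of odd order. -/

set_option autoImplicit false
open Cfsg Subgroup
open scoped ComplexConjugate commutatorElement

namespace CL.Baer
open CL.Char CL.Glb CL.OW

/-- The central extension given by a bimultiplicative cocycle. -/
def Tw {K U : Type*} [Group K] [CommGroup U] (_ : K →* K →* U) := K × U

instance {K U : Type*} [Group K] [CommGroup U] (b : K →* K →* U) : Group (Tw b) where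
  mul x y := (x.1 * y.1, x.2 * y.2 * b y.1 x.1)
  one := (1, 1)
  inv x := (x.1⁻¹, x.2⁻¹ * b x.1 x.1)
  mul_assoc x y z := Prod.ext (mul_assoc ..) (by
    show x.2 * y.2 * b y.1 x.1 * z.2 * b z.1 (x.1 * y.1) =
      x.2 * (y.2 * z.2 * b z.1 y.1) * b (y.1 * z.1) x.1
    simp only [map_mul, MonoidHom.mul_apply, mul_assoc, mul_comm, mul_left_comm])
  one_mul x := Prod.ext (one_mul _) (by show 1 * x.2 * b x.1 1 = x.2; simp)
  mul_one x := Prod.ext (mul_one _) (by show x.2 * 1 * b 1 x.1 = x.2; simp)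
  inv_mul_cancel x := Prod.ext (inv_mul_cancel _) (by
    show x.2⁻¹ * b x.1 x.1 * x.2 * b x.1 x.1⁻¹ = 1
    rw [map_inv, mul_right_comm x.2⁻¹]; simp)

theorem exists_fam_aux {K : Type*} [Group K] [Finite K] (L : Subgroup K) (μ : L →* ℂˣ)
    (b : K →* K →* ℂˣ) (hb : ∀ x y, b y x = (b x y)⁻¹) (hL : ∀ l ∈ L, ∀ y, b l y = 1)
    (hc : ∀ x y, ∃ h : ⁅x, y⁆ ∈ L, μ ⟨_, h⟩ = b x y ^ 2) :
    ∃ c : K → ℂˣ, (∀ l : L, c l = μ l) ∧ ∀ x y, c (x * y) = c x * c y * b x y := by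
  let U := rootsOfUnity (Nat.card K) ℂ
  let b' : K →* K →* U := MonoidHom.mk' (fun x => (b x).codRestrict U fun y => by
    rw [mem_rootsOfUnity, ← map_pow, pow_card_eq_one', map_one]) fun x y =>
      MonoidHom.ext fun z => Subtype.ext (by simp)
  have : Finite (Tw b') := inferInstanceAs (Finite (K × U))
  let B : Subgroup (Tw b') :=
    { carrier := {a | a.1 ∈ L}, one_mem' := L.one_mem, mul_mem' := L.mul_mem, inv_mem' := L.inv_mem }
  let ν : B →* ℂˣ := MonoidHom.mk' (fun a => μ ⟨a.1.1, a.2⟩ * a.1.2) fun x y => by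
    show μ (⟨_, x.2⟩ * ⟨_, y.2⟩) * (x.1.2 * y.1.2 * b y.1.1 x.1.1) = _
    rw [hL _ y.2, map_mul]; ac_rfl
  have h1 : commutator (Tw b') ≤ ν.ker.map B.subtype := commutator_le.2 fun x _ y _ =>
    ⟨⟨⁅x, y⁆, (hc x.1 y.1).1⟩, by
      show μ ⟨⁅x.1, y.1⁆, (hc x.1 y.1).1⟩ * ((x.2 : ℂˣ) * y.2 * b y.1 x.1 * ((x.2 : ℂˣ)⁻¹ * b x.1 x.1) *
        b x.1⁻¹ (x.1 * y.1) * ((y.2 : ℂˣ)⁻¹ * b y.1 y.1) * b y.1⁻¹ (x.1 * y.1 * x.1⁻¹)) = 1
      rw [(hc x.1 y.1).2]
      simp only [map_mul, map_inv, MonoidHom.inv_apply, hb x.1 y.1]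
      ext; simp only [Units.val_mul, Units.val_inv_eq_inv_val, Units.val_pow_eq_pow_val]
      field_simp; rfl, rfl⟩
  obtain ⟨lam, h2⟩ := exists_hom_extend B ν fun x hx => by
    obtain ⟨y, hy, e⟩ := h1 hx
    rwa [← Subtype.ext e]
  let mk : K → U → Tw b' := Prod.mk
  refine ⟨fun k => lam (mk k 1), fun l => (h2 ⟨mk l 1, l.2⟩).trans (mul_one _), fun x y => ?_⟩
  have h3 : lam (mk 1 (b' x y)) = b x y := (h2 ⟨mk 1 (b' x y), L.one_mem⟩).trans (by
    show μ 1 * _ = _; rw [map_one, one_mul]; rfl)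
  beta_reduce
  rw [← h3, ← map_mul, ← map_mul]
  refine congrArg lam (Prod.ext (mul_one _).symm (Subtype.ext ?_))
  show 1 = 1 * 1 * b y x * b x y * b 1 (x * y)
  simp [hb x y]

variable {Γ : Type*} [Group Γ] {L K H S : Subgroup Γ} [L.Normal] [K.Normal] {n : ℕ}
  {μ : L →* ℂˣ} {b : K →* K →* ℂˣ} {c c' : K → ℂˣ}

/-- The square root `b` of the commutator form of an invariant linear character `μ`. -/
structure Dat (n : ℕ) (μ : L →* ℂˣ) (b : K →* K →* ℂˣ) : Prop where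
  le : L ≤ K
  pow : ∀ k ∈ K, k ^ n ∈ L
  inv : ∀ u l, μ (MulAut.conjNormal u l) = μ l
  self : ∀ x, b x x = 1
  left : ∀ l : K, (l : Γ) ∈ L → ∀ y, b l y = 1
  sq : ∀ x y : K, ∃ h : ⁅(x : Γ), (y : Γ)⁆ ∈ L, μ ⟨_, h⟩ = b x y ^ 2
  cj : ∀ (u : Γ) x y, b (MulAut.conjNormal u x) (MulAut.conjNormal u y) = b x y

theorem exists_dat (hn : Odd n) (hle : L ≤ K) (hp : ∀ k ∈ K, k ^ n ∈ L)
    (hi : ∀ u l, μ (MulAut.conjNormal u l) = μ l) (hc : ∀ x ∈ K, ∀ y ∈ K, ⁅x, y⁆ ∈ L) :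
    ∃ b : K →* K →* ℂˣ, Dat n μ b := by
  let β : K →* K →* ℂˣ := MonoidHom.mk' (fun x => MonoidHom.mk' (fun y => μ ⟨_, hc x x.2 y y.2⟩)
    fun y z => by
      rw [← hi y ⟨_, hc x x.2 z z.2⟩, ← map_mul]
      exact congrArg μ (Subtype.ext (by simp [commutatorElement_def, mul_assoc])))
    fun x y => MonoidHom.ext fun z => by
      show μ _ = μ _ * μ _
      rw [mul_comm, ← hi x ⟨_, hc y y.2 z z.2⟩, ← map_mul]
      exact congrArg μ (Subtype.ext (by simp [commutatorElement_def, mul_assoc]))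
  have h1 : ∀ l : K, (l : Γ) ∈ L → ∀ y, β l y = 1 := fun l hl y => by
    rw [← mul_inv_cancel (μ ⟨l, hl⟩), ← map_inv, ← hi y (⟨l, hl⟩ : L)⁻¹, ← map_mul]
    exact congrArg μ (Subtype.ext (by simp [commutatorElement_def, mul_assoc]))
  obtain ⟨m, rfl⟩ := hn
  refine ⟨β ^ (m + 1), hle, hp, hi, fun x => ?_, fun l hl y => ?_, fun x y => ⟨hc x x.2 y y.2, ?_⟩,
    fun u x y => ?_⟩
  · show μ _ ^ _ = 1
    rw [show (⟨_, hc x x.2 x x.2⟩ : L) = 1 from Subtype.ext (commutatorElement_self _), map_one,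
      one_pow]
  · show β l y ^ _ = 1
    rw [h1 l hl, one_pow]
  · show β x y = (β x y ^ _) ^ 2
    have h2 := h1 (x ^ (2 * m + 1)) (hp x x.2) y
    rw [map_pow, MonoidHom.pow_apply] at h2
    rw [← pow_mul, show (m + 1) * 2 = 2 * m + 1 + 1 by ring, pow_succ, h2, one_mul]
  · show μ _ ^ _ = μ _ ^ _
    rw [← hi u ⟨_, hc x x.2 y y.2⟩]
    exact congrArg (μ · ^ _) (Subtype.ext (by simp [commutatorElement_def, mul_assoc]))

/-- A quadratic refinement extending `μ`. -/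
structure Fam (μ : L →* ℂˣ) (b : K →* K →* ℂˣ) (c : K → ℂˣ) : Prop where
  ext : ∀ (k : K) (h : (k : Γ) ∈ L), c k = μ ⟨k, h⟩
  mul : ∀ x y, c (x * y) = c x * c y * b x y

omit [L.Normal] [K.Normal] in
theorem Fam.one (hc : Fam μ b c) : c 1 = 1 := (hc.ext 1 L.one_mem).trans (map_one μ)

omit [L.Normal] [K.Normal] in
/-- The quotient of two refinements. -/
def Fam.div (hc : Fam μ b c) (hc' : Fam μ b c') : K →* ℂˣ :=
  MonoidHom.mk' (fun k => c k / c' k) fun x y => by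
    rw [hc.mul, hc'.mul, mul_div_mul_right_eq_div, mul_div_mul_comm]

omit [L.Normal] [K.Normal] in
theorem Fam.div_eq_one (hc : Fam μ b c) (hc' : Fam μ b c') {k : K} (h : (k : Γ) ∈ L) :
    hc.div hc' k = 1 := _root_.div_eq_one.2 ((hc.ext k h).trans (hc'.ext k h).symm)

namespace Dat
variable (h : Dat n μ b)
include h

theorem symm (x y : K) : b y x = (b x y)⁻¹ := by
  have := h.self (x * y)
  simp only [map_mul, MonoidHom.mul_apply, h.self, one_mul, mul_one] at this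
  exact eq_inv_of_mul_eq_one_left this

theorem right {l : K} (hl : (l : Γ) ∈ L) (y : K) : b y l = 1 := by
  rw [h.symm, h.left l hl, inv_one]

theorem inv_eq (hc : Fam μ b c) (x : K) : c x⁻¹ = (c x)⁻¹ := by
  have := hc.mul x⁻¹ x
  rw [inv_mul_cancel, hc.one, map_inv, MonoidHom.inv_apply, h.self, inv_one, mul_one] at this
  exact eq_inv_of_mul_eq_one_left this.symm

theorem pow_eq (hc : Fam μ b c) (x : K) (m : ℕ) : c (x ^ m) = c x ^ m := by
  induction m with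
  | zero => simpa using hc.one
  | succ m ih => simp [pow_succ, hc.mul, ih, h.self]

theorem norm_eq [Finite Γ] (hc : Fam μ b c) (x : K) : ‖(c x : ℂ)‖ = 1 :=
  Complex.norm_eq_one_of_pow_eq_one (n := Nat.card K) (by
    rw [← Units.val_pow_eq_pow_val, ← h.pow_eq hc, pow_card_eq_one', hc.one, Units.val_one])
    Nat.card_pos.ne'

theorem cj_fam (hc : Fam μ b c) (u : Γ) : Fam μ b fun k => c (MulAut.conjNormal u k) :=
  ⟨fun k hk => (hc.ext _ (Normal.conj_mem inferInstance _ hk u)).trans (h.inv u ⟨k, hk⟩),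
    fun x y => by rw [map_mul, hc.mul, h.cj]⟩

theorem cj_left (hc : Fam μ b c) {l : Γ} (hl : l ∈ L) (k : K) :
    c (MulAut.conjNormal l k) = c k := by
  rw [show MulAut.conjNormal l k = ⟨l, h.le hl⟩ * (k * (⟨l, h.le hl⟩ : K)⁻¹) from
    Subtype.ext (mul_assoc ..), hc.mul, hc.mul, h.left ⟨l, _⟩ hl, h.right (l := (⟨l, _⟩ : K)⁻¹) (inv_mem hl), h.inv_eq hc]
  simp

theorem exists_fam [Finite Γ] (hS : (L.relIndex S).Coprime n) (hn : n ≠ 0) :
    ∃ c, Fam μ b c ∧ ∀ s ∈ S, ∀ k, c (MulAut.conjNormal s k) = c k := by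
  obtain ⟨c, h1, h2⟩ := exists_fam_aux (L.subgroupOf K) (μ.comp (subgroupOfEquivOfLe h.le).toMonoidHom)
    b h.symm h.left h.sq
  have hc : Fam μ b c := ⟨fun k hk => h1 ⟨k, hk⟩, h2⟩
  have := Fintype.ofFinite (S ⧸ L.subgroupOf S)
  obtain ⟨a, -, ha⟩ := Nat.exists_mul_mod_eq_of_coprime 1 hS hn
  let P : K → ℂˣ := fun k => ∏ i : S ⧸ L.subgroupOf S, c (MulAut.conjNormal (i.out : Γ)⁻¹ k)
  have h3 : ∀ k, ∏ i : S ⧸ L.subgroupOf S, (h.cj_fam hc (i.out : Γ)⁻¹).div hc k =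
      P k / c k ^ L.relIndex S := fun k => by
    simp only [Fam.div, MonoidHom.mk'_apply, Finset.prod_div_distrib, Finset.prod_const,
      Finset.card_univ, ← Nat.card_eq_fintype_card]
    rfl
  refine ⟨fun k => c k * (P k / c k ^ L.relIndex S) ^ a, ⟨fun k hk => ?_, fun x y => ?_⟩,
    fun s hs k => ?_⟩
  · rw [← h3]
    simp only [Fam.div_eq_one _ _ hk, Finset.prod_const_one, one_pow, mul_one, hc.ext k hk]
  · rw [← h3, ← h3, ← h3]
    simp only [map_mul, Finset.prod_mul_distrib, mul_pow, hc.mul, mul_assoc, mul_comm, mul_left_comm]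
  · have h4 : P (MulAut.conjNormal s k) = P k := by
      refine Fintype.prod_equiv (MulAction.toPerm (⟨s, hs⟩ : S)⁻¹) _ _ fun i => ?_
      obtain ⟨l, hl⟩ := QuotientGroup.mk_out_eq_mul (L.subgroupOf S) ((⟨s, hs⟩ : S)⁻¹ * i.out)
      rw [MulAction.toPerm_apply, ← MulAction.Quotient.mk_smul_out, smul_eq_mul, hl,
        ← h.cj_left hc (inv_mem l.2)]
      exact congrArg c (Subtype.ext (by simp [mul_assoc]))
    have h5 : ((h.cj_fam hc s).div hc k) ^ n = 1 := by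
      rw [← map_pow, Fam.div_eq_one _ _ (h.pow k k.2)]
    have h6 := (pow_eq_pow_mod _ h5).trans (ha ▸ (pow_eq_pow_mod 1 h5).symm)
    simp only [Fam.div, MonoidHom.mk'_apply, div_pow, pow_one, div_eq_div_iff_mul_eq_mul] at h6
    simp only [h4, div_pow, ← pow_mul, mul_div_assoc', div_eq_div_iff_mul_eq_mul]
    rw [mul_right_comm, ← h6]; simp only [mul_assoc, mul_comm, mul_left_comm]

end Dat

omit [L.Normal] in
theorem eq_one_of_inv {Z : Subgroup Γ} (hZ : Z ≤ L ⊔ ⁅Z, S⁆) (hL : L ≤ Z)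
    (hS : S ≤ normalizer (Z : Set Γ)) (lam : Z →* ℂˣ) (h1 : ∀ z : Z, (z : Γ) ∈ L → lam z = 1)
    (h2 : ∀ s (hs : s ∈ S) z, lam (cjE Z (hS hs) z) = lam z) (z : Z) : lam z = 1 := by
  have : L ⊔ ⁅Z, S⁆ ≤ lam.ker.map Z.subtype := sup_le (fun l hl => ⟨⟨l, hL hl⟩, h1 _ hl, rfl⟩)
    (commutator_le.2 fun x hx s hs => ⟨⟨x, hx⟩ * cjE Z (hS hs) (⟨x, hx⟩ : Z)⁻¹, by
      show lam _ = 1
      rw [map_mul, h2 s hs, ← map_mul, mul_inv_cancel, map_one], by
      simp [commutatorElement_def, coe_cjE, mul_assoc]⟩)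
  obtain ⟨y, hy, e⟩ := this (hZ z.2)
  rwa [← Subtype.ext e]

theorem Dat.inv_of_fix (h : Dat n μ b) (hc : Fam μ b c) (hK : K ≤ L ⊔ ⁅K, S⁆)
    (hS : ∀ s ∈ S, ∀ k, c (MulAut.conjNormal s k) = c k) {x : Γ}
    (hx : ∀ s ∈ S, s * x * s⁻¹ * x⁻¹ ∈ L) (k : K) : c (MulAut.conjNormal x k) = c k :=
  div_eq_one.1 (eq_one_of_inv hK h.le le_normalizer_of_normal ((h.cj_fam hc x).div hc)
    (fun _ => Fam.div_eq_one _ _) (fun s hs z => congrArg₂ (· / ·) (by
      beta_reduce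
      rw [← h.cj_left hc (hx s hs), ← hS s hs (MulAut.conjNormal x z)]
      exact congrArg c (Subtype.ext (by simp [coe_cjE, mul_assoc]))) (hS s hs z)) k)

end CL.Baer
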