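import Cfsg.Agent.BLK.Baer
import Cfsg.Agent.CHAR.FS
import Cfsg.Agent.CHAR.Scalar

/-! The involution of a twisted group algebra of an abelian group of odd order, and the
correspondence by odd multiplicities that it gives. -/

set_option autoImplicit false
open Cfsg Subgroup
open scoped ComplexConjugate commutatorElement

namespace CL.Baer
open CL.Char CL.Glb CL.OW

variable {Γ : Type*} [Group Γ] [Finite Γ] {L K H G S : Subgroup Γ} [L.Normal] [K.Normal] {n : ℕ}
  {μ : L →* ℂˣ} {b : K →* K →* ℂˣ} {c : K → ℂˣ}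

/-- The sum of the normalised basis elements. -/
noncomputable def Tm {R : Type*} [Ring R] [Algebra ℂ R] (c : K → ℂˣ) (u : K →* R) : R :=
  ∑ k, ((c k)⁻¹ : ℂˣ) • u k

/-- The same sum over the radical. -/
noncomputable def Em {R : Type*} [Ring R] [Algebra ℂ R] (b : K →* K →* ℂˣ) (c : K → ℂˣ)
    (u : K →* R) : R :=
  haveI := Fintype.ofFinite b.ker
  ∑ z : b.ker, ((c z)⁻¹ : ℂˣ) • u z

/-- The trace of `Tm` times a group element. -/
noncomputable def F (hK : K ≤ G) (c : K → ℂˣ) (χ : G → ℂ) (g : G) : ℂ :=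
  ∑ k, ((c k)⁻¹ : ℂˣ) * χ (inclusion hK k * g)

/-- Lying over the linear character of the radical. -/
def X (hK : K ≤ G) (b : K →* K →* ℂˣ) (c : K → ℂˣ) (χ : G → ℂ) : Prop :=
  ∀ z ∈ b.ker, ∀ g, χ (inclusion hK z * g) = c z * χ g

omit [L.Normal] [K.Normal] in
theorem trace_Tm (hK : K ≤ G) {d : ℕ} (ρ : Representation ℂ G (Fin d → ℂ)) (g : G) :
    LinearMap.trace ℂ _ (Tm c (ρ.comp (inclusion hK)) * ρ g) = F hK c ρ.character g := by
  simp [Tm, F, Finset.sum_mul, Representation.character, Units.smul_def]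

namespace Dat
variable (h : Dat n μ b) (hc : Fam μ b c) {R : Type*} [Ring R] [Algebra ℂ R] (u : K →* R)
include h hc

omit [Finite Γ] in
theorem mul_ker {z : K} (hz : z ∈ b.ker) (k : K) : c (k * z) = c k * c z := by
  rw [hc.mul, h.symm, MonoidHom.mem_ker.1 hz]; simp

theorem Tm_mul {z : K} (hz : z ∈ b.ker) : Tm c u * u z = c z • Tm c u := by
  simp only [Tm, Finset.sum_mul, Finset.smul_sum, smul_mul_assoc, ← map_mul, smul_smul]
  refine Fintype.sum_equiv (Equiv.mulRight z) _ _ fun k => ?_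
  simp [h.mul_ker hc hz, mul_comm]

theorem Em_mul {z : K} (hz : z ∈ b.ker) : Em b c u * u z = c z • Em b c u := by
  simp only [Em, Finset.sum_mul, Finset.smul_sum, smul_mul_assoc, ← map_mul, smul_smul]
  let _ := Fintype.ofFinite b.ker
  refine Fintype.sum_equiv (Equiv.mulRight ⟨z, hz⟩) _ _ fun k => ?_
  simp [h.mul_ker hc hz, mul_comm]

theorem Tm_mul_Em : Tm c u * Em b c u = (Nat.card b.ker : ℂ) • Tm c u := by
  let _ := Fintype.ofFinite b.ker
  rw [Em, Finset.mul_sum, Finset.sum_congr rfl fun z _ => by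
    rw [mul_smul_comm, h.Tm_mul hc u z.2, inv_smul_smul]]
  simp [Nat.cast_smul_eq_nsmul]

theorem Tm_sq : Tm c u * Tm c u = (Nat.card K : ℂ) • Em b c u := by
  classical
  have h1 : ∀ k, ((c k)⁻¹ • u k) * Tm c u = ∑ m, (b m k⁻¹ : ℂ) • (c m)⁻¹ • u m := fun k => by
    simp only [Tm, Finset.mul_sum, smul_mul_assoc, mul_smul_comm, ← map_mul, smul_smul]
    refine Fintype.sum_equiv (Equiv.mulLeft k) _ _ fun m => ?_
    rw [← Units.smul_def, smul_smul]
    simp [hc.mul, h.self, h.symm m k, mul_comm]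
  nth_rw 1 [Tm]
  rw [Finset.sum_mul, Finset.sum_congr rfl fun k _ => h1 k, Finset.sum_comm, Em,
    Finset.smul_sum, ← Finset.sum_subtype (Finset.univ.filter (· ∈ b.ker)) (by simp)
      (fun m => (Nat.card K : ℂ) • (c m)⁻¹ • u m), Finset.sum_filter]
  refine Finset.sum_congr rfl fun m _ => ?_
  rw [← Finset.sum_smul, show ∑ k, (b m k⁻¹ : ℂ) = ∑ k, (Units.coeHom ℂ).comp (b m) k from
    Fintype.sum_equiv (Equiv.inv K) _ _ fun _ => rfl]
  split_ifs with hm
  · simp [MonoidHom.mem_ker.1 hm]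
  · rw [sum_hom_units_eq_zero _ fun h0 => hm (MonoidHom.ext fun k =>
      Units.ext (DFunLike.congr_fun h0 k)), zero_smul]

variable (hK : K ≤ G) {χ χ' : G → ℂ}

theorem F_mul {z : K} (hz : z ∈ b.ker) (g : G) :
    F hK c χ (inclusion hK z * g) = c z * F hK c χ g := by
  simp only [F, Finset.mul_sum]
  refine Fintype.sum_equiv (Equiv.mulRight z) _ _ fun k => ?_
  simp only [Equiv.coe_mulRight, h.mul_ker hc hz, map_mul, mul_assoc]
  simp [mul_assoc]

theorem F_mul_mul (hχ : IsClassFunction G χ) (m : K) (g : G) :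
    F hK c χ (inclusion hK m * g * inclusion hK m) = c m ^ 2 * F hK c χ g := by
  simp only [F, Finset.mul_sum]
  refine Fintype.sum_equiv ((Equiv.mulRight m).trans (Equiv.mulLeft m)) _ _ fun k => ?_
  simp only [Equiv.trans_apply, Equiv.coe_mulRight, Equiv.coe_mulLeft, hc.mul, map_mul, h.self,
    h.symm k m]
  rw [← mul_assoc, hχ.mul_comm]
  simp only [mul_assoc, Units.val_inv_eq_inv_val, Units.val_mul, Units.val_one]
  field_simp

theorem conj_F (hχ : IsCharacter G χ) (g : G) : conj (F hK c χ g) = F hK c χ g⁻¹ := by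
  simp only [F, map_sum]
  refine Fintype.sum_equiv (Equiv.inv K) _ _ fun k => ?_
  rw [map_mul, ← hχ.apply_inv, mul_inv_rev, hχ.isClassFunction.mul_comm, Equiv.inv_apply, map_inv,
    h.inv_eq hc, inv_inv, Units.val_inv_eq_inv_val, map_inv₀, ← Complex.inv_eq_conj (h.norm_eq hc k),
    inv_inv]

omit hc in
theorem exists_sq (hn : Odd n) {g : Γ} (hg : g ^ n ∈ L) (x : K) :
    ∃ m : K, (x : Γ) * (m * (g * m * g⁻¹))⁻¹ ∈ L := by
  have := Fintype.ofFinite (K ⧸ L.subgroupOf K)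
  have hcomm : ∀ x y : K, (QuotientGroup.mk (x * y) : K ⧸ L.subgroupOf K) = QuotientGroup.mk (y * x) :=
    fun x y => QuotientGroup.eq.2 (by simpa [commutatorElement_def, mem_subgroupOf, mul_assoc]
      using (h.sq y⁻¹ x⁻¹).1)
  let f : K →* K ⧸ L.subgroupOf K := MonoidHom.mk' (fun m => QuotientGroup.mk
    (m * MulAut.conjNormal g m)) fun x y => by
      rw [map_mul, mul_assoc, ← mul_assoc y, QuotientGroup.mk_mul, QuotientGroup.mk_mul, hcomm y]
      simp only [QuotientGroup.mk_mul, mul_assoc]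
  have h1 : f.ker = L.subgroupOf K := by
    refine le_antisymm (fun x hx => ?_) fun x hx => (QuotientGroup.eq_one_iff _).2
      (L.mul_mem hx (Normal.conj_mem ‹L.Normal› _ hx g))
    have h2 : (QuotientGroup.mk (MulAut.conjNormal g x) : K ⧸ L.subgroupOf K) = QuotientGroup.mk x⁻¹ :=
      (eq_inv_of_mul_eq_one_right (MonoidHom.mem_ker.1 hx) : _ = (QuotientGroup.mk x : K ⧸ _)⁻¹)
    have h3 : ∀ i : ℕ, (QuotientGroup.mk (MulAut.conjNormal (g ^ i) x) : K ⧸ L.subgroupOf K) =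
        QuotientGroup.mk (x ^ (-1 : ℤ) ^ i) := fun i => by
      induction i with
      | zero => simp
      | succ i ih =>
        have h4 := QuotientGroup.eq.1 ih
        rw [pow_succ', map_mul, MulAut.mul_apply, pow_succ', neg_one_mul, ← inv_zpow',
          QuotientGroup.mk_zpow, ← h2, ← QuotientGroup.mk_zpow, ← map_zpow, QuotientGroup.eq,
          ← map_inv, ← map_mul]
        exact Normal.conj_mem ‹L.Normal› _ h4 g
    have h4 := QuotientGroup.eq.1 (h3 n).symm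
    rw [hn.neg_one_pow, zpow_neg_one, inv_inv, mem_subgroupOf] at h4
    refine mem_of_coprime_pow_mem L hn.coprime_two_left ?_ (h.pow x x.2)
    simpa [pow_two, mul_assoc] using L.mul_mem (show (x : Γ) * (g ^ n * x * (g ^ n)⁻¹) ∈ L from h4)
      (L.mul_mem hg (L.inv_mem (Normal.conj_mem inferInstance _ hg (x : Γ)⁻¹)))
  obtain ⟨m, hm⟩ := (MonoidHom.range_eq_top.1 (eq_top_of_card_eq _ (by
    rw [← index_ker, h1]; rfl)) : Function.Surjective f) (QuotientGroup.mk x)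
  refine ⟨m, ?_⟩
  simpa [mul_assoc] using Normal.conj_mem ‹L.Normal› _ (mem_subgroupOf.1 ((QuotientGroup.eq
    (a := m * MulAut.conjNormal g m)).1 hm)) (m * (g * m * g⁻¹) : Γ)

theorem F_mul_conj (hn : Odd n) (hp : ∀ g ∈ G, g ^ n ∈ L) (hχ : IsClassFunction G χ)
    (hχ' : IsClassFunction G χ') (x : K) (g : G) :
    F hK c χ (inclusion hK x * g) * conj (F hK c χ' (inclusion hK x * g)) =
      F hK c χ g * conj (F hK c χ' g) := by
  obtain ⟨m, hm⟩ := h.exists_sq hn (hp g g.2) x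
  have hz : (⟨_, h.le hm⟩ : K) ∈ b.ker := MonoidHom.ext (h.left _ hm)
  have h1 : ∀ a : K, (c a : ℂ) * conj (c a : ℂ) = 1 := fun a => by
    rw [Complex.mul_conj', h.norm_eq hc]; simp
  rw [show inclusion hK x * g = inclusion hK ⟨_, h.le hm⟩ * (inclusion hK m * g * inclusion hK m) from
    Subtype.ext (by simp [mul_assoc]), h.F_mul hc hK hz, h.F_mul hc hK hz, h.F_mul_mul hc hK hχ,
    h.F_mul_mul hc hK hχ', map_mul, map_mul, map_pow]
  linear_combination (F hK c χ g * conj (F hK c χ' g)) * ((c m * conj (c m : ℂ)) ^ 2 *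
    h1 ⟨_, h.le hm⟩ + (c m * conj (c m : ℂ) + 1) * h1 m)

theorem Tm_sq_of_X {d : ℕ} (ρ : Representation ℂ G (Fin d → ℂ)) (hX : X hK b c ρ.character) :
    Tm c (ρ.comp (inclusion hK)) * Tm c (ρ.comp (inclusion hK)) =
      ((Nat.card K * Nat.card b.ker : ℕ) : ℂ) • 1 := by
  let _ := Fintype.ofFinite b.ker
  rw [h.Tm_sq hc, Em, Finset.sum_congr rfl fun z _ => by
    rw [MonoidHom.comp_apply, rep_eq_smul_of_character ρ (h.norm_eq hc z) (by
      simpa using hX z z.2 1), ← Units.smul_def, inv_smul_smul]]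
  simp [← Nat.cast_smul_eq_nsmul ℂ, smul_smul]

theorem sum_F_mul (hχ : IsIrrCharacter G χ) (hX : X hK b c χ) (hχ' : IsCharacter G χ') :
    ∑ g, F hK c χ g * conj (F hK c χ' g) =
      ((Nat.card K * Nat.card b.ker : ℕ) : ℂ) * ∑ g, χ g * conj (χ' g) := by
  obtain ⟨d, ρ, hρ, rfl⟩ := hχ
  have h1 := sum_classFun_smul ρ hχ'.isClassFunction.inv
  have h2 : ∀ k : K, ∑ g, F hK c ρ.character g * χ' (inclusion hK k * g⁻¹) =
      (∑ g, χ' g⁻¹ * ρ.character g) / Module.finrank ℂ (Fin d → ℂ) *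
        LinearMap.trace ℂ _ (Tm c (ρ.comp (inclusion hK)) * ρ (inclusion hK k)) := fun k => by
    rw [← smul_eq_mul, ← map_smul, ← mul_smul_comm, ← one_mul (ρ _), ← smul_mul_assoc, ← h1,
      Finset.sum_mul, Finset.mul_sum, map_sum]
    refine Fintype.sum_equiv (Equiv.mulRight (inclusion hK k)⁻¹) _ _ fun g => ?_
    simp [← trace_Tm, ← map_mul, mul_comm]
  have h3 := congrArg (LinearMap.trace ℂ _) (h.Tm_sq_of_X hc hK ρ hX)
  nth_rw 2 [Tm] at h3
  simp only [Finset.mul_sum, map_sum, mul_smul_comm, Units.smul_def, map_smul, smul_eq_mul,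
    LinearMap.trace_one, MonoidHom.comp_apply] at h3
  simp only [h.conj_F hc hK hχ', ← hχ'.apply_inv]
  simp only [F.eq_1 hK c χ', Finset.mul_sum]
  rw [Finset.sum_comm, Finset.sum_congr rfl fun k _ => by
    simp only [mul_left_comm _ (((c k)⁻¹ : ℂˣ) : ℂ)]
    rw [← Finset.mul_sum, h2, mul_left_comm], ← Finset.mul_sum, h3, ← Finset.mul_sum]
  have := rep_finrank_ne_zero ρ
  simp only [mul_comm (χ' _)]
  field_simp

omit h hc in
theorem Tm_comm {d : ℕ} (ρ : Representation ℂ G (Fin d → ℂ)) {g : G}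
    (hg : ∀ k, c (MulAut.conjNormal (g : Γ) k) = c k) :
    Tm c (ρ.comp (inclusion hK)) * ρ g = ρ g * Tm c (ρ.comp (inclusion hK)) := by
  simp only [Tm, Finset.sum_mul, Finset.mul_sum, smul_mul_assoc, mul_smul_comm,
    MonoidHom.comp_apply, ← map_mul]
  refine (Fintype.sum_equiv (MulAut.conjNormal (g : Γ)).toEquiv _ _ fun k => ?_).symm
  rw [MulEquiv.toEquiv_eq_coe, EquivLike.coe_coe, hg]
  exact congrArg (_ • ρ ·) (Subtype.ext (by simp))

theorem X_of_ne (hG : ∀ g ∈ G, ∀ z ∈ b.ker, c (MulAut.conjNormal g z) = c z)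
    (hχ : IsIrrCharacter G χ) {g : G} (h0 : F hK c χ g ≠ 0) : X hK b c χ := by
  obtain ⟨d, ρ, hρ, rfl⟩ := hχ
  let _ := Fintype.ofFinite b.ker
  have h1 : ∀ (u : Γ), ∀ z ∈ b.ker, MulAut.conjNormal u z ∈ b.ker := fun u z hz =>
    MonoidHom.ext fun y => by
      rw [← (MulAut.conjNormal u).apply_symm_apply y, h.cj, MonoidHom.mem_ker.1 hz]; rfl
  obtain ⟨a, ha⟩ := schur_scalar ρ (Em b c (ρ.comp (inclusion hK))) fun g => by
    simp only [Em, Finset.sum_mul, Finset.mul_sum, smul_mul_assoc, mul_smul_comm,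
      MonoidHom.comp_apply, ← map_mul]
    refine (Fintype.sum_bijective (fun z : b.ker => (⟨_, h1 g z z.2⟩ : b.ker))
      (Finite.injective_iff_bijective.1 fun x y e => Subtype.ext
        ((MulAut.conjNormal (g : Γ)).injective (congrArg Subtype.val e))) _ _ fun z => ?_).symm
    rw [hG g g.2 z z.2]
    exact congrArg (_ • ρ ·) (Subtype.ext (by simp))
  have h2 : a ≠ 0 := by
    rintro rfl
    have := h.Tm_mul_Em hc (ρ.comp (inclusion hK))
    rw [ha, zero_smul, mul_zero, eq_comm, smul_eq_zero_iff_right (card_ne_zero _)] at this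
    exact h0 (by rw [← trace_Tm, this, zero_mul, map_zero])
  intro z hz x
  have h3 := h.Em_mul hc (ρ.comp (inclusion hK)) hz
  rw [ha, smul_mul_assoc, one_mul, smul_comm, smul_right_inj h2, MonoidHom.comp_apply] at h3
  simp [Representation.character, h3, Units.smul_def]

end Dat

/-- The hypotheses on the complement `H`. -/
structure Cmp (n : ℕ) (L K H G : Subgroup Γ) : Prop where
  odd : Odd n
  KG : K ≤ G
  HG : H ≤ G
  pow : ∀ g ∈ G, g ^ n ∈ L
  gen : ∀ g ∈ G, ∃ k ∈ K, ∃ x ∈ H, g = k * x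
  inf : L = K ⊓ H

/-- The normalised trace of the involution times an element of `H`. -/
noncomputable def D (hG : Cmp n L K H G) (b : K →* K →* ℂˣ) (c : K → ℂˣ) (χ : G → ℂ) (x : H) : ℂ :=
  ((√(Nat.card K * Nat.card b.ker : ℕ) : ℝ) : ℂ)⁻¹ * F hG.KG c χ (inclusion hG.HG x)

omit [L.Normal] [K.Normal] in
theorem sqrt_sq : ((√(Nat.card K * Nat.card b.ker : ℕ) : ℝ) : ℂ)⁻¹ *
    ((√(Nat.card K * Nat.card b.ker : ℕ) : ℝ) : ℂ)⁻¹ * (Nat.card K * Nat.card b.ker : ℕ) = 1 := by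
  rw [← mul_inv, ← Complex.ofReal_mul, Real.mul_self_sqrt (Nat.cast_nonneg _), Complex.ofReal_natCast,
    inv_mul_cancel₀ (Nat.cast_ne_zero.2 (mul_pos Nat.card_pos Nat.card_pos).ne')]

namespace Dat
variable (h : Dat n μ b) (hc : Fam μ b c) (hG : Cmp n L K H G) {χ χ' : G → ℂ}
include h hc

theorem inner_D (hχ : IsIrrCharacter G χ) (hX : X hG.KG b c χ) (hχ' : IsCharacter G χ') :
    classInner (D hG b c χ) (D hG b c χ') = classInner χ χ' := by
  have key : ∀ A : G → ℂ, (∀ x g, A (inclusion hG.KG x * g) = A g) →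
      Nat.card L * ∑ g, A g = Nat.card K * ∑ x, A (inclusion hG.HG x) := fun A hA => by
    have := sum_of_mul hG.KG hG.HG hG.gen hG.inf (F := extendByZero G A) fun k hk g => by
      by_cases hg : g ∈ G
      · exact (extendByZero_coe G A (inclusion hG.KG ⟨k, hk⟩ * ⟨g, hg⟩)).trans
          ((hA _ _).trans (extendByZero_coe G A ⟨g, hg⟩).symm)
      · rw [extendByZero_of_not_mem _ _ hg, extendByZero_of_not_mem _ _
          (mt (G.mul_mem_cancel_left (hG.KG hk)).1 hg)]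
    rw [Finset.sum_congr rfl fun g _ => extendByZero_coe G A g] at this
    exact this.trans (congrArg _ (Finset.sum_congr rfl fun x _ =>
      extendByZero_coe G A (inclusion hG.HG x)))
  have h1 := key (fun g => F hG.KG c χ g * conj (F hG.KG c χ' g))
    (h.F_mul_conj hc hG.KG hG.odd hG.pow hχ.isClassFunction hχ'.isClassFunction)
  have h2 := key 1 fun _ _ => rfl
  rw [h.sum_F_mul hc hG.KG hχ hX hχ'] at h1
  simp only [Pi.one_apply, Finset.sum_const, Finset.card_univ, ← Nat.card_eq_fintype_card,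
    nsmul_eq_mul, mul_one] at h2
  simp only [classInner, D, map_mul, map_inv₀, Complex.conj_ofReal, mul_mul_mul_comm _ (F _ _ _ _),
    ← Finset.mul_sum]
  refine mul_left_cancel₀ (mul_ne_zero (card_ne_zero K) (card_ne_zero H)) ?_
  rw [mul_assoc, mul_inv_cancel_left₀ (card_ne_zero H), mul_left_comm, ← h1, ← h2, mul_left_comm,
    ← mul_assoc _ _ (Finset.sum _ _), sqrt_sq, one_mul, mul_assoc,
    mul_inv_cancel_left₀ (card_ne_zero G)]

variable (hH : ∀ x ∈ H, ∀ k, c (MulAut.conjNormal x k) = c k)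
include hH

theorem exists_D (hχ : IsIrrCharacter G χ) (hX : X hG.KG b c χ) : ∃ (ε : ℂ) (ψ : H → ℂ), ε ≠ 0 ∧
    IsIrrCharacter H ψ ∧ D hG b c χ = ε • ψ ∧
      ∀ ψ', IsIrrCharacter H ψ' → (Rel 2 (inclusion hG.HG) χ ψ' ↔ ψ' = ψ) := by
  have h0 := (h.inner_D hc hG hχ hX hχ.isCharacter).trans hχ.inner_self
  obtain ⟨a, ha, h1⟩ : ∃ a, IsCharacter H a ∧
      D hG b c χ = a + a - fun x => χ (inclusion hG.HG x) := by
    obtain ⟨d, ρ, hρ, rfl⟩ := hχ
    refine ⟨_, isCharacter_trace_mul_proj (ρ.comp (inclusion hG.HG)) ((2⁻¹ : ℂ) • (1 +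
      ((√(Nat.card K * Nat.card b.ker : ℕ) : ℝ) : ℂ)⁻¹ • Tm c (ρ.comp (inclusion hG.KG)))) ?_
      fun x => ?_, funext fun x => ?_⟩
    · rw [smul_mul_smul_comm, add_mul, mul_add, mul_add, smul_mul_smul_comm,
        h.Tm_sq_of_X hc hG.KG ρ hX, smul_smul, sqrt_sq, one_mul, one_mul, mul_one]
      module
    · simp only [smul_mul_assoc, mul_smul_comm, add_mul, mul_add, one_mul, mul_one,
        MonoidHom.comp_apply, Tm_comm hG.KG ρ (g := inclusion hG.HG x) (hH x x.2)]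
    · simp only [D, ← trace_Tm, Pi.sub_apply, Pi.add_apply, mul_smul_comm, mul_add, mul_one, map_smul,
        map_add, MonoidHom.comp_apply, LinearMap.trace_mul_comm ℂ (Tm _ _), Representation.character,
        smul_eq_mul]
      ring
  have h2 := hχ.isCharacter.comp (inclusion hG.HG)
  obtain ⟨ε, ψ, hε, hψ, h3⟩ := (h1 ▸ (ha.add ha).isGen.sub h2.isGen).exists_sign_irr h0
  refine ⟨ε, ψ, by rcases hε with rfl | rfl <;> simp, hψ, h3, fun ψ' hψ' => ?_⟩
  obtain ⟨m, hm⟩ := h2.exists_nat_inner hψ'.isCharacter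
  obtain ⟨k, hk⟩ := ha.exists_nat_inner hψ'.isCharacter
  have h4 := congrArg (classInner · ψ') (h1.symm.trans h3)
  simp only [classInner_sub_left, classInner_add_left, classInner_smul_left, hm, hk,
    hψ.inner hψ'] at h4
  have h5 : Rel 2 (inclusion hG.HG) χ ψ' ↔ ¬ 2 ∣ m :=
    ⟨fun ⟨m', h5, h6⟩ => Nat.cast_injective (R := ℂ) (h5.symm.trans hm) ▸ h6, fun h5 => ⟨m, hm, h5⟩⟩
  rw [h5, eq_comm]
  split_ifs at h4 with h6
  · have h7 : (k : ℤ) + k - m = ε := by exact_mod_cast h4.trans (mul_one _)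
    exact iff_of_true (by omega) h6
  · have h7 : (k : ℤ) + k - m = 0 := by exact_mod_cast h4.trans (mul_zero _)
    exact iff_of_false (by omega) h6

omit [Finite Γ] in
include hG in
theorem cj_ker (g : Γ) (hg : g ∈ G) (z : K) (hz : z ∈ b.ker) : c (MulAut.conjNormal g z) = c z := by
  obtain ⟨k, hk, x, hx, rfl⟩ := hG.gen g hg
  rw [← hH x hx z, show MulAut.conjNormal (k * x) z = ⟨k, hk⟩ * (MulAut.conjNormal x z *
    (⟨k, hk⟩ : K)⁻¹) from Subtype.ext (by simp [mul_assoc]), hc.mul, hc.mul, map_mul, map_inv,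
    map_inv, h.self, h.symm (MulAut.conjNormal x z), h.inv_eq hc,
    ← (MulAut.conjNormal x).apply_symm_apply ⟨k, hk⟩, h.cj, MonoidHom.mem_ker.1 hz]
  simp

theorem corr : Corr 2 (inclusion hG.HG) (X hG.KG b c)
    fun ψ => ∀ (l : H) (hl : (l : Γ) ∈ L) x, ψ (l * x) = μ ⟨l, hl⟩ * ψ x := by
  classical
  refine ⟨fun χ hχ hX => ?_, fun χ hχ hX ξ ξ' hξ _ hξ' _ r r' => ?_, fun _ _ _ _ _ _ m _ hm =>
    Or.inl ?_, fun χ χ' hχ hX hχ' hX' ξ hξ _ r r' => ?_, fun ψ hψ hY => ?_⟩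
  · obtain ⟨ε, ψ, -, hψ, -, h1⟩ := h.exists_D hc hG hH hχ hX
    have r := (h1 ψ hψ).2 rfl
    refine ⟨ψ, hψ, fun l hl => apply_mul_of_constituent (hχ.isClassFunction.comp _) hψ r.ov
      (norm_hom μ _) fun x => ?_, r⟩
    rw [← hc.ext ⟨l, h.le hl⟩ hl]
    exact hX ⟨l, h.le hl⟩ (MonoidHom.ext (h.left _ hl)) (inclusion hG.HG x)
  · obtain ⟨ε, ψ, -, hψ, -, h1⟩ := h.exists_D hc hG hH hχ hX
    exact ((h1 _ hξ).1 r).trans ((h1 _ hξ').1 r').symm
  · exact (ZMod.natCast_eq_one_iff_odd).2 (Nat.odd_iff.2 (Nat.two_dvd_ne_zero.1 hm))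
  · obtain ⟨ε, ψ, hε, hψ, h1, h2⟩ := h.exists_D hc hG hH hχ hX
    obtain ⟨ε', ψ', hε', -, h3, h4⟩ := h.exists_D hc hG hH hχ' hX'
    refine hχ.eq_of_inner_ne_zero hχ' ?_
    rw [← h.inner_D hc hG hχ hX hχ'.isCharacter, h1, h3, ← (h2 _ hξ).1 r, ← (h4 _ hξ).1 r',
      classInner_smul_left, classInner_smul_right, hξ.inner_self]
    simp [hε, hε']
  · have h1 : ∑ χ : IrrCharacter G, χ.1 1 * ∑ x, F hG.KG c χ.1 (inclusion hG.HG x) * conj (ψ x) ≠
        0 := by
      have h2 : ∀ x : H, ∑ χ : IrrCharacter G, χ.1 1 * (F hG.KG c χ.1 (inclusion hG.HG x) *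
          conj (ψ x)) = if (x : Γ) ∈ L then Nat.card G * conj (ψ 1) else 0 := fun x => by
        simp only [F, Finset.sum_mul, Finset.mul_sum]
        rw [Finset.sum_comm, Finset.sum_congr rfl fun k _ => by
          rw [Finset.sum_congr rfl fun χ _ => by rw [← mul_assoc, mul_left_comm], ← Finset.sum_mul,
            ← Finset.mul_sum, sum_degree_mul]]
        split_ifs with hx
        · rw [Finset.sum_eq_single (⟨x, h.le hx⟩ : K)⁻¹ (fun k _ hk => by
            rw [if_neg fun h0 => hk (Subtype.ext (eq_inv_of_mul_eq_one_left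
              (congrArg Subtype.val h0))), mul_zero, zero_mul]) (by simp),
            if_pos (Subtype.ext (inv_mul_cancel (x : Γ))), h.inv_eq hc, inv_inv, hc.ext _ hx,
            show ψ x = _ from mul_one x ▸ hY x hx 1, map_mul, mul_mul_mul_comm, Complex.mul_conj', norm_hom]
          simp
        · refine Finset.sum_eq_zero fun k _ => ?_
          rw [if_neg fun h0 : inclusion hG.KG k * inclusion hG.HG x = 1 => hx (hG.inf.ge
            ⟨(K.mul_mem_cancel_left k.2).1 ((show (k : Γ) * x = 1 from congrArg Subtype.val h0) ▸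
              K.one_mem), x.2⟩), mul_zero, zero_mul]
      simp only [Finset.mul_sum]
      rw [Finset.sum_comm, Finset.sum_congr rfl fun x _ => h2 x, ← Finset.sum_filter,
        Finset.sum_const, nsmul_eq_mul]
      exact mul_ne_zero (Nat.cast_ne_zero.2 (Finset.card_ne_zero_of_mem (a := 1) (by simp)))
        (mul_ne_zero (card_ne_zero G) ((map_ne_zero _).2 hψ.one_ne_zero))
    obtain ⟨χ, -, h2⟩ := Finset.exists_ne_zero_of_sum_ne_zero h1
    obtain ⟨x, -, h3⟩ := Finset.exists_ne_zero_of_sum_ne_zero (right_ne_zero_of_mul h2)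
    have hX := h.X_of_ne hc hG.KG (h.cj_ker hc hG hH) χ.2 (left_ne_zero_of_mul h3)
    obtain ⟨ε, ψ', -, hψ', h4, h5⟩ := h.exists_D hc hG hH χ.2 hX
    refine ⟨χ.1, χ.2, hX, (h5 ψ hψ).2 (eq_of_inner_smul_ne_zero hψ' hψ (c := ε) ?_).symm⟩
    simp only [← h4, classInner, D, mul_assoc, ← Finset.mul_sum]
    exact mul_ne_zero (inv_ne_zero (card_ne_zero H)) (mul_ne_zero (left_ne_zero_of_mul
      (left_ne_zero_of_mul_eq_one (sqrt_sq (b := b)))) (right_ne_zero_of_mul h2))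

end Dat

end CL.Baer
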