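import Mathlib
import Cfsg.Agent.BLK.DefCard
import Cfsg.Agent.BLK.BlockOrth
import Cfsg.Agent.BLK.Osima2
import Cfsg.Agent.CHAR.IndRep
import Cfsg.Agent.CHAR.Values

/-! Integrality tools for perfect isometries. -/

set_option autoImplicit false

open Cfsg Subgroup CL.Char
open scoped Classical

namespace CL.Blk

variable {G : Type*} [Group G] {G' : Type*} [Group G'] {p : ℕ} {M : Ideal AlgInt}

/-- The values of `f` divided by the centralizer orders are local integers. -/
def CInt (M : Ideal AlgInt) (f : G → ℂ) : Prop :=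
  ∀ g, f g / (Nat.card (centralizer ({g} : Set G)) : ℂ) ∈ V M

theorem CInt.sum {ι : Type*} (s : Finset ι) {a : ι → ℂ} {f : ι → G → ℂ} (ha : ∀ i ∈ s, a i ∈ V M)
    (h : ∀ i ∈ s, CInt M (f i)) : CInt M fun g => ∑ i ∈ s, a i * f i g := fun g => by
  rw [Finset.sum_div]
  exact sum_mem fun i hi => by rw [mul_div_assoc]; exact mul_mem (ha i hi) (h i hi g)

theorem CInt.of_mul (hM : IsPModular p M) {f : G → ℂ} {e : ℕ} (he : ¬ p ∣ e)
    (h : CInt M fun g => e * f g) : CInt M f := fun g =>
  mem_V_of_mul_unit (mt (natCast_mem_nonunits_iff hM e).1 he) (by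
    rw [← mul_div_assoc]; exact h g)

theorem cInt_of_vanish [Finite G] (hM : IsPModular p M) {θ : G → ℂ}
    (hθ : IsGeneralizedCharacter G θ) (h0 : ∀ y, p ∣ orderOf y → θ y = 0) : CInt M θ := fun g => by
  have := Fact.mk hM.1
  obtain ⟨P⟩ : Nonempty (Sylow p (centralizer ({g} : Set G))) := inferInstance
  have h1 := apply_div_card_mem_V (M := M) hM.1 hθ h0 (P.isPGroup'.map (Subgroup.subtype _))
    (map_subtype_le _)
  rw [card_map_of_injective (Subgroup.subtype_injective _)] at h1
  rw [← (P : Subgroup _).card_mul_index, Nat.cast_mul, ← div_div, div_eq_mul_inv]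
  exact mul_mem h1 (natCast_inv_mem_V hM P.not_dvd_index)

theorem indFun_mem_V [Fintype G] {H : Subgroup G} {θ : H → ℂ} (hθ : IsClassFunction H θ)
    (h : ∀ x, θ x ∈ V M) (g : G) : indFun H θ g ∈ V M := by
  rw [indFun_eq_sum_quotient H hθ]
  refine sum_mem fun a _ => ?_
  rw [extendByZero_apply]
  split_ifs
  exacts [h _, zero_mem _]

theorem CInt.indFun [Fintype G] {H : Subgroup G} {θ : H → ℂ} (hθ : IsClassFunction H θ)
    (h : CInt M θ) : CInt M (indFun H θ) := fun g => by
  have hc : IsClassFunction G fun x => if IsConj g x then (1 : ℂ) else 0 := fun x y =>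
    if_congr ⟨fun a => a.trans (isConj_iff.2 ⟨y, rfl⟩).symm, fun a => a.trans (isConj_iff.2 ⟨y, rfl⟩)⟩
      rfl rfl
  have h1 := sum_indFun_mul H θ hc
  rw [sum_eq_sum_conjClasses (f := fun x : H => θ x * if IsConj g x then 1 else 0)
    (hθ.mul (hc.res H)), Finset.sum_congr rfl
    (g := fun x => if IsConj g x then Cfsg.indFun H θ g else 0) fun x _ => by
      split_ifs with a
      · rw [mul_one, (indFun_isClassFunction H θ).eq_of_isConj a]
      · rw [mul_zero], ← Finset.sum_filter, Finset.sum_const, card_filter_isConj, nsmul_eq_mul]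
    at h1
  have h2 : Cfsg.indFun H θ g / (Nat.card (centralizer ({g} : Set G)) : ℂ) =
      ∑ C : ConjClasses H, θ C.out / (Nat.card (centralizer ({C.out} : Set H)) : ℂ) *
        if IsConj g (C.out : H) then 1 else 0 := by
    refine mul_left_cancel₀ (card_ne_zero G) ?_
    conv_lhs => rw [← (centralizer ({g} : Set G)).index_mul_card, Nat.cast_mul, mul_assoc,
      mul_div_cancel₀ _ (card_ne_zero _), h1]
    rw [Finset.mul_sum, Finset.mul_sum]
    refine Finset.sum_congr rfl fun C _ => ?_
    rw [← H.index_mul_card, ← (centralizer ({C.out} : Set H)).index_mul_card]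
    have := card_ne_zero (centralizer ({C.out} : Set H))
    push_cast
    field_simp
  rw [h2]
  refine sum_mem fun C _ => mul_mem (h _) ?_
  split_ifs
  exacts [one_mem _, zero_mem _]

/-- Inducing both variables of a kernel preserves the integrality condition. -/
theorem cInt_ind_ind [Fintype G] [Fintype G'] {H : Subgroup G} {H' : Subgroup G'} {ι : Type*}
    (s : Finset ι) {a : ι → H → ℂ} {a' : ι → H' → ℂ} (ha : ∀ i, IsClassFunction H (a i))
    (ha' : ∀ i, IsClassFunction H' (a' i)) (h : ∀ y, CInt M fun x => ∑ i ∈ s, a i x * a' i y)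
    (y : G') : CInt M fun x => ∑ i ∈ s, indFun H (a i) x * indFun H' (a' i) y := by
  have h1 : (fun x => ∑ i ∈ s, indFun H (a i) x * indFun H' (a' i) y) =
      indFun H (∑ i ∈ s, indFun H' (a' i) y • a i) := by
    funext x
    simp only [indFun_sum, indFun_smul, Finset.sum_apply, Pi.smul_apply, smul_eq_mul, mul_comm]
  rw [h1]
  refine CInt.indFun (IsClassFunction.sum _ fun i _ => (ha i).smul _) fun x => ?_
  have h2 : (∑ i ∈ s, indFun H' (a' i) y • a i) x / (Nat.card (centralizer ({x} : Set H)) : ℂ) =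
      indFun H' (∑ i ∈ s, (a i x / (Nat.card (centralizer ({x} : Set H)) : ℂ)) • a' i) y := by
    simp only [indFun_sum, indFun_smul, Finset.sum_apply, Pi.smul_apply, smul_eq_mul,
      Finset.sum_div]
    exact Finset.sum_congr rfl fun i _ => by ring
  rw [h2]
  refine indFun_mem_V (IsClassFunction.sum _ fun i _ => (ha' i).smul _) (fun z => ?_) y
  convert h z x using 1
  simp only [Finset.sum_apply, Pi.smul_apply, smul_eq_mul, Finset.sum_div]
  exact Finset.sum_congr rfl fun i _ => by ring

/-- The identity is a perfect isometry. -/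
theorem cInt_block [Finite G] (hM : IsPModular p M) {B : Set (IrrCharacter G)} (hB : IsPBlock M B)
    (y : G) : CInt M fun x => ∑ χ with χ ∈ B, χ.1 x * χ.1 y := fun x => by
  have := Fintype.ofFinite G
  have h1 := sum_blockCoeff_conj B y x⁻¹
  rw [inv_inv, sum_eq_sum_leftCosets (centralizer ({x} : Set G)), Finset.sum_congr rfl
    (g := fun q => (Nat.card (centralizer ({x} : Set G)) : ℂ) *
      blockCoeff B (q.out * x⁻¹ * q.out⁻¹ * y⁻¹)) fun q _ => by
      rw [Finset.sum_congr rfl (g := fun _ => blockCoeff B (q.out * x⁻¹ * q.out⁻¹ * y⁻¹))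
        fun h _ => by
          have := mem_centralizer_singleton_iff.1 h.2
          congr 2
          rw [mul_inv_rev, mul_assoc q.out, (Commute.inv_right this).eq]
          group, Finset.sum_const, Finset.card_univ, nsmul_eq_mul, Nat.card_eq_fintype_card],
    ← Finset.mul_sum] at h1
  beta_reduce
  rw [Finset.sum_congr rfl fun χ _ => mul_comm (χ.1 x) (χ.1 y), ← h1,
    mul_div_cancel_left₀ _ (card_ne_zero _)]
  exact sum_mem fun q _ => blockCoeff_mem_V hM hB _

theorem isPerfectFun_kernel [Finite G] [Finite G'] (hM : IsPModular p M)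
    {c : Set (IrrCharacter G')} {I : IrrCharacter G' → IrrCharacter G} {ε : IrrCharacter G' → ℤ}
    (h1 : ∀ y, CInt M fun x => signedBijectionKernel c I ε x y)
    (h2 : ∀ x, CInt M fun y => signedBijectionKernel c I ε x y)
    (h3 : ∀ x y, ¬ (p ∣ orderOf x ↔ p ∣ orderOf y) → signedBijectionKernel c I ε x y = 0) :
    IsPerfectFun p M (signedBijectionKernel c I ε) := fun x y => by
  have h4 : IsAlgebraic ℚ (signedBijectionKernel c I ε x y) := by
    rw [signedBijectionKernel, finsum_mem_block_eq]
    exact isAlgebraic_of_isIntegral (IsIntegral.sum _ fun η _ => ((isIntegral_intCast' _).mul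
      (IsIrrCharacter.isIntegral (I η).2 x)).mul (IsIrrCharacter.isIntegral η.2 y))
  refine ⟨memLocalRing_of_mem_V hM (isAlgebraic_div h4 (isAlgebraic_natCast _)) (h1 y x),
    memLocalRing_of_mem_V hM (isAlgebraic_div h4 (isAlgebraic_natCast _)) (h2 x y), ?_⟩
  exact (em _).imp (fun a : p ∣ orderOf x ↔ p ∣ orderOf y => not_congr a) (h3 x y)

end CL.Blk
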