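import Mathlib
import Cfsg.Agent.BLK.Local
import Cfsg.Agent.BLK.Transport
import Cfsg.Agent.BLK.Section
import Cfsg.Agent.SOLV.Core
import Cfsg.Agent.CHAR.Values

/-! Normal `p'`-subgroups in kernels of blocks along Brauer pairs. -/

set_option autoImplicit false
open Cfsg MonoidAlgebra Subgroup
open scoped CL.MSS

namespace CL.Blk

section Field
variable {F : Type*} [Field F] {G : Type*} [Group G] {p : ℕ}

/-- `X` acts trivially on `e`. -/
def KerF (X : Subgroup G) (e : F[G]) : Prop := ∀ x ∈ X, single x 1 * e = e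

theorem KerF.mono {X Y : Subgroup G} {e : F[G]} (h : KerF X e) (hY : Y ≤ X) : KerF Y e :=
  fun x hx => h x (hY hx)

theorem kerF_map_amb_iff {K : Type*} [Group K] [Finite K] {f : K →* G} (hf : Function.Injective f)
    {N : Subgroup K} {e : F[K]} : KerF (N.map f) (amb f e) ↔ KerF N e := by
  refine ⟨fun h x hx => amb_injective hf ?_, ?_⟩
  · rw [map_mul, amb_single, h _ (mem_map_of_mem f hx)]
  · rintro h _ ⟨x, hx, rfl⟩
    rw [← amb_single, ← map_mul, h x hx]

variable [Finite G]

open Classical in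
/-- The averaging element of a subgroup. -/
noncomputable def avgF (F : Type*) [Field F] (X : Subgroup G) : F[G] :=
  ofFun fun g => if g ∈ X then (Nat.card X : F)⁻¹ else 0

open Classical in
theorem coeff_avgF (X : Subgroup G) (g : G) :
    (avgF F X).coeff g = if g ∈ X then (Nat.card X : F)⁻¹ else 0 := rfl

theorem kerF_avgF (X : Subgroup G) : KerF X (avgF F X) := fun n hn => by
  classical
  refine ga_ext fun g => ?_
  rw [coeff_single_mul', one_mul, coeff_avgF, coeff_avgF]
  exact if_congr (X.mul_mem_cancel_left (X.inv_mem hn)) rfl rfl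

theorem KerF.avgF_mul {X : Subgroup G} {e : F[G]} (h : KerF X e) (hX : (Nat.card X : F) ≠ 0) :
    avgF F X * e = e := by
  classical
  have := Fintype.ofFinite G
  rw [eq_sum_smul_single (avgF F X), Finset.sum_mul,
    Finset.sum_congr rfl (g := fun g => (avgF F X).coeff g • e) fun g _ => by
      rw [smul_mul_assoc]
      by_cases hg : g ∈ X
      · rw [h g hg]
      · rw [coeff_avgF, if_neg hg, zero_smul, zero_smul], ← Finset.sum_smul]
  simp only [coeff_avgF]
  rw [← Finset.sum_filter, Finset.sum_const, nsmul_eq_mul, ← Fintype.card_subtype,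
    ← Nat.card_eq_fintype_card, mul_inv_cancel₀ hX, one_smul]

theorem kerF_of_avgF_mul {X : Subgroup G} {e : F[G]} (h : avgF F X * e = e) : KerF X e :=
  fun x hx => by rw [← h, ← mul_assoc, kerF_avgF X x hx]

theorem isFixed_avgF {X H : Subgroup G} (h : H ≤ normalizer (X : Set G)) : IsFixed H (avgF F X) :=
  fun u hu g => by
  classical
  rw [coeff_avgF, coeff_avgF]
  exact if_congr (mem_normalizer_iff.1 (h hu) g).symm rfl rfl

theorem Br_avgF (R X : Subgroup G)
    (h : (Nat.card (X ⊓ centralizer (R : Set G) : Subgroup G) : F) ≠ 0) :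
    Br R (avgF F X) = ((Nat.card (X ⊓ centralizer (R : Set G) : Subgroup G) : F) *
      (Nat.card X : F)⁻¹) • avgF F (X ⊓ centralizer (R : Set G)) := by
  classical
  refine ga_ext fun g => ?_
  rw [coeff_trunc, coeff_smul', coeff_avgF, coeff_avgF]
  generalize (Nat.card (X ⊓ centralizer (R : Set G) : Subgroup G) : F) = c at h
  by_cases h1 : g ∈ X <;> by_cases h2 : g ∈ centralizer (R : Set G) <;> simp [h1, h2]
  field_simp

omit [Finite G] in
theorem natCast_ne_zero_of_not_dvd' (hp : p.Prime) (hF : (p : F) = 0) {n : ℕ} (h : ¬ p ∣ n) :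
    (n : F) ≠ 0 := by
  have := (CharP.charP_iff_prime_eq_zero hp).2 hF
  exact (CharP.cast_eq_zero_iff F p n).not.2 h

theorem single_mul_of_Br (hp : p.Prime) (hF : (p : F) = 0) {R : Subgroup G} (hR : IsPGroup p R)
    {b g : F[G]} (hb : IsFixed R b) (hg : Br R b * g = g) {x : G}
    (hx : x ∈ centralizer (R : Set G)) (h : single x 1 * b = b) : single x 1 * g = g := by
  have h1 := suppIn_single hx (1 : F)
  rw [← hg, ← mul_assoc, ← h1.Br_eq, ← Br_mul hp hF hR h1.isFixed_of_centralizer hb, h]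

theorem kerF_of_Br (hp : p.Prime) (hF : (p : F) = 0) {H R X : Subgroup G} {b g : F[G]}
    (hb : IsSB H b) (hXH : X ≤ H) (hn : H ≤ normalizer (X : Set G)) (hR : IsPGroup p R)
    (hRX : R ≤ normalizer (X : Set G)) (hRb : IsFixed R b) (hX : ¬ p ∣ Nat.card X)
    (hg : Br R b * g = g) (h0 : g ≠ 0) (h : KerF (X ⊓ centralizer (R : Set G)) g) : KerF X b := by
  have h1 := natCast_ne_zero_of_not_dvd' hp hF hX
  have h2 := natCast_ne_zero_of_not_dvd' hp hF fun h' =>
    hX (h'.trans (card_dvd_of_le (inf_le_left (b := centralizer (R : Set G)))))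
  refine kerF_of_avgF_mul (hb.mul_eq_self_of_ne_zero ⟨fun x hx => ?_, isFixed_avgF hn⟩
    ((kerF_avgF X).avgF_mul h1) fun h3 => ?_)
  · rw [coeff_avgF, if_neg fun h => hx (hXH h)]
  · have h4 : Br R (avgF F X) * g = 0 := by
      rw [← hg, ← mul_assoc, ← Br_mul hp hF hR (isFixed_avgF hRX) hRb, h3, map_zero, zero_mul]
    rw [Br_avgF R X h2, smul_mul_assoc, h.avgF_mul h2] at h4
    exact smul_ne_zero (mul_ne_zero h2 (inv_ne_zero h1)) h0 h4

/-- Every normal `π`-subgroup of `C(Q)` acts trivially on `f`. -/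
def PiK (π : Set ℕ) (Q : Subgroup G) (f : F[G]) : Prop :=
  ∀ Y ≤ centralizer (Q : Set G), centralizer (Q : Set G) ≤ normalizer (Y : Set G) →
    IsPiNum π (Nat.card Y) → KerF Y f

theorem PiK.of_cj {π : Set ℕ} {Q : Subgroup G} {f : F[G]} {x : G}
    (h : PiK π (x •ᶜ Q) (cj x f)) : PiK π Q f := fun Y h1 h2 h3 =>
  (kerF_map_amb_iff (MulAut.conj x).injective).1 (h (x •ᶜ Y)
    (by rw [← MSS.cj_centralizer]; exact MSS.cj_mono x h1)
    (by rw [← MSS.cj_centralizer, ← MSS.cj_normalizer]; exact MSS.cj_mono x h2)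
    (by rwa [MSS.card_cj]))

theorem PLE.piK (hp : p.Prime) (hF : (p : F) = 0) {π : Set ℕ} (hπ : p ∉ π) {Q P : Subgroup G}
    {f e : F[G]} (h : PLE p Q f P e) (he : PiK π P e) : PiK π Q f := by
  refine h.head_induction (motive := PiK π) he fun Q f R g hn _ hg Y h1 h2 h3 => ?_
  have h4 := isPiNum_card_map_piCore (π := π) (centralizer (Q : Set G)).subtype
  have h5 := normalizer_le_normalizer_map_piCore (π := π) (centralizer (Q : Set G))
  refine KerF.mono (kerF_of_Br hp hF hn.left.sb (map_subtype_le _) (le_normalizer.trans h5)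
    hn.right.pgroup ((MSS.le_normalizer_centralizer hn.norm).trans h5) hn.fixed
    (fun hd => hπ (h4 p hp hd)) hn.br hn.right.ne_zero (hg _ inf_le_right (MSS.le_normalizer_inf
      (((centralizer_anti hn.le).trans le_normalizer).trans h5) le_normalizer)
      (h4.of_dvd (card_dvd_of_le inf_le_left)))) (le_map_piCore h1 h2 h3)

theorem PLE.single_mul (hp : p.Prime) (hF : (p : F) = 0) {Q P : Subgroup G} {f e : F[G]}
    (h : PLE p Q f P e) {x : G} (hx : x ∈ centralizer (P : Set G)) (hf : single x 1 * f = f) :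
    single x 1 * e = e :=
  h.tail_induction (motive := fun P e => x ∈ centralizer (P : Set G) → single x 1 * e = e)
    (fun _ => hf) (fun _ _ _ _ _ hn ih hx => single_mul_of_Br hp hF hn.right.pgroup hn.fixed hn.br
      hx (ih (centralizer_anti hn.le hx))) hx

end Field

variable {G : Type*} [Group G] [Finite G] {p : ℕ} {M : Ideal AlgInt}

theorem single_mul_eB_of_mem {b : Set (IrrCharacter G)} {x : G} (hx : x ∈ blockKer b) :
    single x 1 * eB M b = eB M b := by
  classical
  refine ga_ext fun g => ?_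
  rw [coeff_single_mul', one_mul, coeff_eB, coeff_eB, blockCoeff_eq_sum, blockCoeff_eq_sum]
  congr 2
  refine Finset.sum_congr rfl fun χ hχ => ?_
  rw [inv_mem ((IsIrrCharacter.mem_charKer χ.2).2 (hx χ (Finset.mem_filter.1 hχ).2)) g]

theorem subset_kerSet_of_kerF (hM : IsPModular p M) {b : Set (IrrCharacter G)} (hb : IsPBlock M b)
    {N : Subgroup G} [N.Normal] (hN : ¬ p ∣ Nat.card N) (h : KerF N (eB M b)) : b ⊆ kerSet N := by
  classical
  have hA := isBlockUnion_kerSet hM hN
  rw [← hA.lamB_eB_eq_one_iff hM hb, ← mul_eB_eq_iff hM hb (eB_isCentral _) (hA.eB_mul_self hM)]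
  refine Eq.trans (congrArg (· * _) (ga_ext fun g => ?_))
    (h.avgF_mul (natCast_ne_zero_of_not_dvd' hM.1 (natCast_F hM) hN))
  rw [eB, blockIdem_kerSet, coeff_redA, coeff_avgI, coeff_avgF]
  split_ifs
  · rw [red_inv, red_natCast]
  · exact red_zero

theorem mem_blockKer_of_kerF (hM : IsPModular p M) {π : Set ℕ} (hπ : p ∉ π) {K : Subgroup G}
    {b : Set (IrrCharacter K)} (hb : IsPBlock M b)
    (h : KerF ((piCore π K).map K.subtype) (sb M K b)) : b ⊆ kerSet (piCore π K) :=
  subset_kerSet_of_kerF hM hb (fun hd => hπ (isPiNum_card_piCore π K p hM.1 hd))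
    ((kerF_map_amb_iff K.subtype_injective).1 h)

theorem exists_relPair_normalizer (hM : IsPModular p M) {B : Set (IrrCharacter G)}
    {D H : Subgroup G} (hD : IsPGroup p D) (hDH : D ≤ H) (hC : centralizer (D : Set G) ≤ H)
    (hN : H ≤ normalizer (D : Set G)) {b : Set (IrrCharacter H)} (hb : IsInducedBlock M H b B) :
    ∃ e, RelPair p H (sb M H b) D e ∧ RelPair p ⊤ (eB M B) D e := by
  have h1 := isSB_sb hM hb.1
  obtain ⟨e, he⟩ := h1.exists_relPair hM.1 (natCast_F hM) hD hDH hC
    (h1.brNe_of_normal hM.1 (natCast_F hM) hD hDH hN)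
  exact ⟨e, he, he.top_of_indAlong hM.1 (natCast_F hM) (isBlk_eB hM hb.1) (isBlk_eB hM hb.2.1)
    (hb.indAlong hM)⟩

/-- If `O_π(N(D))` lies in the kernel of the Brauer correspondent, every pair has the property. -/
theorem piK_of_correspondent (hM : IsPModular p M) {π : Set ℕ} (hπ : p ∉ π)
    {B : Set (IrrCharacter G)} {D : Subgroup G} (hD : IsDefectGroup p M B D)
    {B₁ : Set (IrrCharacter (normalizer (D : Set G)))}
    (hB₁ : IsInducedBlock M (normalizer (D : Set G)) B₁ B)
    (hker : ∀ n ∈ piCore π (normalizer (D : Set G)), n ∈ blockKer B₁) {R : Subgroup G}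
    {g : (F M)[G]} (hR : RelPair p ⊤ (eB M B) R g) : PiK π R g := by
  obtain ⟨e, h1, h2⟩ := exists_relPair_normalizer hM hD.isPGroup le_normalizer
    (centralizer_le_normalizer _) le_rfl hB₁
  obtain ⟨x, -, hx⟩ := h2.exists_cj_ple hM.1 (natCast_F hM) (isSB_top_eB hM hB₁.2.1)
    ((isDefectGroup_iff_sDef_top hM hB₁.2.1).1 hD) hR
  refine PiK.of_cj (hx.piK hM.1 (natCast_F hM) hπ fun Y h3 h4 h5 y hy => ?_)
  refine single_mul_of_Br hM.1 (natCast_F hM) hD.isPGroup
    ((isSB_sb hM hB₁.1).fixed.mono le_normalizer) h1.br (h3 hy) ?_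
  exact (kerF_map_amb_iff (subtype_injective _)).2 (fun n hn => single_mul_eB_of_mem (hker n hn)) y
    (map_piCore_le_map_piCore (centralizer_le_normalizer _)
      (MSS.normalizer_le_normalizer_centralizer D) (le_map_piCore h3 h4 h5 hy))

end CL.Blk
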