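import Mathlib
import Cfsg.Agent.BLK.LocSys
import Cfsg.Agent.BLK.Perf
import Cfsg.Agent.BLK.PiKer

/-! Perfect isometries from matching generalized decomposition numbers; Klein four defect. -/

set_option autoImplicit false

open Cfsg MonoidAlgebra Subgroup CL.Char
open scoped CL.MSS ComplexConjugate Classical

namespace CL.Blk

variable {G : Type*} [Group G] [Finite G] {G' : Type*} [Group G'] [Finite G'] {p : ℕ}
  {M : Ideal AlgInt}

theorem cInt_of_vanish_sum (hM : IsPModular p M) {ι : Type*} (s : Finset ι) {a : ι → ℂ}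
    {θ : ι → G → ℂ} (ha : ∀ i ∈ s, a i ∈ V M) (hθ : ∀ i ∈ s, IsGeneralizedCharacter G (θ i))
    (h0 : ∀ y, p ∣ orderOf y → ∑ i ∈ s, a i * θ i y = 0) :
    CInt M fun g => ∑ i ∈ s, a i * θ i g := fun g => by
  have := Fact.mk hM.1
  by_cases hr : p ∣ orderOf g
  · simp only [h0 g hr, zero_div, zero_mem]
  obtain ⟨P⟩ : Nonempty (Sylow p (centralizer ({g} : Set G))) := inferInstance
  have hP := P.isPGroup'.map (Subgroup.subtype _)
  have := Fintype.ofFinite ((P : Subgroup _).map (centralizer ({g} : Set G)).subtype)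
  have h1 := sum_mem fun i hi => mul_mem (ha i hi) (sum_mul_div_card_mem_V (M := M) (hθ i hi)
    (map_subtype_le (H := centralizer ({g} : Set G)) (P : Subgroup _)))
  simp only [← mul_div_assoc, ← Finset.sum_div, Finset.mul_sum] at h1
  rw [Finset.sum_comm, Finset.sum_eq_single 1, card_map_of_injective (subtype_injective _)] at h1
  · rw [← (P : Subgroup _).card_mul_index, Nat.cast_mul, ← div_div, div_eq_mul_inv]
    exact mul_mem (by simpa using h1) (natCast_inv_mem_V hM P.not_dvd_index)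
  · intro u _ hu
    have hc : Commute (u : G) g := mem_centralizer_singleton_iff.1 (map_subtype_le _ u.2)
    rw [← hc.eq]
    exact h0 _ (dvd_orderOf_mul_of_ne_one hM.1 hc (pElt_of_mem_isPGroup hM.1 hP u.2) hr
      fun h1 => hu (Subtype.ext h1))
  · simp

/-- The columns of generalized decomposition numbers of a block on the singular sections. -/
structure Cols (p : ℕ) (M : Ideal AlgInt) (B : Set (IrrCharacter G)) {ι : Type*} [Fintype ι]
    (n : ℕ) (d : ι → IrrCharacter G → ℂ) (L : ι → G → ℂ) : Prop where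
  sing : ∀ χ ∈ B, ∀ x, p ∣ orderOf x → χ.1 x = ∑ i, d i χ * L i x
  col : ∀ i x, ∑ χ with χ ∈ B, conj (d i χ) * χ.1 x = n * L i x
  reg : ∀ i x, ¬ p ∣ orderOf x → L i x = 0
  int : ∀ i x, L i x ∈ V M
  cint : ∀ i, CInt M fun x => n * L i x

theorem Cols.cInt_kernel (hM : IsPModular p M) {B : Set (IrrCharacter G)}
    {B' : Set (IrrCharacter G')} {ι : Type*} [Fintype ι] {n : ℕ} {d : ι → IrrCharacter G → ℂ}
    {L : ι → G → ℂ} {d' : ι → IrrCharacter G' → ℂ} {L' : ι → G' → ℂ} (h : Cols p M B n d L)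
    (h' : Cols p M B' n d' L') {κ : Type*} (S : Finset κ) {a : κ → IrrCharacter G}
    {a' : κ → IrrCharacter G'} (ha : Set.BijOn a S B) (ha' : Set.BijOn a' S B') {ε : κ → ℤ}
    {s : ι → ℤ} (hm : ∀ k ∈ S, ∀ i, ε k * d i (a k) = s i * conj (d' i (a' k)))
    (hm' : ∀ k ∈ S, ∀ i, ε k * d' i (a' k) = s i * conj (d i (a k))) (y : G') :
    (CInt M fun x => ∑ k ∈ S, ε k * (a k).1 x * (a' k).1 y) ∧
      ∀ x, p ∣ orderOf x → ¬ p ∣ orderOf y → ∑ k ∈ S, ε k * (a k).1 x * (a' k).1 y = 0 := by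
  have h1 : ∀ x, p ∣ orderOf x → ∑ k ∈ S, ε k * (a k).1 x * (a' k).1 y =
      ∑ i, s i * L i x * (n * L' i y) := fun x hx => by
    simp only [← h'.col, Finset.mul_sum]
    rw [Finset.sum_comm, eq_comm]
    refine Finset.sum_nbij (s := S) a' (fun k hk => by simpa using ha'.mapsTo hk) ha'.injOn
      (by simpa using ha'.surjOn) (fun k hk => ?_) |>.symm
    rw [h.sing _ (ha.mapsTo hk) x hx, Finset.mul_sum, Finset.sum_mul]
    exact Finset.sum_congr rfl fun i _ => by linear_combination (L i x * (a' k).1 y) * hm k hk i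
  have h2 : ∀ x, p ∣ orderOf x → ¬ p ∣ orderOf y → ∑ k ∈ S, ε k * (a k).1 x * (a' k).1 y = 0 :=
    fun x hx hy => by simp [h1 x hx, h'.reg _ y hy]
  refine ⟨?_, h2⟩
  by_cases hy : p ∣ orderOf y
  · have h3 : ∀ x, ∑ k ∈ S, ε k * (a k).1 x * (a' k).1 y = ∑ i, s i * L' i y * (n * L i x) :=
      fun x => by
        simp only [← h.col, Finset.mul_sum]
        rw [Finset.sum_comm, eq_comm]
        refine Finset.sum_nbij (s := S) a (fun k hk => by simpa using ha.mapsTo hk) ha.injOn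
          (by simpa using ha.surjOn) (fun k hk => ?_) |>.symm
        rw [h'.sing _ (ha'.mapsTo hk) y hy, Finset.mul_sum]
        exact Finset.sum_congr rfl fun i _ => by
          linear_combination (L' i y * (a k).1 x) * hm' k hk i
    simp only [h3]
    exact CInt.sum _ (fun i _ => mul_mem (intCast_mem _ _) (h'.int i y)) fun i _ => h.cint i
  · simp only [mul_right_comm _ _ ((a' _).1 y)] at h2 ⊢
    exact cInt_of_vanish_sum hM S (fun k _ => mul_mem (intCast_mem _ _)
      (mem_V_of_isIntegral (IsIrrCharacter.isIntegral (a' k).2 y))) (fun k _ => (a k).2.isGen)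
      fun x hx => h2 x hx hy

theorem Cols.isPerfectIsometry (hM : IsPModular p M) {B : Set (IrrCharacter G)}
    {B' : Set (IrrCharacter G')} {ι : Type*} [Fintype ι] {n : ℕ} {d : ι → IrrCharacter G → ℂ}
    {L : ι → G → ℂ} {d' : ι → IrrCharacter G' → ℂ} {L' : ι → G' → ℂ} (h : Cols p M B n d L)
    (h' : Cols p M B' n d' L') {I : IrrCharacter G' → IrrCharacter G} (hI : Set.BijOn I B' B)
    {ε : IrrCharacter G' → ℤ} (hε : ∀ χ ∈ B', ε χ = 1 ∨ ε χ = -1) {s : ι → ℤ}
    (hs : ∀ i, s i = 1 ∨ s i = -1) (hm : ∀ χ ∈ B', ∀ i, ε χ * d i (I χ) = s i * conj (d' i χ)) :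
    IsPerfectIsometry p M B' B I ε := by
  have hm' : ∀ χ ∈ B', ∀ i, ε χ * d' i χ = s i * conj (d i (I χ)) := fun χ hχ i => by
    have := congrArg conj (hm χ hχ i)
    simp only [map_mul, map_intCast, Complex.conj_conj] at this
    rcases hε χ hχ with a | a <;> rcases hs i with b | b <;> rw [a, b] at this ⊢ <;>
      push_cast at this ⊢ <;> first | linear_combination this | linear_combination -this
  have h1 := h.cInt_kernel hM h' (Finset.univ.filter (· ∈ B')) (a := I) (a' := id)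
    (by simpa using hI) (by simpa using Set.bijOn_id _) (by simpa using hm) (by simpa using hm')
  have h2 := h'.cInt_kernel hM h (Finset.univ.filter (· ∈ B')) (a := id) (a' := I)
    (by simpa using Set.bijOn_id _) (by simpa using hI) (by simpa using hm') (by simpa using hm)
  refine ⟨hI, hε, isPerfectFun_kernel hM (fun y => ?_) (fun x => ?_) fun x y hxy => ?_⟩ <;>
    simp only [signedBijectionKernel, finsum_mem_block_eq]
  · exact (h1 y).1
  · simpa only [mul_right_comm _ _ ((I _).1 x), id] using (h2 x).1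
  · by_cases hx : p ∣ orderOf x
    · exact (h1 y).2 x hx fun hy => hxy (iff_of_true hx hy)
    · simpa only [mul_right_comm _ _ ((I _).1 x), id] using
        (h2 x).2 y (by_contra fun hy => hxy (iff_of_false hx hy)) hx

/-- The class function of `G` supported on the section of `u` given by the Brauer character of
the block `b_u`. -/
noncomputable def Lu (p : ℕ) (M : Ideal AlgInt) (P : Subgroup G) (e : (F M)[G]) (u : G) : G → ℂ :=
  slift (centralizer (zpowers u : Set G)).subtype (czp u) (br1 p (bu p M P e u))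

theorem cInt_br1 (hM : IsPModular p M) {b : Set (IrrCharacter G)} (hb : IsPBlock M b)
    (hl : blockRank p b = 1) : CInt M fun x => (p ^ blockDefect p b : ℕ) * br1 p b x := by
  obtain ⟨S, i, hi, h, -⟩ := exists_basicSet_br1 hM hb hl
  have h1 := S.Φ_eq i
  rw [Finset.sum_eq_single i (fun j _ hj => (hj (hi j)).elim) (by simp),
    S.C_eq_of_l_eq_one hM hb (by rw [← S.blockRank_eq, hl]), h] at h1
  have h2 := cInt_of_vanish hM (S.isGen_Φ i) fun y hy => S.Φ_of_not i (not_not.2 hy)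
  exact fun x => by simpa [h1] using h2 x

namespace MaxP

variable {B : Set (IrrCharacter G)} {P : Subgroup G} {e : (F M)[G]} {u : G}

theorem sp_eq_du_smul (h : MaxP p M B P e) (hu : u ∈ P) (hl : blockRank p (bu p M P e u) = 1)
    (θ : G → ℂ) : sp p M P e u θ = du p M P e u θ • Lu p M P e u := by
  rw [sp, sproj, rb_eq_dn_smul h.hM (h.isPBlock_bu hu) hl, slift_smul]; rfl

theorem lu_cases (h : MaxP p M B P e) (hu : u ∈ P) (hl : blockRank p (bu p M P e u) = 1) (x : G) :
    Lu p M P e u x = 0 ∨ ∃ c : centralizer (zpowers u : Set G), ¬ p ∣ orderOf c ∧ IsConj (u * c) x ∧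
      Lu p M P e u x = br1 p (bu p M P e u) c := by
  have h0 := fun c => br1_of_not h.hM (h.isPBlock_bu hu) hl (c := c)
  obtain ⟨y, hy⟩ := exists_isPPart h.prime x
  by_cases h1 : IsConj u y
  · obtain ⟨c, hc, h2⟩ := (h.isSec hu).exists_isConj_of_isPPart hy h1
    refine Or.inr ⟨c, hc, h2, ?_⟩
    obtain ⟨g, rfl⟩ := isConj_iff.1 h2
    exact (isClassFunction_slift _ _ _ _ _).trans ((h.isSec hu).slift_self h.prime
      (isClassFunction_br1 h.hM (h.isPBlock_bu hu) hl) h0 hc)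
  · exact Or.inl ((h.isSec hu).slift_eq_zero_of_isPPart h.prime h0 hy h1)

theorem cols (h : MaxP p M B P e) (hc : ∀ x ∈ P, ∀ y ∈ P, Commute x y) {ι : Type*} [Fintype ι]
    {u : ι → G} (hu : ∀ i, u i ∈ P) (h1 : ∀ i, u i ≠ 1)
    (hl : ∀ i, blockRank p (bu p M P e (u i)) = 1)
    (ex : ∀ v ∈ P, v ≠ 1 → ∃ i, FConj p P e v (u i))
    (uniq : ∀ i j, FConj p P e (u i) (u j) → i = j) :
    Cols p M B (Nat.card P) (fun i χ => du p M P e (u i) χ.1) fun i => Lu p M P e (u i) := by
  have hi : Function.Injective u := fun i j a => uniq i j (a ▸ h.fConj_refl (hu i))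
  have hX : IsReps p P e (insert 1 (Finset.univ.image u)) := by
    refine ⟨by simpa [one_mem] using hu, fun v hv => ?_, ?_⟩
    · by_cases h2 : v = 1
      · exact ⟨1, by simp, h2 ▸ h.fConj_refl hv⟩
      · obtain ⟨i, hi⟩ := ex v hv h2
        exact ⟨u i, by simp, hi⟩
    · simp only [Finset.mem_insert, Finset.mem_image, Finset.mem_univ, true_and]
      rintro _ (rfl | ⟨i, rfl⟩) _ (rfl | ⟨j, rfl⟩) a
      · rfl
      · exact (a.eq_of_central (one_mem _)).symm
      · exact a.symm.eq_of_central (one_mem _)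
      · rw [uniq i j a]
  refine ⟨fun χ hχ x hx => ?_, fun i x => ?_, fun i x hx => ?_, fun i x => ?_, fun i x => ?_⟩
  · obtain ⟨y, hy⟩ := exists_isPPart h.prime x
    have h2 := congrFun (h.blockPart_eq_sum_sp hX χ.2.isClassFunction) x
    rw [blockPart_irr_of_mem hχ, Finset.sum_insert (by simpa using h1),
      Finset.sum_image hi.injOn, Pi.add_apply, Finset.sum_apply, sp,
      (h.isSec P.one_mem).sproj_eq_zero h.prime _ _ hy fun a =>
        isPPart_one_iff.1 (isConj_one_right.1 a ▸ hy) hx, zero_add] at h2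
    exact h2.trans (Finset.sum_congr rfl fun i _ => by rw [h.sp_eq_du_smul (hu i) (hl i)]; rfl)
  · obtain ⟨χ, hχ⟩ := block_nonempty h.hM h.blk
    have h2 := congrFun ((h.sp_eq_du_smul (hu i) (hl i) χ.1).symm.trans (sp_eq_sum _)) x
    apply mul_left_cancel₀ (h.du_ne_zero_of_comm (hu i) (hl i) (fun y hy => hc y hy _ (hu i)) hχ)
    rw [mul_left_comm, ← smul_eq_mul (du _ _ _ _ _ _) (Lu _ _ _ _ _ _), ← Pi.smul_apply, h2,
      Finset.sum_apply, Finset.mul_sum, Finset.mul_sum, Finset.sum_filter]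
    refine Finset.sum_congr rfl fun ψ _ => ?_
    rw [Pi.smul_apply, smul_eq_mul, ← mul_assoc (Nat.card P : ℂ),
      h.card_mul_gc (hu i) (hl i) fun y hy => hc y hy _ (hu i)]
    split_ifs with a
    · ring
    · simp [h.du_of_notMem (hu i) a]
  · exact (h.isSec (hu i)).slift_eq_zero_of_isPPart h.prime
      (fun c => br1_of_not h.hM (h.isPBlock_bu (hu i)) (hl i)) (isPPart_one_iff.2 hx)
      fun a => h1 i (isConj_one_left.1 a)
  · obtain a | ⟨c, -, -, a⟩ := h.lu_cases (hu i) (hl i) x <;> rw [a]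
    · exact zero_mem _
    · exact mem_V_of_isIntegral (br1_isIntegral h.hM (h.isPBlock_bu (hu i)) (hl i) c)
  · beta_reduce
    obtain a | ⟨c, a, b, d⟩ := h.lu_cases (hu i) (hl i) x
    · simp only [a, mul_zero, zero_div, zero_mem]
    · obtain ⟨g, rfl⟩ := isConj_iff.1 b
      have h2 := cInt_br1 h.hM (h.isPBlock_bu (hu i)) (hl i) c
      rw [h.blockDefect_bu_of_comm (hu i) fun y hy => hc y hy _ (hu i), ← h.card_eq,
        ← (h.isSec (hu i)).card_centralizer h.prime a] at h2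
      rwa [d, ← MSS.cj_centralizer_singleton, MSS.card_cj]

theorem exists_sign_klein (h : MaxP 2 M B P e) (hV : IsKleinFour P) :
    ∃ δ : G → IrrCharacter G → ℤ, ∀ u ∈ P, u ≠ 1 → ∀ χ ∈ B,
      (δ u χ = 1 ∨ δ u χ = -1) ∧ du 2 M P e u χ.1 = δ u χ := by
  obtain ⟨hc, h2, hf, -⟩ := h.klein hV
  refine ⟨fun u χ => if du 2 M P e u χ.1 = 1 then 1 else -1, fun u hu h1 χ hχ => ?_⟩
  have := (h.card_eq_four hV.card_four h2 hu (h.blockRank_bu_of_free hc hf hu h1)
    fun y hy => hc y hy u hu).2 χ hχ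
  beta_reduce
  split_ifs with a
  · simp [a]
  · simp [this.resolve_left a]

theorem fConj_of_klein (h : MaxP 2 M B P e) (hV : IsKleinFour P) (hn : ¬ IsNilpotentBlock 2 M B)
    (hu : u ∈ P) (h1 : u ≠ 1) {v : G} (hv : v ∈ P) (h1' : v ≠ 1) : FConj 2 P e v u := by
  have := Fintype.ofFinite G
  obtain ⟨hc, -, hf, h3, -⟩ := h.klein hV
  have h4 := h.card_fConj_of_free hc hf hu h1
  rw [h3.resolve_left fun a => hn ((h.isNilpotentBlock_iff hc).2 (relIndex_eq_one.1 a))] at h4
  have h5 : (Finset.univ.filter fun v => FConj 2 P e v u) = (elts P).erase 1 :=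
    Finset.eq_of_subset_of_card_le (fun w hw => by
      have hw : FConj 2 P e w u := by simpa using hw
      exact Finset.mem_erase.2 ⟨fun a => h1 ((a ▸ hw).eq_of_central (one_mem _)), mem_elts.2 hw.left⟩)
      (by rw [h4, Finset.card_erase_of_mem (mem_elts.2 P.one_mem), card_elts, hV.card_four])
  simpa using h5.ge (Finset.mem_erase.2 ⟨h1', mem_elts.2 hv⟩)

theorem cols_nil (h : MaxP p M B P e) (hc : ∀ x ∈ P, ∀ y ∈ P, Commute x y)
    (hn : IsNilpotentBlock p M B) {K : Type*} [Group K] [Fintype {k : K // k ≠ 1}] (φ : K ≃* P) :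
    Cols p M B (Nat.card P) (fun (i : {k : K // k ≠ 1}) χ => du p M P e (φ i) χ.1)
      fun i => Lu p M P e (φ i) :=
  h.cols hc (fun i => (φ i).2) (fun i => by simpa using i.2) (fun i => h.blockRank_bu_nil hn (φ i).2)
    (fun v hv h1 => ⟨⟨φ.symm ⟨v, hv⟩, by simpa [Subtype.ext_iff] using h1⟩,
      by simpa using h.fConj_refl hv⟩)
    fun i j a => Subtype.ext (φ.injective (Subtype.ext ((h.isReps_elts hn hc).uniq _
      (mem_elts.2 (φ i).2) _ (mem_elts.2 (φ j).2) a)))

/-- Blocks with Klein four defect groups and the same fusion are perfectly isometric. -/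
theorem exists_perfect_klein {B' : Set (IrrCharacter G')} {P' : Subgroup G'} {e' : (F M)[G']}
    (h : MaxP 2 M B P e) (h' : MaxP 2 M B' P' e') (hV : IsKleinFour P) (φ : P ≃* P')
    (hn : IsNilpotentBlock 2 M B ↔ IsNilpotentBlock 2 M B') :
    ∃ I ε, IsPerfectIsometry 2 M B' B I ε := by
  have hV' : IsKleinFour P' := ⟨by rw [← Nat.card_congr φ.toEquiv, hV.card_four],
    by rw [← Monoid.exponent_eq_of_mulEquiv φ, hV.exponent_two]⟩
  have hP := hV'.card_four.trans hV.card_four.symm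
  obtain ⟨hc, h2, hf, -, h4, -⟩ := h.klein hV
  obtain ⟨hc', -, hf', -, h4', -⟩ := h'.klein hV'
  obtain ⟨δ, hδ⟩ := h.exists_sign_klein hV
  obtain ⟨δ', hδ'⟩ := h'.exists_sign_klein hV'
  obtain ⟨χ, hχ⟩ := block_nonempty h.hM h.blk
  obtain ⟨χ', hχ'⟩ := block_nonempty h.hM h'.blk
  have := Fintype.ofFinite P
  have h5 : ∀ i : {k : P // k ≠ 1}, (i : G) ≠ 1 ∧ (φ i : G') ≠ 1 := fun i =>
    ⟨by simpa using i.2, by simpa using i.2⟩
  by_cases h3 : IsNilpotentBlock 2 M B
  · obtain ⟨Φ, hΦ⟩ := h.exists_equiv_du h3 hc hχ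
    obtain ⟨Φ', hΦ'⟩ := h'.exists_equiv_du (hn.1 h3) hc' hχ'
    let E : B' ≃ B := Φ'.symm.trans ((φ.monoidHomCongrLeftEquiv).symm.trans Φ)
    have hI : ∀ η : B', Function.extend Subtype.val (fun η => (E η).1) (fun _ => χ) η.1 = E η :=
      Subtype.val_injective.extend_apply _ _
    refine ⟨_, fun _ => 1, (h.cols_nil hc h3 (MulEquiv.refl P)).isPerfectIsometry h.hM
      (hP ▸ h'.cols_nil hc' (hn.1 h3) φ) (I := Function.extend Subtype.val (fun η => (E η).1)
        fun _ => χ) ⟨fun η a => hI ⟨η, a⟩ ▸ (E _).2, fun η a η' a' b => ?_, fun η a => ?_⟩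
      (fun _ _ => Or.inl rfl) (s := fun i => δ i χ * δ' (φ i) χ') (fun i => ?_) fun η a i => ?_⟩
    · exact congrArg Subtype.val (E.injective (a₁ := ⟨η, a⟩) (a₂ := ⟨η', a'⟩)
        (Subtype.ext (by rwa [← hI, ← hI])))
    · exact ⟨_, (E.symm ⟨η, a⟩).2, by rw [hI, E.apply_symm_apply]⟩
    · rcases (hδ _ i.1.2 (h5 i).1 χ hχ).1 with a | a <;>
        rcases (hδ' _ (φ i).2 (h5 i).2 χ' hχ').1 with b | b <;> simp [a, b]
    · obtain ⟨l, hl⟩ := Φ'.surjective ⟨η, a⟩
      have h6 := hΦ' l (φ i)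
      have h7 := hΦ (φ.monoidHomCongrLeftEquiv.symm l) i
      rw [hl] at h6
      rw [hI ⟨η, a⟩, ← hl]
      simp only [E, Equiv.trans_apply, Equiv.symm_apply_apply, MulEquiv.refl_apply]
      rw [h7, (hδ' _ (φ i).2 (h5 i).2 η a).2, map_intCast, ← (hδ' _ (φ i).2 (h5 i).2 η a).2, h6,
        (hδ _ i.1.2 (h5 i).1 χ hχ).2, (hδ' _ (φ i).2 (h5 i).2 χ' hχ').2]
      rcases (hδ' _ (φ i).2 (h5 i).2 χ' hχ').1 with b | b <;> simp [b, mul_comm]
  · have : Nontrivial P := Finite.one_lt_card_iff_nontrivial.1 (by rw [hV.card_four]; norm_num)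
    obtain ⟨u, hu⟩ := exists_ne (1 : P)
    obtain ⟨h6, h7⟩ := h5 ⟨u, hu⟩
    have : Nonempty (IrrCharacter G) := ⟨χ⟩
    obtain ⟨I, hI⟩ := B'.toFinite.exists_bijOn_of_encard_eq (t := B) (by
      rw [← B.toFinite.cast_ncard_eq, ← B'.toFinite.cast_ncard_eq, ← Nat.card_coe_set_eq, h4',
        ← Nat.card_coe_set_eq, h4])
    refine ⟨I, fun η => δ u (I η) * δ' (φ u) η, (h.cols hc (u := fun _ : Unit => u) (fun _ => u.2)
      (fun _ => h6) (fun _ => h.blockRank_bu_of_free hc hf u.2 h6)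
      (fun v a b => ⟨(), h.fConj_of_klein hV h3 u.2 h6 a b⟩) fun _ _ _ => rfl).isPerfectIsometry h.hM
      (hP ▸ h'.cols hc' (u := fun _ : Unit => φ u) (fun _ => (φ u).2) (fun _ => h7)
        (fun _ => h'.blockRank_bu_of_free hc' hf' (φ u).2 h7)
        (fun v a b => ⟨(), h'.fConj_of_klein hV' (mt hn.2 h3) (φ u).2 h7 a b⟩) fun _ _ _ => rfl)
      hI (fun η a => ?_) (s := fun _ => 1) (fun _ => Or.inl rfl) fun η a _ => ?_⟩
    · rcases (hδ _ u.2 h6 _ (hI.mapsTo a)).1 with b | b <;>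
        rcases (hδ' _ (φ u).2 h7 η a).1 with c | c <;> simp [b, c]
    · rw [(hδ _ u.2 h6 _ (hI.mapsTo a)).2, (hδ' _ (φ u).2 h7 η a).2]
      rcases (hδ _ u.2 h6 _ (hI.mapsTo a)).1 with b | b <;> simp [b]

end MaxP

/-- A common maximal pair for a block and its Brauer correspondent. -/
theorem exists_maxP_normalizer (hM : IsPModular p M) {B : Set (IrrCharacter G)} {P H : Subgroup G}
    (hP : IsDefectGroup p M B P) (hPH : P ≤ H) (hC : centralizer (P : Set G) ≤ H)
    (hN : H ≤ normalizer (P : Set G)) {c : Set (IrrCharacter H)}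
    (hcD : IsDefectGroup p M c (P.subgroupOf H)) (hc : IsInducedBlock M H c B) :
    ∃ e, MaxP p M B P e ∧ MaxP p M c (P.subgroupOf H) (res H.subtype e) ∧
      ∀ x : H, x ∈ pairStab (P.subgroupOf H) (res H.subtype e) ↔ (x : G) ∈ pairStab P e := by
  have hd := (isDefectGroup_iff_sDef_top hM hc.2.1).1 hP
  obtain ⟨e, h1, h2⟩ := exists_relPair_normalizer hM hd.pgroup hPH hC hN hc
  have h3 := (h2.pair.supp.mono hC).amb_res
  refine ⟨e, ⟨hM, hc.2.1, h2, hd⟩, maxP_of_map hM (subtype_injective _) hc.1 ?_ ?_, fun x => ?_⟩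
  · rwa [range_subtype, map_subgroupOf_eq_of_le hPH, h3]
  · rw [range_subtype]
    exact (isDefectGroup_iff_sDef hM hc.1).1 hcD
  · rw [← mem_pairStab_map_iff (subtype_injective _), map_subgroupOf_eq_of_le hPH, h3]
    rfl

end CL.Blk
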