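import Mathlib
import Cfsg.Agent.BLK.CycMain
import Cfsg.Agent.BLK.Perf

/-! Perfect isometries between blocks with cyclic defect groups. -/

set_option autoImplicit false

open Cfsg MonoidAlgebra Subgroup CL.Char
open scoped CL.MSS ComplexConjugate Classical

namespace CL.Cyc

open CL.Blk

universe u v

variable {G : Type u} [Group G] {p : ℕ} {M : Ideal AlgInt}
  [Fintype G] {B : Set (IrrCharacter G)} {Z D : Subgroup G}
  {c : Set (IrrCharacter (centralizer (Z : Set G)))} {b : (F M)[G]}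
  {θ₀ : IrrCharacter (centralizer (Z : Set G))} {e : ℕ}

namespace Loc

variable (h : Loc p M B Z c D b θ₀ e)
include h

theorem not_dvd_e : ¬ p ∣ e := h.idx ▸ h.toSetup.not_dvd_idx

theorem sum_split (f : IrrCharacter (centralizer (Z : Set G)) → ℂ) :
    ∑ θ with θ ∈ c, f θ = f θ₀ + ∑ θ with (θ ∈ c ∧ θ ≠ θ₀), f θ := by
  rw [← Finset.add_sum_erase _ _ (show θ₀ ∈ Finset.univ.filter fun θ => θ ∈ c by simpa using h.mem)]
  congr 1
  exact Finset.sum_congr (by ext; simp [and_comm]) fun _ _ => rfl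

theorem sum_indFun {x : G} (hx : p ∣ orderOf x) :
    ∑ θ with (θ ∈ c ∧ θ ≠ θ₀), indFun _ θ.1 x = -indFun _ θ₀.1 x := by
  have h1 : indFun _ (∑ θ with θ ∈ c, θ.1) x = 0 := indFun_eq_zero _ _ _ fun g hg => by
    rw [Finset.sum_apply]
    refine h.sum_c ?_
    rwa [← orderOf_coe, show ((⟨g⁻¹ * x * g, hg⟩ : centralizer (Z : Set G)) : G) =
      g⁻¹ * x * g⁻¹⁻¹ by simp, orderOf_conj']
  rw [indFun_sum, Finset.sum_apply, h.sum_split] at h1
  exact eq_neg_of_add_eq_zero_right h1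

end Loc

namespace Str

variable {X : Finset (IrrCharacter G)}
  {ψ : IrrCharacter (centralizer (Z : Set G)) → IrrCharacter G} {δ : IrrCharacter G → ℤ} {ε : ℤ}
  (s : Str p B c θ₀ e X ψ δ ε) (h : Loc p M B Z c D b θ₀ e)
include s h

theorem sum_B (f : IrrCharacter G → ℂ) :
    e * ∑ᶠ χ ∈ B, f χ = e * ∑ χ ∈ X, f χ + ∑ θ with (θ ∈ c ∧ θ ≠ θ₀), f (ψ θ) := by
  have h1 : B = ↑(X ∪ (Finset.univ.filter fun θ => θ ∈ c ∧ θ ≠ θ₀).image ψ) := by
    ext χ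
    simp [s.mem_iff, and_assoc]
  rw [h1, finsum_mem_coe_finset, Finset.sum_union (Finset.disjoint_right.2 fun χ hχ => by
    obtain ⟨θ, hθ, rfl⟩ := Finset.mem_image.1 hχ
    exact s.notMem θ (Finset.mem_filter.1 hθ).2.1 (Finset.mem_filter.1 hθ).2.2), mul_add,
    Finset.sum_comp f ψ, Finset.mul_sum _ f (e : ℂ), Finset.mul_sum _ f (e : ℂ)]
  congr 1
  refine Finset.sum_congr rfl fun χ hχ => ?_
  obtain ⟨θ, hθ, rfl⟩ := Finset.mem_image.1 hχ
  obtain ⟨h2, h3⟩ := (Finset.mem_filter.1 hθ).2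
  rw [nsmul_eq_mul, ← h.card_class h2 h3, Finset.filter_filter]
  congr 3
  ext θ'
  simp only [Finset.mem_filter, Finset.mem_univ, true_and]
  exact and_congr_right fun a => (s.eq_iff θ' a.1 a.2 θ h2 h3).symm

theorem proj {χ : IrrCharacter G} (hχ : χ ∈ X) {x : G} (hx : p ∣ orderOf x) :
    e * (δ χ * χ.1 x) - ε * ∑ θ with (θ ∈ c ∧ θ ≠ θ₀), (ψ θ).1 x = 0 := by
  rw [Finset.sum_congr rfl fun θ hθ => s.val_Y h (Finset.mem_filter.1 hθ).2.1
    (Finset.mem_filter.1 hθ).2.2 hx, ← Finset.mul_sum, h.sum_indFun hx, mul_left_comm,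
    s.val_X h hχ hx]
  linear_combination (-indFun _ θ₀.1 x) * (s.δ_sq' hχ - s.ε_sq')

theorem cInt_proj {χ : IrrCharacter G} (hχ : χ ∈ X) :
    CInt M fun x => e * (δ χ * χ.1 x) - ε * ∑ θ with (θ ∈ c ∧ θ ≠ θ₀), (ψ θ).1 x := by
  refine cInt_of_vanish h.hM ?_ fun x hx => s.proj h hχ hx
  convert ((χ.2.isGen.intCast_smul (δ χ)).intCast_smul e).sub ((isGen_sum
    (Finset.univ.filter fun θ => θ ∈ c ∧ θ ≠ θ₀) _ fun θ _ => (ψ θ).2.isGen).intCast_smul ε)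
    using 1
  funext x
  simp

end Str

variable {G' : Type v} [Group G'] [Fintype G'] {B' : Set (IrrCharacter G')} {Z' D' : Subgroup G'}
  {c' : Set (IrrCharacter (centralizer (Z' : Set G')))} {b' : (F M)[G']}
  {θ₀' : IrrCharacter (centralizer (Z' : Set G'))} {e' : ℕ}
  {X : Finset (IrrCharacter G)}
  {ψ : IrrCharacter (centralizer (Z : Set G)) → IrrCharacter G} {δ : IrrCharacter G → ℤ} {ε : ℤ}
  {X' : Finset (IrrCharacter G')}
  {ψ' : IrrCharacter (centralizer (Z' : Set G')) → IrrCharacter G'} {δ' : IrrCharacter G' → ℤ}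
  {ε' : ℤ}

/-- A bijection between the local blocks compatible with the normalizer orbits. -/
structure Match (c' : Set (IrrCharacter (centralizer (Z' : Set G'))))
    (c : Set (IrrCharacter (centralizer (Z : Set G))))
    (θ₀' : IrrCharacter (centralizer (Z' : Set G'))) (θ₀ : IrrCharacter (centralizer (Z : Set G)))
    (τ : IrrCharacter (centralizer (Z' : Set G')) → IrrCharacter (centralizer (Z : Set G))) :
    Prop where
  bij : Set.BijOn τ c' c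
  base : τ θ₀' = θ₀
  orb : ∀ θ ∈ c', ∀ θ' ∈ c', (∃ n : normalizer (Z' : Set G'), θ = n • θ') ↔
    ∃ n : normalizer (Z : Set G), τ θ = n • τ θ'

namespace Match

variable {τ : IrrCharacter (centralizer (Z' : Set G')) → IrrCharacter (centralizer (Z : Set G))}
  (m : Match c' c θ₀' θ₀ τ) (h' : Loc p M B' Z' c' D' b' θ₀' e')
include m h'

omit [Fintype G] in
theorem ne_iff {θ : IrrCharacter (centralizer (Z' : Set G'))} (hθ : θ ∈ c') :
    τ θ ≠ θ₀ ↔ θ ≠ θ₀' := by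
  rw [← m.base]
  exact (m.bij.injOn.eq_iff hθ h'.mem).not

theorem sum_eq (f : IrrCharacter (centralizer (Z : Set G)) → ℂ) :
    ∑ θ with (θ ∈ c' ∧ θ ≠ θ₀'), f (τ θ) = ∑ θ with (θ ∈ c ∧ θ ≠ θ₀), f θ := by
  refine Finset.sum_nbij τ (fun θ hθ => ?_) (fun θ hθ θ' hθ' => ?_) (fun θ hθ => ?_) fun _ _ => rfl
  · obtain ⟨h1, h2⟩ := (Finset.mem_filter.1 hθ).2
    exact Finset.mem_filter.2 ⟨Finset.mem_univ _, m.bij.mapsTo h1, (m.ne_iff h' h1).2 h2⟩
  · exact m.bij.injOn (Finset.mem_filter.1 hθ).2.1 (Finset.mem_filter.1 hθ').2.1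
  · obtain ⟨h1, h2⟩ := (Finset.mem_filter.1 hθ).2
    obtain ⟨θ', h3, rfl⟩ := m.bij.surjOn h1
    exact ⟨θ', Finset.mem_filter.2 ⟨Finset.mem_univ _, h3, (m.ne_iff h' h3).1 h2⟩, rfl⟩

theorem e_eq (h : Loc p M B Z c D b θ₀ e) : e' = e := by
  obtain ⟨θ, h1, h2⟩ := h'.exists_ne
  have h3 := m.sum_eq h' fun θ' => if ∃ n : normalizer (Z : Set G), θ' = n • τ θ then 1 else 0
  rw [Finset.sum_congr rfl fun θ' hθ' => if_congr (m.orb θ' (Finset.mem_filter.1 hθ').2.1 θ h1).symm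
    rfl rfl, Finset.sum_boole, Finset.sum_boole, Finset.filter_filter, Finset.filter_filter,
    h'.card_class h1 h2, h.card_class (m.bij.mapsTo h1) ((m.ne_iff h' h1).2 h2)] at h3
  exact_mod_cast h3

theorem exists_perfect (h : Loc p M B Z c D b θ₀ e) (s : Str p B c θ₀ e X ψ δ ε)
    (s' : Str p B' c' θ₀' e' X' ψ' δ' ε')
    (h1 : ∀ y, CInt M fun x => ∑ θ with θ ∈ c', (τ θ).1 x * θ.1 y)
    (h2 : ∀ x, CInt M fun y => ∑ θ with θ ∈ c', θ.1 y * (τ θ).1 x) :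
    ∃ I η, IsPerfectIsometry p M B' B I η ∧ ∀ χ, χ ∉ X' → η χ = ε' * ε := by
  obtain rfl := m.e_eq h' h
  have : Nonempty (IrrCharacter G) := ⟨Blk.irrOne G⟩
  obtain ⟨j, hj⟩ := X'.finite_toSet.exists_bijOn_of_encard_eq (t := (X : Set (IrrCharacter G)))
    (by rw [Set.encard_coe_eq_coe_finsetCard, Set.encard_coe_eq_coe_finsetCard, s.card_X,
      s'.card_X])
  have hτ : ∀ θ ∈ c', θ ≠ θ₀' → τ θ ∈ c ∧ τ θ ≠ θ₀ := fun θ a a' =>
    ⟨m.bij.mapsTo a, (m.ne_iff h' a).2 a'⟩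
  have hψ : ∀ θ ∈ c', θ ≠ θ₀' → ∀ θ' ∈ c', θ' ≠ θ₀' → (ψ (τ θ) = ψ (τ θ') ↔ ψ' θ = ψ' θ') :=
    fun θ a a' θ' b b' => by
      rw [s.eq_iff _ (hτ θ a a').1 (hτ θ a a').2 _ (hτ θ' b b').1 (hτ θ' b b').2,
        s'.eq_iff θ a a' θ' b b', m.orb θ a θ' b]
  obtain ⟨I, hI, hI'⟩ : ∃ I : IrrCharacter G' → IrrCharacter G, (∀ χ ∈ X', I χ = j χ) ∧
      ∀ θ ∈ c', θ ≠ θ₀' → I (ψ' θ) = ψ (τ θ) := by
    refine ⟨fun χ => if a : ∃ θ ∈ c', θ ≠ θ₀' ∧ ψ' θ = χ then ψ (τ a.choose) else j χ,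
      fun χ hχ => dif_neg ?_, fun θ a a' => ?_⟩
    · rintro ⟨θ, a, a', rfl⟩
      exact s'.notMem θ a a' hχ
    · have h3 : ∃ θ' ∈ c', θ' ≠ θ₀' ∧ ψ' θ' = ψ' θ := ⟨θ, a, a', rfl⟩
      exact (dif_pos h3).trans ((hψ _ h3.choose_spec.1 h3.choose_spec.2.1 θ a a').2
        h3.choose_spec.2.2)
  refine ⟨I, fun χ => if χ ∈ X' then δ' χ * δ (j χ) else ε' * ε, ⟨⟨fun χ hχ => ?_,
    fun χ hχ χ' hχ' a => ?_, fun χ hχ => ?_⟩, fun χ _ => ?_, ?_⟩, fun χ hχ => if_neg hχ⟩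
  · rcases (s'.mem_iff χ).1 hχ with a | ⟨θ, a, a', rfl⟩
    · exact hI χ a ▸ s.mem_X (hj.mapsTo a)
    · exact hI' θ a a' ▸ s.mem_Y (hτ θ a a').1 (hτ θ a a').2
  · rcases (s'.mem_iff χ).1 hχ with b | ⟨θ, b, b', rfl⟩ <;>
      rcases (s'.mem_iff χ').1 hχ' with d | ⟨θ', d, d', rfl⟩
    · exact hj.injOn b d (by rwa [hI χ b, hI χ' d] at a)
    · rw [hI χ b, hI' θ' d d'] at a
      exact (s.notMem _ (hτ θ' d d').1 (hτ θ' d d').2 (a ▸ hj.mapsTo b)).elim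
    · rw [hI χ' d, hI' θ b b'] at a
      exact (s.notMem _ (hτ θ b b').1 (hτ θ b b').2 (a ▸ hj.mapsTo d)).elim
    · exact (hψ θ b b' θ' d d').1 (by rwa [hI' θ b b', hI' θ' d d'] at a)
  · rcases (s.mem_iff χ).1 hχ with a | ⟨θ, a, a', rfl⟩
    · obtain ⟨χ', b, rfl⟩ := hj.surjOn a
      exact ⟨χ', s'.mem_X b, hI χ' b⟩
    · obtain ⟨θ', b, rfl⟩ := m.bij.surjOn a
      exact ⟨_, s'.mem_Y b ((m.ne_iff h' b).1 a'), hI' θ' b ((m.ne_iff h' b).1 a')⟩
  · beta_reduce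
    split_ifs with a
    · rcases s'.sign χ a with b | b <;> rcases s.sign _ (hj.mapsTo a) with d | d <;> simp [b, d]
    · rcases s'.sign' with b | b <;> rcases s.sign' with d | d <;> simp [b, d]
  generalize hη : (fun χ => if χ ∈ X' then δ' χ * δ (j χ) else ε' * ε) = η
  have key : ∀ x y, e' * signedBijectionKernel B' I η x y =
      e' * ∑ χ ∈ X', δ' χ * χ.1 y * (δ (j χ) * (j χ).1 x) +
        ε' * ε * ∑ θ with (θ ∈ c' ∧ θ ≠ θ₀'), (ψ (τ θ)).1 x * (ψ' θ).1 y := fun x y => by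
    rw [signedBijectionKernel, s'.sum_B h', Finset.mul_sum _ _ (ε' * ε : ℂ), ← hη]
    congr 1
    · refine congrArg _ (Finset.sum_congr rfl fun χ hχ => ?_)
      beta_reduce
      rw [if_pos hχ, hI χ hχ]
      push_cast
      ring
    · refine Finset.sum_congr rfl fun θ hθ => ?_
      obtain ⟨a, a'⟩ := (Finset.mem_filter.1 hθ).2
      beta_reduce
      rw [if_neg (s'.notMem θ a a'), hI' θ a a']
      push_cast
      ring
  have ka : ∀ x y, ¬ p ∣ orderOf y → e' * signedBijectionKernel B' I η x y =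
      ∑ χ ∈ X', δ' χ * χ.1 y * (e' * (δ (j χ) * (j χ).1 x) -
        ε * ∑ θ with (θ ∈ c ∧ θ ≠ θ₀), (ψ θ).1 x) := fun x y hy => by
    rw [key, Finset.sum_congr (s₁ := Finset.univ.filter fun θ => θ ∈ c' ∧ θ ≠ θ₀') rfl
      fun θ hθ => by rw [s'.val_reg' h' (Finset.mem_filter.1 hθ).2.1
        (Finset.mem_filter.1 hθ).2.2 hy], ← Finset.sum_mul, m.sum_eq h' fun θ => (ψ θ).1 x]
    simp only [mul_sub, Finset.sum_sub_distrib, ← Finset.sum_mul, mul_left_comm _ (e' : ℂ),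
      ← Finset.mul_sum]
    linear_combination (-(ε * (∑ θ with (θ ∈ c ∧ θ ≠ θ₀), (ψ θ).1 x) *
      ∑ χ ∈ X', δ' χ * χ.1 y)) * s'.ε_sq'
  have kb : ∀ x y, ¬ p ∣ orderOf x → e' * signedBijectionKernel B' I η x y =
      ∑ χ ∈ X', δ (j χ) * (j χ).1 x * (e' * (δ' χ * χ.1 y) -
        ε' * ∑ θ with (θ ∈ c' ∧ θ ≠ θ₀'), (ψ' θ).1 y) := fun x y hx => by
    rw [key, Finset.sum_congr (s₁ := Finset.univ.filter fun θ => θ ∈ c' ∧ θ ≠ θ₀') rfl
      fun θ hθ => by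
        rw [s.val_reg' h (hτ θ (Finset.mem_filter.1 hθ).2.1 (Finset.mem_filter.1 hθ).2.2).1
          (hτ θ (Finset.mem_filter.1 hθ).2.1 (Finset.mem_filter.1 hθ).2.2).2 hx], ← Finset.mul_sum,
      ← Finset.sum_nbij j hj.mapsTo hj.injOn hj.surjOn
        (f := fun χ => (δ (j χ) : ℂ) * (j χ).1 x) fun _ _ => rfl]
    simp only [mul_sub, Finset.sum_sub_distrib, ← Finset.sum_mul, mul_left_comm _ (e' : ℂ),
      ← Finset.mul_sum, mul_comm (δ' _ * _ : ℂ)]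
    linear_combination (-(ε' * (∑ θ with (θ ∈ c' ∧ θ ≠ θ₀'), (ψ' θ).1 y) *
      ∑ χ ∈ X', δ (j χ) * (j χ).1 x)) * s.ε_sq'
  have he : (e' : ℂ) ≠ 0 := Nat.cast_ne_zero.2 h.e_pos.ne'
  have kc : ∀ x y, p ∣ orderOf x → p ∣ orderOf y → e' * signedBijectionKernel B' I η x y =
      ∑ θ with θ ∈ c', indFun _ (τ θ).1 x * indFun _ θ.1 y := fun x y hx hy => by
    have h3 : ∀ χ ∈ X', (e' : ℂ) * (e' * (δ' χ * χ.1 y * (δ (j χ) * (j χ).1 x))) =
        indFun _ θ₀.1 x * indFun _ θ₀'.1 y := fun χ hχ => by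
      linear_combination (δ' χ * δ (j χ) * e' * χ.1 y) * s.val_X h (hj.mapsTo hχ) hx -
        (δ' χ * δ (j χ) * δ (j χ) * indFun _ θ₀.1 x) * s'.val_X h' hχ hy +
        (indFun _ θ₀.1 x * indFun _ θ₀'.1 y * δ' χ * δ' χ) * s.δ_sq' (hj.mapsTo hχ) +
        (indFun _ θ₀.1 x * indFun _ θ₀'.1 y) * s'.δ_sq' hχ
    have h4 : (e' : ℂ) * ∑ χ ∈ X', δ' χ * χ.1 y * (δ (j χ) * (j χ).1 x) =
        indFun _ θ₀.1 x * indFun _ θ₀'.1 y := by
      refine mul_left_cancel₀ he ?_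
      rw [Finset.mul_sum, Finset.mul_sum, Finset.sum_congr rfl h3, Finset.sum_const, s'.card_X,
        nsmul_eq_mul]
    rw [key, h4, h'.sum_split, m.base, Finset.mul_sum]
    refine congrArg _ (Finset.sum_congr rfl fun θ hθ => ?_)
    obtain ⟨a, a'⟩ := (Finset.mem_filter.1 hθ).2
    rw [s.val_Y h (hτ θ a a').1 (hτ θ a a').2 hx, s'.val_Y h' a a' hy]
    linear_combination (indFun _ (τ θ).1 x * indFun _ θ.1 y * ε' * ε') * s.ε_sq' +
      (indFun _ (τ θ).1 x * indFun _ θ.1 y) * s'.ε_sq'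
  have za : ∀ x y, p ∣ orderOf x → ¬ p ∣ orderOf y → signedBijectionKernel B' I η x y = 0 :=
    fun x y hx hy => (mul_eq_zero.1 ((ka x y hy).trans (Finset.sum_eq_zero fun χ hχ => by
      rw [s.proj h (hj.mapsTo hχ) hx, mul_zero]))).resolve_left he
  have zb : ∀ x y, ¬ p ∣ orderOf x → p ∣ orderOf y → signedBijectionKernel B' I η x y = 0 :=
    fun x y hx hy => (mul_eq_zero.1 ((kb x y hx).trans (Finset.sum_eq_zero fun χ hχ => by
      rw [s'.proj h' hχ hy, mul_zero]))).resolve_left he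
  have hV : ∀ {K : Type u} [Group K] [Finite K] (n : ℤ) (χ : IrrCharacter K) (x : K),
      n * χ.1 x ∈ V M := fun n χ x =>
    mul_mem (intCast_mem _ n) (mem_V_of_isIntegral (IsIrrCharacter.isIntegral χ.2 x))
  have hV' : ∀ {K : Type v} [Group K] [Finite K] (n : ℤ) (χ : IrrCharacter K) (x : K),
      n * χ.1 x ∈ V M := fun n χ x =>
    mul_mem (intCast_mem _ n) (mem_V_of_isIntegral (IsIrrCharacter.isIntegral χ.2 x))
  refine isPerfectFun_kernel h.hM (fun y => CInt.of_mul h.hM h.not_dvd_e fun x => ?_)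
    (fun x => CInt.of_mul h.hM h.not_dvd_e fun y => ?_) fun x y a => ?_
  · beta_reduce
    by_cases hy : p ∣ orderOf y
    · by_cases hx : p ∣ orderOf x
      · rw [kc x y hx hy]
        exact cInt_ind_ind _ (fun θ => (τ θ).2.isClassFunction) (fun θ => θ.2.isClassFunction)
          h1 y x
      · rw [zb x y hx hy, mul_zero, zero_div]
        exact zero_mem _
    · rw [ka x y hy]
      exact CInt.sum X' (fun χ _ => hV' _ χ y) (fun χ hχ => s.cInt_proj h (hj.mapsTo hχ)) x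
  · beta_reduce
    by_cases hx : p ∣ orderOf x
    · by_cases hy : p ∣ orderOf y
      · rw [kc x y hx hy, Finset.sum_congr rfl fun _ _ => mul_comm _ _]
        exact cInt_ind_ind _ (fun θ => θ.2.isClassFunction) (fun θ => (τ θ).2.isClassFunction)
          h2 x y
      · rw [za x y hx hy, mul_zero, zero_div]
        exact zero_mem _
    · rw [kb x y hx]
      exact CInt.sum X' (fun χ _ => hV _ _ x) (fun χ hχ => s'.cInt_proj h' hχ) y
  · by_cases hx : p ∣ orderOf x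
    · exact za x y hx fun hy => a (iff_of_true hx hy)
    · exact zb x y hx (by_contra fun hy => a (iff_of_false hx hy))

end Match

end CL.Cyc
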