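import Mathlib
import Cfsg.Agent.BLK.CycPerf

/-! Cyclic defect blocks: passing to a subgroup containing the normalizer of `Z`. -/

set_option autoImplicit false

open Cfsg MonoidAlgebra Subgroup CL.Char
open scoped CL.MSS ComplexConjugate Classical

namespace CL.Cyc

open CL.Blk

universe u

section

variable {G : Type*} [Group G] [Finite G] {K : Type*} [Group K] [Finite K] {p : ℕ}
  {M : Ideal AlgInt} {f : K →* G} {F : Type*} [Field F]

theorem cInt_comp_equiv (φ : K ≃* G) {a : G → ℂ} (h : CInt M a) : CInt M fun x => a (φ x) :=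
  fun x => by
    have h1 := map_centralizer_singleton (f := φ.toMonoidHom) φ.injective x
    rw [MonoidHom.range_eq_top.2 φ.surjective, inf_top_eq] at h1
    rw [← card_map_of_injective (f := φ.toMonoidHom) φ.injective, h1]
    exact h _

theorem map_cent_eq (hf : Function.Injective f) {R : Subgroup K}
    (hC : centralizer (R.map f : Set G) ≤ f.range) :
    (centralizer (R : Set K)).map f = centralizer (R.map f : Set G) := by
  have := map_inf_centralizer hf ⊤ R
  rwa [top_inf_eq, ← MonoidHom.range_eq_map, inf_eq_right.2 hC] at this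

theorem isPair_map_amb_iff (hf : Function.Injective f) {R : Subgroup K}
    (hC : centralizer (R.map f : Set G) ≤ f.range) {g : F[K]} :
    IsPair p (R.map f) (amb f g) ↔ IsPair p R g :=
  ⟨fun h => ⟨h.pgroup.of_equiv (R.equivMapOfInjective f hf).symm,
    (isSB_map_amb_iff hf).1 (map_cent_eq hf hC ▸ h.sb)⟩,
    fun h => ⟨h.pgroup.map f, map_cent_eq hf hC ▸ (isSB_map_amb_iff hf).2 h.sb⟩⟩

theorem relPair_map_amb_iff [IsAlgClosed F] (hf : Function.Injective f) {R : Subgroup K}
    (hC : centralizer (R.map f : Set G) ≤ f.range) {e g : F[K]} :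
    RelPair p f.range (amb f e) (R.map f) (amb f g) ↔ RelPair p ⊤ e R g := by
  rw [relPair_top_iff, ← isPair_map_amb_iff hf hC, ← (amb_injective hf).eq_iff, map_mul,
    ← Br_map_amb hf]
  exact ⟨fun h => ⟨h.pair, h.br⟩, fun h => ⟨h.1, map_le_range f R, hC, h.2⟩⟩

theorem nsub_map_amb (hf : Function.Injective f) {Q P : Subgroup K}
    (hC : centralizer (Q.map f : Set G) ≤ f.range) {e g : F[K]} (h : NSub p Q g P e) :
    NSub p (Q.map f) (amb f g) (P.map f) (amb f e) :=
  ⟨(isPair_map_amb_iff hf hC).2 h.left, (isPair_map_amb_iff hf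
    ((centralizer_anti (map_mono h.le)).trans hC)).2 h.right, map_mono h.le,
    (map_mono h.norm).trans (le_normalizer_map f), (isFixed_map_amb_iff hf).2 h.fixed, by
      rw [Br_map_amb hf, ← map_mul, h.br]⟩

theorem exists_centEquiv (hf : Function.Injective f) {R : Subgroup K}
    (hC : centralizer (R.map f : Set G) ≤ f.range) :
    ∃ φ : centralizer (R : Set K) ≃* centralizer (R.map f : Set G), ∀ x, (φ x : G) = f x :=
  ⟨(equivMapOfInjective _ f hf).trans (MulEquiv.subgroupCongr (map_cent_eq hf hC)), fun _ => rfl⟩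

theorem sb_blkMap_eq {L : Subgroup K} {L' : Subgroup G} (φ : L ≃* L') (hφ : ∀ x, (φ x : G) = f x)
    (c : Set (IrrCharacter L)) : sb M L' (blkMap φ c) = amb f (sb M L c) := by
  rw [sb, sb, eB_blkMap, amb_amb, amb_amb]
  congr 2
  exact MonoidHom.ext hφ

end

variable {G : Type u} [Group G] {p : ℕ} {M : Ideal AlgInt} {B : Set (IrrCharacter G)}
  {H : Subgroup G} {B' : Set (IrrCharacter H)} {Z D : Subgroup H}
  {c : Set (IrrCharacter (centralizer (Z : Set H)))} {b : (F M)[H]}

theorem Setup.map [Finite G] (h : Setup p M B' Z c D b)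
    (hC : centralizer (Z.map H.subtype : Set G) ≤ H) (hi : IsInducedBlock M H B' B)
    (hD : IsDefectGroup p M B (D.map H.subtype))
    (φ : centralizer (Z : Set H) ≃* centralizer (Z.map H.subtype : Set G))
    (hφ : ∀ x, (φ x : G) = H.subtype x) :
    Setup p M B (Z.map H.subtype) (blkMap φ c) (D.map H.subtype) (amb H.subtype b) := by
  have hf := H.subtype_injective
  replace hC := hC.trans H.range_subtype.ge
  have h1 := (relPair_map_amb_iff hf ((centralizer_anti (map_mono h.le)).trans hC)).2 h.rel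
  rw [H.range_subtype] at h1
  have hB := ((Blk.isInducedBlock_iff h.hM).1 hi).2.1
  exact ⟨h.hM, hB, isPBlock_blkMap h.hM h.blkc φ, (card_map_of_injective hf).trans h.card,
    have := h.cyc; isCyclic_of_surjective _ (D.equivMapOfInjective _ hf).surjective,
    h1.top_of_indAlong h.prime h.hF (isBlk_eB h.hM h.blkB) (isBlk_eB h.hM hB) (hi.indAlong h.hM),
    (isDefectGroup_iff_sDef_top h.hM hB).1 hD,
    sb_blkMap_eq φ hφ c ▸ (nsub_map_amb hf hC h.nsub).ple⟩

/-- The structure of `B` matches that of its correspondent in `H ≥ N(Z)`. -/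
theorem Setup.exists_match [Fintype G] (h : Setup p M B' Z c D b)
    (hN : normalizer (Z.map H.subtype : Set G) ≤ H) (hi : IsInducedBlock M H B' B)
    (hD : IsDefectGroup p M B (D.map H.subtype)) :
    blockRank p B' = blockRank p B ∧ ∃ I η, IsPerfectIsometry p M B' B I η := by
  have hf := H.subtype_injective
  have hC := (centralizer_le_normalizer _).trans hN
  obtain ⟨φ, hφ⟩ := exists_centEquiv hf (R := Z) (hC.trans H.range_subtype.ge)
  have h2 := h.map hC hi hD φ hφ
  obtain ⟨θ₀', l'⟩ := h.exists_loc'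
  obtain ⟨θ₁, l⟩ := h2.exists_loc'
  have hn : ∀ n : H, n ∈ normalizer (Z : Set H) ↔ (n : G) ∈ normalizer (Z.map H.subtype : Set G) :=
    fun n => by
      rw [← mem_subgroupOf, subgroupOf_normalizer_eq (map_subtype_le Z), subgroupOf,
        comap_map_eq_self_of_injective hf]
  have hs : ∀ (n' : normalizer (Z : Set H)) (n : normalizer (Z.map H.subtype : Set G)),
      ((n' : H) : G) = n → ∀ θ, irrInfl φ.symm.toMonoidHom φ.symm.surjective (n' • θ) =
        n • irrInfl φ.symm.toMonoidHom φ.symm.surjective θ := fun n' n a θ =>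
    Subtype.ext (funext fun x => by
      obtain ⟨y, rfl⟩ := φ.surjective x
      refine congrArg θ.1 (φ.injective (Subtype.ext ?_))
      change (φ (cjHom Z n'⁻¹ (φ.symm (φ y))) : G) = φ (φ.symm (cjHom _ n⁻¹ (φ y)))
      simp only [MulEquiv.symm_apply_apply, MulEquiv.apply_symm_apply, hφ, coe_cjHom]
      rw [show ((n⁻¹ : normalizer _) : G) = (n : G)⁻¹ from rfl, ← a]
      simp)
  have m : Match c (blkMap φ c) θ₀' (irrInfl φ.symm.toMonoidHom φ.symm.surjective θ₀')
      (irrInfl φ.symm.toMonoidHom φ.symm.surjective) := by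
    refine ⟨⟨fun θ a => (irrInfl_symm_mem_blkMap φ).2 a, (irrInfl_injective _ _).injOn,
      fun θ a => ⟨_, a, Subtype.ext (funext fun x => congrArg θ.1 (φ.apply_symm_apply x))⟩⟩, rfl,
      fun θ _ θ' _ => ⟨?_, ?_⟩⟩
    · rintro ⟨n, rfl⟩
      exact ⟨⟨_, (hn n).1 n.2⟩, hs n _ rfl θ'⟩
    · rintro ⟨n, a⟩
      exact ⟨⟨⟨n, hN n.2⟩, (hn _).2 n.2⟩, irrInfl_injective _ _ (a.trans (hs _ n rfl θ').symm)⟩
  have l₀ := l.of_fixed (m.bij.mapsTo l'.mem) fun n a => by
    have h3 := hs ⟨⟨n, hN n.2⟩, (hn _).2 n.2⟩ n rfl θ₀'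
    rw [← h3, l'.fix _ ((l'.smul_mem_iff l'.mem _).1 ((irrInfl_symm_mem_blkMap φ).1
      (h3 ▸ (l.smul_mem_iff (m.bij.mapsTo l'.mem) n).2 a)))]
  obtain ⟨X, ψ, δ, ε, s⟩ := l₀.exists_str
  obtain ⟨X', ψ', δ', ε', s'⟩ := l'.exists_str
  obtain ⟨I, η, a, -⟩ := m.exists_perfect l' l₀ s s'
    (fun y => cInt_comp_equiv φ.symm (cInt_block h.hM h.blkc y)) fun x => cInt_block h.hM h.blkc _
  exact ⟨by rw [s.rank_eq, s'.rank_eq, m.e_eq l' l₀], I, η, a⟩

end CL.Cyc
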