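import Mathlib
import Cfsg.Agent.BLK.CycSub
import Cfsg.Agent.BLK.Star2
import Cfsg.Agent.BLK.RankOne
import Cfsg.Agent.BLK.NilAb
import Cfsg.Agent.CHAR.BrauerPerm

/-! Nilpotent blocks with abelian defect group: the star bijection with the characters of the
defect group, its kernel and its equivariance. -/

set_option autoImplicit false

open Cfsg MonoidAlgebra Subgroup CL.Char
open scoped CL.MSS ComplexConjugate Classical

namespace CL.Cyc

open CL.Blk

variable {G : Type*} [Group G] [Finite G] {H : Type*} [Group H] [Finite H] {p : ℕ}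
  {M : Ideal AlgInt}

theorem cInt_br1 (hM : IsPModular p M) {b : Set (IrrCharacter H)} (hb : IsPBlock M b)
    (hl : blockRank p b = 1) : CInt M fun c => (p : ℂ) ^ blockDefect p b * br1 p b c := by
  obtain ⟨S, i, hi, h1, -⟩ := exists_basicSet_br1 hM hb hl
  have h2 : S.Φ i = fun c => (p : ℂ) ^ blockDefect p b * br1 p b c := by
    rw [S.Φ_eq, Finset.sum_eq_single i (fun j _ a => (a (hi j)).elim) (by simp), h1,
      S.C_eq_of_l_eq_one hM hb (by rw [← S.blockRank_eq, hl])]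
    funext c
    simp
  exact h2 ▸ cInt_of_vanish hM (S.isGen_Φ i) fun y hy => S.Φ_of_not i fun a => a hy

theorem cInt_sproj (hM : IsPModular p M) {f : H →* G} {z : H} (h : IsSec p f z)
    {b : Set (IrrCharacter H)} (hb : IsPBlock M b) (hl : blockRank p b = 1) {θ : G → ℂ}
    (hθ : IsGeneralizedCharacter G θ) :
    CInt M fun g => (p : ℂ) ^ blockDefect p b * sproj p f z b θ g := fun g => by
  obtain ⟨x, hx⟩ := exists_isPPart hM.1 g
  by_cases hc : IsConj (f z) x
  · obtain ⟨c, hc1, hc2⟩ := h.exists_isConj_of_isPPart hx hc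
    obtain ⟨n, hn⟩ := h.exists_pow_eq_one
    have h1 := Cyc.mem_V (M := M) (pow_ne_zero n hM.1.ne_zero)
      (dn_sh_mem_cyc hM hb hl f h.mem_center hn hθ) 1
    have h2 := mul_mem h1 (cInt_br1 hM hb hl c)
    beta_reduce
    rw [← (isClassFunction_sproj f z b θ).eq_of_isConj hc2, h.sproj_apply hM.1 b θ hc1,
      blockPart_eq_dn_mul hM hb hl _ hc1, ← card_centralizer_eq_of_isConj hc2,
      h.card_centralizer hM.1 hc1]
    convert h2 using 1
    simp only [pow_one]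
    ring
  · simp only [h.sproj_eq_zero hM.1 b θ hx hc, mul_zero, zero_div]
    exact zero_mem _

section

variable {B : Set (IrrCharacter G)} {P : Subgroup G} {e : (F M)[G]}

theorem rank_bu (h : MaxP p M B P e) (hn : IsNilpotentBlock p M B)
    (hc : ∀ x ∈ P, ∀ y ∈ P, Commute x y) {u : G} (hu : u ∈ P) :
    blockRank p (bu p M P e u) = 1 :=
  h.blockRank_bu_eq_one hc hu fun _ a _ => (h.isNilpotentBlock_iff hc).1 hn a

/-- The star bijection of a nilpotent block with abelian defect group. -/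
theorem exists_star (h : MaxP p M B P e) (hn : IsNilpotentBlock p M B)
    (hc : ∀ x ∈ P, ∀ y ∈ P, Commute x y) {A : Type*} [Group A] [Finite A] (ι : A ≃* P)
    {θ₀ : IrrCharacter G} (h0 : θ₀ ∈ B) : ∃ τ : IrrCharacter A → IrrCharacter G,
      Set.BijOn τ Set.univ B ∧ τ (Blk.irrOne A) = θ₀ ∧
      (∀ ξ a, du p M P e (ι a) (τ ξ).1 = ξ.1 a * du p M P e (ι a) θ₀.1) ∧
      (∀ y, CInt M fun x => ∑ ξ, (τ ξ).1 x * ξ.1 y) ∧
      ∀ x, CInt M fun y => ∑ ξ, ξ.1 y * (τ ξ).1 x := by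
  have hA : ∀ a b : A, a * b = b * a := fun a b => ι.injective (Subtype.ext (by
    simpa using (hc _ (ι a).2 _ (ι b).2).eq))
  have hs : ∀ η, FStable p P e η := fun η u v a => by
    obtain ⟨n, h1, rfl⟩ := (h.fConj_iff_of_comm a.left hc).1 a
    rw [← mem_centralizer_iff.1 ((h.isNilpotentBlock_iff hc).1 hn h1) u a.left, mul_inv_cancel_right]
  have hθ := θ₀.2.isCharacter.isClassFunction
  have h1 : ∀ ξ : IrrCharacter A, ∃ ψ ∈ B, ψ.1 =
      bstar p M P e (extendByZero P fun u => ξ.1 (ι.symm u)) θ₀.1 := fun ξ => by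
    obtain ⟨ψ, a, b, -⟩ := h.exists_irr_bstar_of_norm (hs (extendByZero P fun u => ξ.1 (ι.symm u)))
      (by simp only [extendByZero_coe]; exact ξ.2.isCharacter.isGen.comp ι.symm.toMonoidHom)
      ((extendByZero_coe P _ 1).trans (by rw [map_one]; exact ξ.2.one_eq_one_of_comm hA))
      (fun u hu => by
        rw [extendByZero_coe P _ ⟨u, hu⟩, Complex.mul_conj', ξ.2.isCharacter.norm_eq_one_of_apply_one
          (ξ.2.one_eq_one_of_comm hA)]
        simp) h0
    exact ⟨ψ, a, b⟩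
  choose τ hτ hτ' using h1
  have h2 : ∀ ξ a, sp p M P e (ι a) (τ ξ).1 = ξ.1 a • sp p M P e (ι a) θ₀.1 := fun ξ a => by
    rw [hτ', h.sp_bstar (hs _) hθ (ι a).2, extendByZero_coe, ι.symm_apply_apply]
  have h3 := fun ξ a => h.du_eq_of_sp (ι a).2 (h2 ξ a)
  have hi : Function.Injective τ := fun ξ ξ' a => Subtype.ext (funext fun x => mul_right_cancel₀
    (h.du_ne_zero_of_comm (ι x).2 (rank_bu h hn hc (ι x).2) (fun y hy => hc _ hy _ (ι x).2) h0)
    (by rw [← h3, a, h3]))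
  have := Fintype.ofFinite A
  have h4 : ∀ x y, ∑ ξ, (τ ξ).1 x * ξ.1 y = Nat.card P * sp p M P e (ι y⁻¹) θ₀.1 x := fun x y => by
    have h5 : ∀ ξ, (τ ξ).1 x = ∑ a : A, ξ.1 a * sp p M P e (ι a) θ₀.1 x := fun ξ => by
      rw [← blockPart_irr_of_mem (hτ ξ), h.blockPart_eq_sum_sp (h.isReps_elts hn hc)
        (τ ξ).2.isCharacter.isClassFunction, Finset.sum_apply]
      refine (Finset.sum_bij (fun a _ => (ι a : G)) (fun a _ => mem_elts.2 (ι a).2)
        (fun a _ b _ d => ι.injective (Subtype.ext d))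
        (fun u hu => ⟨ι.symm ⟨u, mem_elts.1 hu⟩, Finset.mem_univ _, by simp⟩) fun a _ => ?_).symm
      rw [h2, Pi.smul_apply, smul_eq_mul]
    simp only [h5, Finset.sum_mul]
    rw [Finset.sum_comm, Finset.sum_eq_single y⁻¹ (fun a _ b => ?_) (by simp)]
    all_goals
      simp only [mul_right_comm _ (sp _ _ _ _ _ _ _), ← Finset.sum_mul]
      rw [Finset.sum_congr rfl fun ξ _ => by
        rw [show ξ.1 y = conj (ξ.1 y⁻¹) by rw [← ξ.2.apply_inv, inv_inv]], column_orth]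
    · rw [if_pos (IsConj.refl _), ← Nat.card_congr ι.toEquiv, (eq_top_iff' _).2 fun g =>
        mem_centralizer_singleton_iff.2 (hA _ _), card_top]
    · rw [if_neg, zero_mul]
      rw [isConj_iff]
      rintro ⟨c, d⟩
      exact b (by rw [← d, hA c, mul_inv_cancel_right])
  refine ⟨τ, ⟨fun ξ _ => hτ ξ, hi.injOn, ?_⟩, Subtype.ext ?_, h3, fun y => ?_, fun x y => ?_⟩
  · refine (Set.eq_of_subset_of_ncard_le (Set.image_subset_iff.2 fun ξ _ => hτ ξ) ?_).ge
    rw [Set.ncard_image_of_injective _ hi, Set.ncard_univ, card_irr_of_comm hA,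
      ← Nat.card_coe_set_eq, hn.card_of_comm h.hM h.isDefectGroup hc, Nat.card_congr ι.toEquiv]
  · rw [hτ', h.bstar_of_eq_one (hs _) hθ fun u hu => extendByZero_coe P _ ⟨u, hu⟩,
      blockPart_irr_of_mem h0]
  · simp only [h4]
    rw [h.card_eq, ← h.blockDefect_bu_of_comm (ι y⁻¹).2 fun z hz => hc _ hz _ (ι y⁻¹).2,
      Nat.cast_pow]
    exact cInt_sproj h.hM (h.isSec (ι y⁻¹).2) (h.isPBlock_bu (ι y⁻¹).2)
      (rank_bu h hn hc (ι y⁻¹).2) θ₀.2.isCharacter.isGen
  · beta_reduce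
    rw [Finset.sum_congr rfl fun ξ _ => mul_comm _ _, h4, (eq_top_iff' _).2 fun g => mem_centralizer_singleton_iff.2 (hA _ _), card_top,
      Nat.card_congr ι.toEquiv, mul_div_cancel_left₀ _ (card_ne_zero P)]
    exact mem_V_of_isIntegral ((h.isSec (ι y⁻¹).2).sproj_isIntegral h.prime _
      θ₀.2.isCharacter.isGen x)

theorem dQ_aut (h : MaxP p M B P e) (φ : G ≃* G) (hP : P.map φ.toMonoidHom = P)
    (he : amb φ.toMonoidHom e = e) {θ : G → ℂ} (hθ : IsClassFunction G θ) {u : G} (hu : u ∈ P) :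
    dQ p M P e P (φ u) θ = dQ p M P e P u fun x => θ (φ x) := by
  obtain ⟨φ', hφ⟩ : ∃ φ' : centralizer (P : Set G) ≃* centralizer (P : Set G),
      ∀ x, (φ' x : G) = φ.toMonoidHom x := by
    have := exists_centEquiv (f := φ.toMonoidHom) φ.injective (R := P)
      (le_top.trans (MonoidHom.range_eq_top.2 φ.surjective).ge)
    rwa [hP] at this
  have h1 : lowB p M P e P = blkMap φ' (lowB p M P e P) := PLE.lowB_eq h.hM (by
    rw [sb_blkMap_eq φ' hφ, (PLE.refl P e).sb_lowB h.hM h.pair, he]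
    exact PLE.refl P e) h.pair (isPBlock_blkMap h.hM (h.isPBlock_lowB le_rfl) φ')
  have h2 : φ u ∈ P := hP ▸ mem_map_of_mem φ.toMonoidHom hu
  rw [dQ, h1, dn_blkMap, dQ]
  · simp only [hφ, map_mul]
    rfl
  · intro x c
    beta_reduce
    rw [← hθ (φ u * x) c, coe_mul, coe_mul, ← mul_assoc, ← mul_assoc,
      mem_centralizer_iff.1 c.2 _ h2, ← mul_assoc, coe_inv]

end

omit [Finite G] in
theorem card_range_aut {D T : Subgroup G} (hT : T ≤ normalizer (D : Set G)) :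
    Nat.card (D.normalizerMonoidHom.comp (inclusion hT)).range =
      (centralizer (D : Set G)).relIndex T := by
  rw [← index_ker, ← MonoidHom.comap_ker, normalizerMonoidHom_ker]
  rfl

theorem aut_eq (hp : p.Prime) (hc : IsCyclic G) (hG : IsPGroup p G) {S S' : Subgroup (MulAut G)}
    (h : Nat.card S = Nat.card S') (he : Nat.card S ∣ p - 1) : S = S' := by
  have := Fact.mk hp
  rcases hp.eq_two_or_odd' with rfl | h2
  · rw [card_eq_one.1 (Nat.dvd_one.1 he), card_eq_one.1 (h.symm.trans (Nat.dvd_one.1 he))]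
  · obtain ⟨n, hn⟩ := hG.exists_card_eq
    have h3 : IsCyclic (MulAut G) := by
      have := ZMod.isCyclic_units_of_prime_pow p hp (by rintro rfl; revert h2; decide) n
      rw [← hn] at this
      exact isCyclic_of_surjective _ (IsCyclic.mulAutMulEquiv G).symm.surjective
    exact eq_of_card_eq_of_isCyclic (D := ⊤) inferInstance le_top le_top h

universe u

theorem Loc.exists_star {G : Type u} [Group G] [Fintype G] {B : Set (IrrCharacter G)}
    {Z D : Subgroup G} {c : Set (IrrCharacter (centralizer (Z : Set G)))} {b : (F M)[G]}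
    {θ₀ : IrrCharacter (centralizer (Z : Set G))} {e : ℕ} (h : Loc p M B Z c D b θ₀ e)
    {A : Type*} [Group A] [Finite A] (ι : A ≃* D) :
    ∃ (τ : IrrCharacter A → IrrCharacter (centralizer (Z : Set G))) (S : Subgroup (MulAut A)),
      Nat.card S = e ∧ Set.BijOn τ Set.univ c ∧ τ (Blk.irrOne A) = θ₀ ∧
      (∀ ξ ξ', (∃ α ∈ S, ∀ a, ξ.1 a = ξ'.1 (α a)) ↔
        ∃ n : normalizer (Z : Set G), τ ξ = n • τ ξ') ∧
      (∀ y, CInt M fun x => ∑ ξ, (τ ξ).1 x * ξ.1 y) ∧
      ∀ x, CInt M fun y => ∑ ξ, ξ.1 y * (τ ξ).1 x := by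
  have hf := (centralizer (Z : Set G)).subtype_injective
  have hD := map_subgroupOf_eq_of_le h.D_le
  have hb := (h.rel.pair.supp.mono h.cent_le).amb_res
  have m : MaxP p M c (D.subgroupOf _) (res (Subgroup.subtype _) b) :=
    ⟨h.hM, h.blkc, (relPair_map_amb_iff hf (by rw [hD, range_subtype]; exact h.cent_le)).1 (by
      rw [hD, hb, range_subtype]
      exact h.nsub.relPair h.D_le le_rfl), (isDefectGroup_iff_sDef_top h.hM h.blkc).1 h.defc⟩
  have hc := comm_subgroupOf (K := centralizer (Z : Set G)) fun x hx _ hy =>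
    mem_centralizer_iff.1 (h.abD hy) x hx
  obtain ⟨τ, h1, h2, h3, h4⟩ := Cyc.exists_star m h.nil_c hc
    (ι.trans (subgroupOfEquivOfLe h.D_le).symm) h.mem
  have hT : pairStab D b ≤ normalizer (D : Set G) := inf_le_left
  let ρ : pairStab D b →* MulAut A :=
    (MulAut.congr ι.symm).toMonoidHom.comp (D.normalizerMonoidHom.comp (inclusion hT))
  have hρ : ∀ n a, (ι (ρ n a) : G) = n * ι a * (n : G)⁻¹ := fun n a => by
    simp [ρ, MulAut.congr]
  have hA : IsCyclic A := have := h.cyc; isCyclic_of_surjective _ ι.symm.surjective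
  obtain ⟨a₀, ha⟩ := hA.exists_generator
  have key : ∀ (n : pairStab D b) ξ ξ', τ ξ = (⟨n, h.normalizer_le (hT n.2)⟩ :
      normalizer (Z : Set G)) • τ ξ' → ∀ a, ξ.1 a = ξ'.1 (ρ n⁻¹ a) := fun n ξ ξ' h5 => by
    set n' : normalizer (Z : Set G) := ⟨n, h.normalizer_le (hT n.2)⟩
    set ι' := ι.trans (subgroupOfEquivOfLe h.D_le).symm
    have h6 : ∀ a, cjHom Z n'⁻¹ (ι' a) = ι' (ρ n⁻¹ a) := fun a => Subtype.ext (hρ n⁻¹ a).symm
    have h7 : ∀ a : A, (∀ x, x ∈ zpowers a) → ∀ θ, du p M (D.subgroupOf _)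
        (res (Subgroup.subtype _) b) (ι' a : centralizer (Z : Set G)) θ =
        dQ p M (D.subgroupOf _) (res (Subgroup.subtype _) b) (D.subgroupOf _) (ι' a) θ :=
      fun a ha θ => by
        have h8 : zpowers (ι' a : centralizer (Z : Set G)) = D.subgroupOf _ :=
          le_antisymm (zpowers_le.2 (ι' a).2) fun x hx => by
            obtain ⟨k, hk⟩ := ha (ι'.symm ⟨x, hx⟩)
            exact ⟨k, by simpa using congrArg (fun t => (ι' t).1) hk⟩
        rw [du, h8]
    have h8 := fun θ hθ => dQ_aut m (cjHom Z n'⁻¹) (le_antisymm (by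
      rintro _ ⟨x, hx, rfl⟩
      obtain ⟨a, ha⟩ := ι'.surjective ⟨x, hx⟩
      rw [show x = ι' a from (congrArg Subtype.val ha).symm]
      exact (h6 a).symm ▸ (ι' _).2) fun x hx => by
        obtain ⟨a, ha⟩ := (ι'.surjective.comp (ρ n⁻¹).surjective) ⟨x, hx⟩
        exact ⟨_, (ι' a).2, (h6 a).trans (congrArg Subtype.val ha)⟩) (amb_injective hf (by
          rw [amb_amb, show (Subgroup.subtype _).comp (cjHom Z n'⁻¹).toMonoidHom =
            (MulAut.conj ((n⁻¹ : pairStab D b) : G)).toMonoidHom.comp (Subgroup.subtype _) from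
            MonoidHom.ext fun x => coe_cjHom Z _ x, ← amb_amb, hb]
          exact n⁻¹.2.2)) (θ := θ) hθ (ι' a₀).2
    have ha' : ∀ x, x ∈ zpowers (ρ n⁻¹ a₀) := fun x => by
      obtain ⟨k, hk⟩ := ha ((ρ n⁻¹).symm x)
      exact ⟨k, by simpa using congrArg (ρ n⁻¹) hk⟩
    have h9 := h3 ξ' (ρ n⁻¹ a₀)
    rw [h7 _ ha', h7 _ ha', ← h6, h8 _ (τ ξ').2.isCharacter.isClassFunction,
      h8 _ θ₀.2.isCharacter.isClassFunction, ← h7 _ ha, ← h7 _ ha] at h9
    have h10 := h3 ξ a₀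
    rw [h5, funext (smul_irr_apply n' _), h9, ← funext (smul_irr_apply n' θ₀),
      h.fix n' (h.T_eq ▸ mem_sup_left n.2), mul_left_inj' (m.du_ne_zero_of_comm (ι' a₀).2
        (rank_bu m h.nil_c hc (ι' a₀).2) (fun y hy => hc _ hy _ (ι' a₀).2) h.mem)] at h10
    have hA' := fun x y : A => (IsCyclic.commGroup (α := A)).mul_comm x y
    obtain ⟨l, hl⟩ := ξ.2.exists_hom_of_comm hA'
    obtain ⟨l', hl'⟩ := ξ'.2.exists_hom_of_comm hA'
    rw [hl, hl'] at h10 ⊢
    have := (MonoidHom.eq_iff_eq_on_generator ha l (l'.comp (ρ n⁻¹).toMonoidHom)).2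
      (Units.ext h10.symm)
    intro a
    rw [this]
    rfl
  refine ⟨τ, ρ.range, ?_, h1, h2, fun ξ ξ' => ⟨?_, ?_⟩, h4⟩
  · rw [← h.idx, h.idx_eq, ← card_range_aut hT, ← MonoidHom.map_range]
    exact card_map_of_injective (MulAut.congr ι.symm).injective
  · rintro ⟨_, ⟨n, rfl⟩, h5⟩
    obtain ⟨μ, -, h6⟩ := h1.surjOn ((h.smul_mem_iff (h1.mapsTo (Set.mem_univ ξ'))
      ⟨(n⁻¹ : pairStab D b), h.normalizer_le (hT n⁻¹.2)⟩).2 (h.T_eq ▸ mem_sup_left n⁻¹.2))
    refine ⟨_, Eq.trans (congrArg τ (Subtype.ext (funext fun a => ?_))) h6⟩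
    rw [key _ _ _ h6, inv_inv, h5]
  · rintro ⟨n, h5⟩
    have h6 := (h.smul_mem_iff (h1.mapsTo (Set.mem_univ ξ')) n).1
      (h5 ▸ h1.mapsTo (Set.mem_univ ξ))
    rw [h.T_eq, ← SetLike.mem_coe, coe_mul_of_left_le_normalizer_right _ _
      (hT.trans (h.normalizer_le.trans (MSS.normalizer_le_normalizer_centralizer Z)))] at h6
    obtain ⟨x, hx, y, hy, h7⟩ := h6
    refine ⟨_, ⟨⟨x, hx⟩⁻¹, rfl⟩, key ⟨x, hx⟩ ξ ξ' ?_⟩
    rw [h5, show n = ⟨x, h.normalizer_le (hT hx)⟩ * ⟨y, centralizer_le_normalizer _ hy⟩ from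
      Subtype.ext h7.symm, mul_smul, smul_irr_of_mem (n := ⟨y, _⟩) hy]

end CL.Cyc
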