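import Mathlib
import Cfsg.Agent.BLK.JordanP1

/-! Jordan's class equation argument: groups whose centralizers are almost abelian. -/

set_option autoImplicit false
open Subgroup
open scoped CL.MSS

namespace CL.JordanP

universe u

section
variable {H : Type*} [Group H]

/-- The centralizer of an element. -/
abbrev Cz (x : H) : Subgroup H := centralizer ({x} : Set H)

/-- Commutative subgroups. -/
abbrev Ab (A : Subgroup H) : Prop := A ≤ centralizer (A : Set H)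

theorem Ab.mono {A B : Subgroup H} (h : Ab A) (hB : B ≤ A) : Ab B :=
  hB.trans (h.trans (centralizer_le hB))

theorem Ab.le_Cz {A : Subgroup H} (h : Ab A) {x : H} (hx : x ∈ A) : A ≤ Cz x :=
  h.trans (centralizer_le (Set.singleton_subset_iff.2 hx))

theorem ab_zpowers_sup {Y : Subgroup H} (hY : Ab Y) {a : H} (ha : a ∈ centralizer (Y : Set H)) :
    Ab (zpowers a ⊔ Y) := by
  have h1 : zpowers a ≤ centralizer (Y : Set H) := zpowers_le_of_mem ha
  have h2 : zpowers a ≤ centralizer (zpowers a : Set H) := le_centralizer _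
  refine sup_le (le_centralizer_iff.1 (sup_le h2 (le_centralizer_iff.1 h1))) ?_
  exact le_centralizer_iff.1 (sup_le h1 hY)

variable [Finite H]

theorem relIndex_ne_zero' (A B : Subgroup H) : A.relIndex B ≠ 0 := index_ne_zero_of_finite

theorem relIndex_le_mul {A B C : Subgroup H} (h : A ≤ B) (h' : B ≤ C) {a b : ℕ}
    (ha : A.relIndex B ≤ a) (hb : B.relIndex C ≤ b) : A.relIndex C ≤ a * b := by
  rw [← relIndex_mul_relIndex A B C h h']
  exact Nat.mul_le_mul ha hb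

theorem relIndex_le_mul' {A B : Subgroup H} (C : Subgroup H) (h : A ≤ B) {a b : ℕ}
    (ha : A.relIndex B ≤ a) (hb : B.relIndex C ≤ b) : A.relIndex C ≤ a * b := by
  rw [← inf_relIndex_right]
  refine relIndex_le_mul (B := B ⊓ C) (inf_le_inf_right C h) inf_le_right ?_ ?_
  · have : A ⊓ C = A ⊓ (B ⊓ C) := by rw [← inf_assoc, inf_of_le_left h]
    rw [this, inf_relIndex_right]
    exact (relIndex_le_of_le_right inf_le_left (relIndex_ne_zero' _ _)).trans ha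
  · rwa [inf_relIndex_right]

theorem ncard_conj_le_of_central {w e : ℕ}
    (hw : ∀ A : Subgroup H, Ab A → ∀ z, {a | a ∈ A ∧ IsConj z a}.ncard ≤ w) {Y W : Subgroup H}
    (hY : Ab Y) (hW : W ≤ centralizer (Y : Set H)) (he : Y.relIndex W ≤ e) (z : H) :
    {a | a ∈ W ∧ IsConj z a}.ncard ≤ w * e := by
  classical
  have := Fintype.ofFinite W
  have := Fintype.ofFinite (W ⧸ Y.subgroupOf W)
  have h1 : {a | a ∈ W ∧ IsConj z a} =
      Subtype.val '' (Finset.univ.filter (fun a : W => IsConj z a) : Set W) := by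
    ext a
    simp only [Set.mem_setOf_eq, Finset.coe_filter, Finset.mem_univ, true_and, Set.mem_image]
    exact ⟨fun h => ⟨⟨a, h.1⟩, h.2, rfl⟩, by rintro ⟨b, hb, rfl⟩; exact ⟨b.2, hb⟩⟩
  rw [h1, Set.ncard_image_of_injective _ Subtype.val_injective, Set.ncard_coe_finset]
  refine (Finset.card_le_mul_card_image (f := fun a : W => (a : W ⧸ Y.subgroupOf W)) _ w ?_).trans
    (Nat.mul_le_mul_left _ ((Finset.card_le_univ _).trans ?_))
  · intro q hq
    obtain ⟨a, -, rfl⟩ := Finset.mem_image.1 hq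
    refine le_trans ?_ (hw _ (ab_zpowers_sup hY (hW a.2)) z)
    rw [← Set.ncard_coe_finset, ← Set.ncard_image_of_injective _ Subtype.val_injective]
    refine Set.ncard_le_ncard ?_
    rintro _ ⟨b, hb, rfl⟩
    simp only [Finset.coe_filter, Finset.mem_filter, Finset.mem_univ, true_and,
      Set.mem_setOf_eq] at hb
    refine ⟨?_, hb.1⟩
    have h2 : (a⁻¹ * b : W) ∈ Y.subgroupOf W := QuotientGroup.eq.1 hb.2.symm
    have h3 := mul_mem (mem_sup_left (mem_zpowers (a : H))) (mem_sup_right (S := zpowers (a : H)) h2)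
    simpa using h3
  · rwa [← Nat.card_eq_fintype_card]

end

/-- A finite group with almost abelian centralizers and few conjugates inside abelian subgroups is
small or has a small conjugacy class. -/
theorem struct_lemma (d w : ℕ) : ∃ B : ℕ, ∀ (H : Type u) [Group H] [Finite H]
    (P : Subgroup H → Subgroup H), (∀ X, P X ≤ X) → Monotone P →
    (∀ g X, P (g •ᶜ X) = g •ᶜ P X) → (∀ x, x ≠ 1 → Ab (P (Cz x))) →
    (∀ x, x ≠ 1 → (P (Cz x)).relIndex (Cz x) ≤ d) → (∀ A, Ab A → (P A).relIndex A ≤ d) →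
    (∀ A : Subgroup H, Ab A → ∀ z, {a | a ∈ A ∧ IsConj z a}.ncard ≤ w) →
    Nat.card H ≤ B ∨ ∃ z : H, z ≠ 1 ∧ (Cz z).index ≤ B := by
  obtain ⟨B, hB⟩ := count_lemma.{u} (d ^ 4 + d ^ 3 * (d ^ 3 * (w * d ^ 4)))
  refine ⟨max B (w * d ^ 4), fun H _ _ P hle hmono hcj hab hd hdA hw => ?_⟩
  have h2 : ∀ x, x ≠ 1 → (P (P (Cz x))).relIndex (Cz x) ≤ d ^ 2 := fun x hx => by
    rw [pow_two]; exact relIndex_le_mul (hle _) (hle _) (hdA _ (hab x hx)) (hd x hx)
  have h3 : ∀ x, x ≠ 1 → (P (P (P (Cz x)))).relIndex (Cz x) ≤ d ^ 3 := fun x hx => by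
    rw [pow_succ']
    exact relIndex_le_mul (hle _) ((hle _).trans (hle _)) (hdA _ ((hab x hx).mono (hle _))) (h2 x hx)
  have h4 : ∀ x, x ≠ 1 → (P (P (P (P (Cz x))))).relIndex (Cz x) ≤ d ^ 4 := fun x hx => by
    rw [pow_succ']
    exact relIndex_le_mul (hle _) ((hle _).trans ((hle _).trans (hle _)))
      (hdA _ ((hab x hx).mono ((hle _).trans (hle _)))) (h3 x hx)
  -- good elements
  let Good : H → Prop := fun z => z ≠ 1 ∧ z ∈ P (P (Cz z)) ∧ P (P (P (Cz z))) ≠ ⊥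
  let E : H → H → Prop := fun z z' => P (Cz z) ⊓ P (Cz z') ≠ ⊥
  have hA : ∀ z, Good z → ∀ t ∈ P (Cz z), t ≠ 1 → P (Cz t) ≤ Cz z := fun z hz t ht ht1 =>
    (hab t ht1).le_Cz (hmono ((hab z hz.1).le_Cz ht) hz.2.1)
  have hE : ∀ z z', Good z → Good z' → E z z' → P (P (P (Cz z'))) ≤ P (Cz z) :=
    fun z z' hz hz' h => by
      obtain ⟨⟨t, ht⟩, ht1⟩ := ne_bot_iff_exists_ne_one.1 h
      have ht1' : t ≠ 1 := fun h' => ht1 (Subtype.ext h')
      exact (hmono (hmono ((hab z' hz'.1).le_Cz ht.2))).trans (hmono (hA z hz t ht.1 ht1'))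
  have hEsymm : ∀ z z', E z z' → E z' z := fun z z' h => by
    change _ ≠ _; rw [inf_comm]; exact h
  have hEtrans : ∀ z z' z'', Good z → Good z' → Good z'' → E z z' → E z' z'' → E z z'' :=
    fun z z' z'' hz hz' hz'' h h' h0 => hz'.2.2 (eq_bot_iff.2
      ((le_inf (hE z z' hz hz' h) (hE z'' z' hz'' hz' (hEsymm _ _ h'))).trans h0.le))
  have hCz : ∀ g x : H, Cz (g * x * g⁻¹) = g •ᶜ Cz x := fun g x =>
    (MSS.cj_centralizer_singleton g x).symm
  have hEcj : ∀ g z z', E z z' → E (g * z * g⁻¹) (g * z' * g⁻¹) := fun g z z' h => by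
    change _ ≠ _
    rwa [hCz, hCz, hcj, hcj, ← MSS.cj_inf, Ne, MSS.cj_eq_bot_iff]
  -- large elements
  let Λ : Set H := {x | x ≠ 1 ∧ P (P (P (P (Cz x)))) ≠ ⊥}
  have hgood : ∀ x ∈ Λ, ∀ t ∈ P (P (P (Cz x))), t ≠ 1 → Good t := fun x hx t ht ht1 => by
    have h5 : P (Cz x) ≤ Cz t := (hab x hx.1).le_Cz (hle _ (hle _ ht))
    exact ⟨ht1, hmono (hmono h5) ht, fun h0 => hx.2 (eq_bot_iff.2
      ((hmono (hmono (hmono h5))).trans h0.le))⟩
  have hEin : ∀ x, x ≠ 1 → ∀ t ∈ P (Cz x), ∀ t' ∈ P (Cz x), P (P (Cz x)) ≠ ⊥ → E t t' :=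
    fun x hx t ht t' ht' h h0 => h (eq_bot_iff.2 ((le_inf (hmono ((hab x hx).le_Cz ht))
      (hmono ((hab x hx).le_Cz ht'))).trans h0.le))
  have hne2 : ∀ x ∈ Λ, P (P (Cz x)) ≠ ⊥ := fun x hx h0 =>
    hx.2 (eq_bot_iff.2 (((hle _).trans (hle _)).trans h0.le))
  have hEin' : ∀ x ∈ Λ, ∀ t ∈ P (P (P (Cz x))), ∀ t' ∈ P (P (P (Cz x))), E t t' :=
    fun x hx t ht t' ht' => hEin x hx.1 t (hle _ (hle _ ht)) t' (hle _ (hle _ ht')) (hne2 x hx)
  have hex : ∀ x ∈ Λ, ∃ t ∈ P (P (P (Cz x))), t ≠ 1 := fun x hx => by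
    obtain ⟨⟨t, ht⟩, ht1⟩ := ne_bot_iff_exists_ne_one.1 hx.2
    exact ⟨t, hle _ ht, fun h' => ht1 (Subtype.ext h')⟩
  let r : H → H → Prop := fun x y => ∃ t ∈ P (P (P (Cz x))), t ≠ 1 ∧
    ∃ t' ∈ P (P (P (Cz y))), t' ≠ 1 ∧ E t t'
  have hr : ∀ x ∈ Λ, ∀ y ∈ Λ, r x y → ∀ t ∈ P (P (P (Cz x))), t ≠ 1 →
      ∀ t' ∈ P (P (P (Cz y))), t' ≠ 1 → E t t' := by
    rintro x hx y hy ⟨s, hs, hs1, s', hs', hs1', h⟩ t ht ht1 t' ht' ht1'
    exact hEtrans _ _ _ (hgood x hx t ht ht1) (hgood y hy s' hs' hs1') (hgood y hy t' ht' ht1')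
      (hEtrans _ _ _ (hgood x hx t ht ht1) (hgood x hx s hs hs1) (hgood y hy s' hs' hs1')
        (hEin' x hx t ht s hs) h) (hEin' y hy s' hs' t' ht')
  have hΛcj : ∀ g, ∀ x ∈ Λ, g * x * g⁻¹ ∈ Λ := fun g x hx => ⟨by simpa using hx.1, by
    rw [hCz, hcj, hcj, hcj, hcj, Ne, MSS.cj_eq_bot_iff]; exact hx.2⟩
  have hmem3 : ∀ g x t, t ∈ P (P (P (Cz x))) → g * t * g⁻¹ ∈ P (P (P (Cz (g * x * g⁻¹)))) :=
    fun g x t ht => by rw [hCz, hcj, hcj, hcj]; exact MSS.conj_mem_cj ht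
  -- the index of the centralizer of a deep element
  have hidx : ∀ x ∈ Λ, ∀ N : Subgroup H, (∀ g ∈ N, r (g * x * g⁻¹) x) →
      ∀ t ∈ P (P (P (Cz x))), t ≠ 1 → (Cz t).relIndex N ≤ w * d ^ 4 := fun x hx N hN t ht ht1 => by
    have hg := hgood x hx t ht ht1
    obtain ⟨⟨s, hs⟩, hs1⟩ := ne_bot_iff_exists_ne_one.1 hg.2.2
    have hs1' : s ≠ 1 := fun h' => hs1 (Subtype.ext h')
    refine (relIndex_centralizer_le N t (Y := {a | a ∈ centralizer (P (P (P (Cz t))) : Set H) ∧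
      IsConj t a}) fun g hg' => ⟨?_, isConj_iff.2 ⟨g, rfl⟩⟩).trans
      (ncard_conj_le_of_central hw ((hab t ht1).mono ((hle _).trans (hle _))) le_rfl ?_ t)
    · have h5 : g * t * g⁻¹ ≠ 1 := by simpa using ht1
      have h6 := hE _ _ (hgood _ (hΛcj g x hx) _ (hmem3 g x t ht) h5) hg
        (hr _ (hΛcj g x hx) x hx (hN g hg') _ (hmem3 g x t ht) h5 t ht ht1)
      exact le_centralizer_iff.1 ((h6.trans (hle _)).trans (by
        rw [Cz, ← centralizer_closure, ← zpowers_eq_closure])) (mem_zpowers _)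
    · refine le_trans (relIndex_le_of_le_left (hmono (hmono (hmono
        (hA t hg s (hle _ (hle _ hs)) hs1')))) (relIndex_ne_zero' _ _)) ?_
      exact (relIndex_le_of_le_right (centralizer_le (Set.singleton_subset_iff.2 hs))
        (relIndex_ne_zero' _ _)).trans (h4 s hs1')
  rcases hB H Λ r (fun h => h.1 rfl) hΛcj
    (fun x hx => by
      obtain ⟨t, ht, ht1⟩ := hex x hx
      exact ⟨t, ht, ht1, t, ht, ht1, hEin' x hx t ht t ht⟩)
    (fun x y ⟨t, ht, ht1, t', ht', ht1', h⟩ => ⟨t', ht', ht1', t, ht, ht1, hEsymm _ _ h⟩)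
    (fun x hx y hy z hz ⟨t, ht, ht1, t', ht', ht1', h⟩ ⟨s, hs, hs1, s', hs', hs1', h'⟩ =>
      ⟨t, ht, ht1, s', hs', hs1', hEtrans _ _ _ (hgood x hx t ht ht1) (hgood y hy t' ht' ht1')
        (hgood z hz s' hs' hs1') h (hr y hy z hz ⟨s, hs, hs1, s', hs', hs1', h'⟩ t' ht' ht1'
          s' hs' hs1')⟩)
    (fun g x y ⟨t, ht, ht1, t', ht', ht1', h⟩ => ⟨_, hmem3 g x t ht, by simpa using ht1, _,
      hmem3 g y t' ht', by simpa using ht1', hEcj g _ _ h⟩)
    (fun y hy hyΛ => by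
      have h5 : P (P (P (P (Cz y)))) = ⊥ := by
        by_contra h; exact hyΛ ⟨hy, h⟩
      have h6 := h4 y hy
      rw [h5, relIndex_bot_left] at h6
      exact h6.trans (Nat.le_add_right _ _))
    (fun x hx N hN y hy hxy => by
      obtain ⟨t, ht, ht1⟩ := hex x hx
      have hg := hgood x hx t ht ht1
      have h5 : P (P (P (Cz y))) ⊓ P (P (P (Cz t))) = ⊥ := by
        by_contra h
        obtain ⟨⟨s, hs⟩, hs1⟩ := ne_bot_iff_exists_ne_one.1 h
        have hs1' : s ≠ 1 := fun h' => hs1 (Subtype.ext h')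
        exact hxy ⟨t, ht, ht1, s, hs.1, hs1', hEin t ht1 t (hle _ hg.2.1) s (hle _ (hle _ hs.2))
          fun h0 => hg.2.2 (eq_bot_iff.2 ((hle _).trans h0.le))⟩
      rw [← relIndex_bot_left, ← h5]
      refine relIndex_inf_le.trans ((Nat.mul_le_mul ?_ ?_).trans (Nat.le_add_left _ _))
      · exact (relIndex_le_of_le_right inf_le_left (relIndex_ne_zero' _ _)).trans (h3 y hy.1)
      · exact (relIndex_le_of_le_right inf_le_right (relIndex_ne_zero' _ _)).trans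
          (relIndex_le_mul' N ((hle _).trans ((hle _).trans (hle _))) (h3 t ht1)
            (hidx x hx N hN t ht ht1))) with h | ⟨x, hx, h⟩
  · exact Or.inl (h.trans (le_max_left _ _))
  · obtain ⟨t, ht, ht1⟩ := hex x hx
    refine Or.inr ⟨t, ht1, le_trans ?_ (le_max_right _ _)⟩
    rw [← relIndex_top_right]
    exact hidx x hx ⊤ (fun g _ => h g) t ht ht1

section pw
variable {H : Type*} [Group H]

/-- The subgroup generated by the `k`-th powers. -/
def pw (k : ℕ) (X : Subgroup H) : Subgroup H := closure ((fun g => g ^ k) '' X)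

theorem pw_le_iff {k : ℕ} {X A : Subgroup H} : pw k X ≤ A ↔ ∀ g ∈ X, g ^ k ∈ A := by
  rw [pw, closure_le]
  exact ⟨fun h g hg => h ⟨g, hg, rfl⟩, by rintro h _ ⟨g, hg, rfl⟩; exact h g hg⟩

theorem pow_mem_pw {k : ℕ} {X : Subgroup H} {g : H} (hg : g ∈ X) : g ^ k ∈ pw k X :=
  pw_le_iff.1 le_rfl g hg

theorem pw_le (k : ℕ) (X : Subgroup H) : pw k X ≤ X := pw_le_iff.2 fun _ hg => pow_mem hg k

theorem pw_mono (k : ℕ) : Monotone (pw k : Subgroup H → Subgroup H) :=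
  fun _ _ h => pw_le_iff.2 fun _ hg => pow_mem_pw (h hg)

theorem pw_cj (k : ℕ) (g : H) (X : Subgroup H) : pw k (g •ᶜ X) = g •ᶜ pw k X := by
  have key : ∀ (g : H) (X : Subgroup H), pw k (g •ᶜ X) ≤ g •ᶜ pw k X := fun g X =>
    pw_le_iff.2 fun x hx => by
      obtain ⟨y, hy, rfl⟩ := MSS.mem_cj'.1 hx
      rw [conj_pow]
      exact MSS.conj_mem_cj (pow_mem_pw hy)
  refine le_antisymm (key g X) ?_
  rw [MSS.cj_le_iff]
  simpa only [MSS.inv_cj_cj] using key g⁻¹ (g •ᶜ X)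

theorem relIndex_pw_le [Finite H] {k : ℕ} {A : Subgroup H} (hA : Ab A) :
    (pw k A).relIndex A ≤ {a | a ∈ A ∧ a ^ k = 1}.ncard := by
  have : IsMulCommutative A := ⟨⟨fun a b => Subtype.ext (hA b.2 a a.2)⟩⟩
  letI : CommGroup A := { (inferInstance : Group A) with mul_comm := mul_comm' }
  have h1 : (powMonoidHom k : A →* A).range ≤ (pw k A).subgroupOf A := by
    rintro _ ⟨a, rfl⟩
    exact pow_mem_pw a.2
  refine (Nat.le_of_dvd (Nat.pos_of_ne_zero index_ne_zero_of_finite) (index_dvd_of_le h1)).trans ?_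
  rw [index_range, ← SetLike.coe_sort_coe, Nat.card_coe_set_eq,
    ← Set.ncard_image_of_injective _ Subtype.val_injective]
  refine Set.ncard_le_ncard ?_
  rintro _ ⟨a, ha, rfl⟩
  exact ⟨a.2, congrArg Subtype.val (show a ^ k = 1 from ha)⟩

end pw

theorem struct_lemma' (c : ℕ) (ρ : ℕ → ℕ) (w : ℕ) : ∃ B : ℕ, ∀ (H : Type u) [Group H] [Finite H],
    (∀ x : H, x ≠ 1 → ∃ A, Ab A ∧ A ≤ Cz x ∧ A.relIndex (Cz x) ≤ c) →
    (∀ A : Subgroup H, Ab A → ∀ k, 0 < k → {a | a ∈ A ∧ a ^ k = 1}.ncard ≤ ρ k) →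
    (∀ A : Subgroup H, Ab A → ∀ z, {a | a ∈ A ∧ IsConj z a}.ncard ≤ w) →
    Nat.card H ≤ B ∨ ∃ z : H, z ≠ 1 ∧ (Cz z).index ≤ B := by
  obtain ⟨B, hB⟩ := struct_lemma.{u} (ρ c.factorial * (c + 1)) w
  refine ⟨B, fun H _ _ h1 h2 h3 => hB H (pw c.factorial) (pw_le _) (pw_mono _) (pw_cj _)
    (fun x hx => ?_) (fun x hx => ?_) (fun A hA => ?_) h3⟩
  · obtain ⟨A, hA, -, hc⟩ := h1 x hx
    refine hA.mono (pw_le_iff.2 fun g hg => ?_)
    exact (pow_mem_of_relIndex_ne_zero_of_dvd (relIndex_ne_zero' _ _) hg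
      fun m hm hle => Nat.dvd_factorial hm (hle.trans hc)).1
  · obtain ⟨A, hA, hle, hc⟩ := h1 x hx
    refine (relIndex_le_of_le_left (pw_mono _ hle) (relIndex_ne_zero' _ _)).trans ?_
    exact relIndex_le_mul (pw_le _ _) hle
      ((relIndex_pw_le hA).trans (h2 A hA _ (Nat.factorial_pos c))) (hc.trans (Nat.le_succ c))
  · exact ((relIndex_pw_le hA).trans (h2 A hA _ (Nat.factorial_pos c))).trans
      (Nat.le_mul_of_pos_right _ (Nat.succ_pos c))

end CL.JordanP
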