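import Mathlib
import Cfsg.Agent.BLK.JordanP2

/-! Jordan's theorem in positive characteristic: counting elements of abelian linear groups. -/

set_option autoImplicit false

open Subgroup Module Polynomial

universe u v

namespace CL.JordanP

theorem card_le_of_isPGroup {p m N : ℕ} [hp : Fact p.Prime] {X : Type*} [Group X] [Finite X]
    (hX : IsPGroup p X) (hd : Nat.card X ∣ N) (hN : ¬ p ^ (m + 1) ∣ N) : Nat.card X ≤ p ^ m := by
  obtain ⟨k, hk⟩ := IsPGroup.iff_card.mp hX
  rw [hk] at hd ⊢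
  refine Nat.pow_le_pow_right hp.out.pos ?_
  by_contra h
  exact hN ((pow_dvd_pow p (by omega)).trans hd)

section unip
variable {F : Type*} [Field F] {V : Type*} [AddCommGroup V] [Module F V]

theorem pow_eq_of_sub_pow_eq_zero (p : ℕ) [hp : Fact p.Prime] [CharP F p] {a b : Module.End F V}
    (hab : Commute a b) {n j : ℕ} (h : (a - b) ^ n = 0) (hn : n ≤ p ^ j) :
    a ^ p ^ j = b ^ p ^ j := by
  rcases subsingleton_or_nontrivial V with hV | hV
  · exact Subsingleton.elim _ _
  · haveI : CharP (Module.End F V) p :=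
      charP_of_injective_algebraMap (algebraMap F (Module.End F V)).injective p
    have h1 : (a - b) ^ p ^ j = 0 := pow_eq_zero_of_le hn h
    rw [sub_pow_char_pow_of_commute _ _ hab] at h1
    exact sub_eq_zero.mp h1

end unip

/-- The `p`-elements of a commutative subgroup. -/
def pElts {H : Type*} [Group H] (p : ℕ) {A : Subgroup H} (hA : Ab A) : Subgroup H where
  carrier := {x | x ∈ A ∧ ∃ j, x ^ p ^ j = 1}
  one_mem' := ⟨A.one_mem, 0, by simp⟩
  mul_mem' := by
    rintro a b ⟨ha, i, hi⟩ ⟨hb, j, hj⟩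
    refine ⟨A.mul_mem ha hb, i + j, ?_⟩
    have hc : Commute a b := hA hb a ha
    rw [hc.mul_pow, pow_add, pow_mul, hi, one_pow, mul_comm (p ^ i), pow_mul, hj, one_pow, one_mul]
  inv_mem' := by
    rintro a ⟨ha, i, hi⟩
    exact ⟨A.inv_mem ha, i, by rw [inv_pow, hi, inv_one]⟩

theorem card_pElts_le {H : Type*} [Group H] [Finite H] {p m : ℕ} [Fact p.Prime] {A : Subgroup H}
    (hA : Ab A) (hm : ¬ p ^ (m + 1) ∣ Nat.card H) : Nat.card (pElts p hA) ≤ p ^ m := by
  refine card_le_of_isPGroup ?_ (Subgroup.card_subgroup_dvd_card _) hm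
  rintro ⟨x, hx, j, hj⟩
  exact ⟨j, Subtype.ext (by simpa using hj)⟩

theorem ncard_aeval_le {p m : ℕ} [hp : Fact p.Prime] {H : Type*} [Group H] [Finite H]
    {F : Type*} [Field F] [IsAlgClosed F] [CharP F p] {V : Type*} [AddCommGroup V] [Module F V]
    [FiniteDimensional F V] (σ : Representation F H V) (hσ : Function.Injective σ)
    (hm : ¬ p ^ (m + 1) ∣ Nat.card H) {A : Subgroup H} (hA : Ab A) {q : F[X]} (hq : q ≠ 0) :
    {a | a ∈ A ∧ aeval (σ a) q = 0}.ncard ≤ p ^ m * (q.natDegree + 1) ^ finrank F V := by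
  classical
  let f : A → Module.End F V := fun a => σ a
  have hcomm : ∀ a b : A, Commute (f a) (f b) := fun a b =>
    (show Commute (a : H) b from hA b.2 a a.2).map σ
  let E : (A → F) → Submodule F V := fun χ => ⨅ a, (f a).maxGenEigenspace (χ a)
  have hind : iSupIndep E :=
    Module.End.independent_iInf_maxGenEigenspace_of_forall_mapsTo f fun i j φ =>
      Module.End.mapsTo_maxGenEigenspace_of_comm (hcomm j i) φ
  have htop : ⨆ χ, E χ = ⊤ :=
    Module.End.iSup_iInf_maxGenEigenspace_eq_top_of_iSup_maxGenEigenspace_eq_top_of_commute f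
      (fun i j _ => hcomm i j) fun i => Module.End.iSup_maxGenEigenspace_eq_top _
  let Xs := {χ // E χ ≠ ⊥}
  letI : Fintype Xs := hind.fintypeNeBotOfFiniteDimensional
  have hcard : Fintype.card Xs ≤ finrank F V := hind.subtype_ne_bot_le_finrank
  let φ : H → Xs → F := fun a χ => if h : a ∈ A then χ.1 ⟨a, h⟩ else 0
  set S : Set H := {a | a ∈ A ∧ aeval (σ a) q = 0} with hS
  have hSf : S.Finite := Set.toFinite _
  rw [Set.ncard_eq_toFinset_card S hSf]
  have hfib : ∀ a ∈ A, ∀ b ∈ A, φ a = φ b → a * b⁻¹ ∈ pElts p hA := by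
    intro a ha b hb hab
    refine ⟨A.mul_mem ha (A.inv_mem hb), finrank F V, ?_⟩
    have h1 : (f ⟨a, ha⟩ - f ⟨b, hb⟩).maxGenEigenspace 0 = ⊤ := by
      rw [eq_top_iff, ← htop]
      refine iSup_le fun χ => ?_
      by_cases hχ : E χ = ⊥
      · rw [hχ]; exact bot_le
      have e : χ ⟨a, ha⟩ = χ ⟨b, hb⟩ := by
        have := congrFun hab ⟨χ, hχ⟩
        simpa [φ, ha, hb] using this
      have h2 := Module.End.genEigenspace_inf_le_add (f ⟨a, ha⟩) ((-1 : F) • f ⟨b, hb⟩)
        (χ ⟨a, ha⟩) (-1 * χ ⟨b, hb⟩) ⊤ ⊤ ((hcomm _ _).smul_right _)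
      have h3 := Module.End.genEigenspace_le_smul (f ⟨b, hb⟩) (χ ⟨b, hb⟩) (-1) ⊤
      have h4 : E χ ≤ (f ⟨a, ha⟩).genEigenspace (χ ⟨a, ha⟩) ⊤ ⊓
          ((-1 : F) • f ⟨b, hb⟩).genEigenspace (-1 * χ ⟨b, hb⟩) ⊤ :=
        le_inf (iInf_le _ _) ((iInf_le (fun a => (f a).maxGenEigenspace (χ a)) _).trans h3)
      refine h4.trans (h2.trans ?_)
      rw [e, neg_one_smul, ← sub_eq_add_neg, neg_one_mul, add_neg_cancel, top_add]
    rw [Module.End.maxGenEigenspace_eq_genEigenspace_finrank, Module.End.genEigenspace_nat,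
      zero_smul, sub_zero, LinearMap.ker_eq_top] at h1
    have h5 := pow_eq_of_sub_pow_eq_zero p (hcomm _ _) h1 (Nat.lt_pow_self hp.out.one_lt).le
    have h6 : a ^ p ^ finrank F V = b ^ p ^ finrank F V := hσ (by simpa [f] using h5)
    have hc : Commute a b⁻¹ := (show Commute a b from hA hb a ha).inv_right
    rw [hc.mul_pow, h6, inv_pow, mul_inv_cancel]
  have himg : (hSf.toFinset.image φ).card ≤ (q.natDegree + 1) ^ finrank F V := by
    have hsub : hSf.toFinset.image φ ⊆ Fintype.piFinset fun _ : Xs => q.roots.toFinset := by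
      intro y hy
      obtain ⟨a, ha, rfl⟩ := Finset.mem_image.mp hy
      obtain ⟨haA, haq⟩ : a ∈ S := by simpa using ha
      rw [Fintype.mem_piFinset]
      rintro ⟨χ, hχ⟩
      have h1 : (f ⟨a, haA⟩).HasUnifEigenvalue (χ ⟨a, haA⟩) ⊤ := fun h =>
        hχ (eq_bot_iff.mpr ((iInf_le (fun a => (f a).maxGenEigenspace (χ a)) _).trans h.le))
      have h2 : (f ⟨a, haA⟩).HasEigenvalue (χ ⟨a, haA⟩) := h1.lt zero_lt_one
      obtain ⟨v, hv⟩ := h2.exists_hasEigenvector
      have h3 := Module.End.aeval_apply_of_hasEigenvector (p := q) hv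
      have h4 : aeval (f ⟨a, haA⟩) q = 0 := haq
      rw [h4, LinearMap.zero_apply, eq_comm, smul_eq_zero] at h3
      have h5 : q.eval (χ ⟨a, haA⟩) = 0 := h3.resolve_right hv.2
      simp only [φ, haA, dif_pos, Multiset.mem_toFinset]
      exact (mem_roots hq).mpr h5
    refine (Finset.card_le_card hsub).trans ?_
    rw [Fintype.card_piFinset, Finset.prod_const, Finset.card_univ]
    calc q.roots.toFinset.card ^ Fintype.card Xs ≤ (q.natDegree + 1) ^ Fintype.card Xs :=
          Nat.pow_le_pow_left (((Multiset.toFinset_card_le _).trans (card_roots' q)).trans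
            (Nat.le_succ _)) _
      _ ≤ _ := Nat.pow_le_pow_right (Nat.succ_pos _) hcard
  refine (Finset.card_le_mul_card_image (f := φ) _ (p ^ m) ?_).trans
    (Nat.mul_le_mul_left _ himg)
  intro y hy
  obtain ⟨b, hb, rfl⟩ := Finset.mem_image.mp hy
  have hbA : b ∈ A := (by simpa using hb : b ∈ S).1
  refine le_trans ?_ (card_pElts_le hA hm)
  rw [← Set.ncard_coe_finset, ← Nat.card_coe_set_eq]
  refine Nat.card_le_card_of_injective (fun x => ⟨x.1 * b⁻¹, ?_⟩) ?_
  · obtain ⟨x, hx⟩ := x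
    simp only [Finset.coe_filter, Set.Finite.mem_toFinset, Set.mem_setOf_eq] at hx
    exact hfib x hx.1.1 b hbA hx.2
  · intro x y hxy
    exact Subtype.ext (mul_right_cancel (congrArg Subtype.val hxy))

theorem ncard_pow_le {p m : ℕ} [hp : Fact p.Prime] {H : Type*} [Group H] [Finite H]
    {F : Type*} [Field F] [IsAlgClosed F] [CharP F p] {V : Type*} [AddCommGroup V] [Module F V]
    [FiniteDimensional F V] (σ : Representation F H V) (hσ : Function.Injective σ)
    (hm : ¬ p ^ (m + 1) ∣ Nat.card H) {n : ℕ} (hn : finrank F V ≤ n) {A : Subgroup H} (hA : Ab A)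
    {k : ℕ} (hk : 0 < k) : {a | a ∈ A ∧ a ^ k = 1}.ncard ≤ p ^ m * (k + 1) ^ n := by
  have h := ncard_aeval_le σ hσ hm hA (q := X ^ k - C 1) (X_pow_sub_C_ne_zero hk 1)
  rw [natDegree_X_pow_sub_C] at h
  refine le_trans (Set.ncard_le_ncard ?_ (Set.toFinite _)) (h.trans ?_)
  · rintro a ⟨ha, hak⟩
    refine ⟨ha, ?_⟩
    rw [map_sub, map_pow, aeval_X, ← map_pow, hak]
    simp
  · exact Nat.mul_le_mul_left _ (Nat.pow_le_pow_right (Nat.succ_pos _) hn)

theorem ncard_isConj_le {p m : ℕ} [hp : Fact p.Prime] {H : Type*} [Group H] [Finite H]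
    {F : Type*} [Field F] [IsAlgClosed F] [CharP F p] {V : Type*} [AddCommGroup V] [Module F V]
    [FiniteDimensional F V] (σ : Representation F H V) (hσ : Function.Injective σ)
    (hm : ¬ p ^ (m + 1) ∣ Nat.card H) {n : ℕ} (hn : finrank F V ≤ n) {A : Subgroup H} (hA : Ab A)
    (z : H) : {a | a ∈ A ∧ IsConj z a}.ncard ≤ p ^ m * (n + 1) ^ n := by
  have h := ncard_aeval_le σ hσ hm hA (q := (σ z).charpoly) (LinearMap.charpoly_monic _).ne_zero
  rw [LinearMap.charpoly_natDegree] at h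
  refine le_trans (Set.ncard_le_ncard ?_ (Set.toFinite _)) (h.trans ?_)
  · rintro a ⟨ha, hak⟩
    refine ⟨ha, ?_⟩
    obtain ⟨g, rfl⟩ := isConj_iff.mp hak
    have e : ∀ r : F[X], aeval (σ (g * z * g⁻¹)) r = σ g * aeval (σ z) r * σ g⁻¹ := by
      intro r
      induction r using Polynomial.induction_on' with
      | add r s hr hs => rw [map_add, map_add, hr, hs, mul_add, add_mul]
      | monomial i c =>
        rw [aeval_monomial, aeval_monomial, ← map_pow, conj_pow, map_mul, map_mul, map_pow,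
          ← mul_assoc, ← mul_assoc, ← mul_assoc, Algebra.commutes]
    rw [e, LinearMap.aeval_self_charpoly, mul_zero, zero_mul]
  · exact Nat.mul_le_mul_left _ ((Nat.pow_le_pow_left (by omega) _).trans
      (Nat.pow_le_pow_right (Nat.succ_pos _) hn))

end CL.JordanP
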