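import Mathlib
import Cfsg.Agent.BLK.JordanP3

/-! Jordan's theorem in positive characteristic (Brauer–Feit): the induction on the degree. -/

set_option autoImplicit false

open Subgroup Module

universe u v

namespace CL.JordanP

/-- The inductive statement. -/
def JP (p m n c : ℕ) : Prop :=
  ∀ (G : Type u) [Group G] [Finite G] (F : Type v) [Field F] [IsAlgClosed F] [CharP F p]
    (V : Type v) [AddCommGroup V] [Module F V] [FiniteDimensional F V] (ρ : Representation F G V),
    finrank F V ≤ n → ¬ p ^ (m + 1) ∣ Nat.card G →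
      ∃ A : Subgroup G, A.index ≤ c ∧ ∀ a ∈ A, ∀ b ∈ A, ρ a * ρ b = ρ b * ρ a

theorem jp_zero (p m : ℕ) : JP.{u, v} p m 0 1 := by
  intro G _ _ F _ _ _ V _ _ _ ρ hV _
  haveI : Subsingleton V := Module.finrank_zero_iff.mp (Nat.le_zero.mp hV)
  exact ⟨⊤, by simp, fun a _ b _ => Subsingleton.elim _ _⟩

theorem index_centralizer_le_factorial {G : Type*} [Group G] [Finite G] (K : Subgroup G)
    [K.Normal] : (centralizer (K : Set G)).index ≤ (Nat.card K).factorial := by
  let φ : G →* Equiv.Perm K := (MulAut.toPerm K).comp MulAut.conjNormal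
  have h1 : φ.ker ≤ centralizer (K : Set G) := by
    intro g hg k hk
    have : g * k * g⁻¹ = k :=
      congrArg (fun e : Equiv.Perm K => ((e ⟨k, hk⟩ : K) : G)) (MonoidHom.mem_ker.mp hg)
    rw [mul_inv_eq_iff_eq_mul] at this
    exact this.symm
  refine (Subgroup.index_antitone h1).trans ?_
  rw [Subgroup.index_ker, ← Nat.card_perm]
  exact Nat.card_le_card_of_injective _ Subtype.val_injective

theorem pow_mul_eq_of_comm {G : Type*} [Group G] {a b c : G} (h : a * b = c * b * a)
    (hc : Commute a c) (k : ℕ) : a ^ k * b = c ^ k * b * a ^ k := by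
  induction k with
  | zero => simp
  | succ k ih =>
    rw [pow_succ' a, mul_assoc, ih, ← mul_assoc, ← mul_assoc, (hc.pow_right k).eq, mul_assoc _ a b,
      h, pow_succ c]
    simp only [mul_assoc]

theorem exists_ab_of_reducible {p m n c : ℕ} [hp : Fact p.Prime] (h : JP.{u, v} p m n c)
    {G : Type u} [Group G] [Finite G] {F : Type v} [Field F] [IsAlgClosed F] [CharP F p]
    {V : Type v} [AddCommGroup V] [Module F V] [FiniteDimensional F V] (ρ : Representation F G V)
    (hρ : Function.Injective ρ) (hV : finrank F V ≤ n + 1) (hm : ¬ p ^ (m + 1) ∣ Nat.card G)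
    (W : Submodule F V) (hW : ∀ g, W ≤ W.comap (ρ g)) (h0 : W ≠ ⊥) (h1 : W ≠ ⊤) :
    ∃ A : Subgroup G, Ab A ∧ A.index ≤ p ^ m * (c * c * (p ^ m).factorial) := by
  have hd1 : finrank F W < finrank F V := Submodule.finrank_lt h1
  have hd2 : finrank F (V ⧸ W) < finrank F V := by
    have := Submodule.finrank_quotient_add_finrank W
    have h3 : finrank F W ≠ 0 := fun h => h0 (Submodule.finrank_eq_zero.mp h)
    omega
  obtain ⟨A₁, hi₁, hA₁⟩ := h G F W (ρ.subrepresentation W hW) (by omega) hm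
  obtain ⟨A₂, hi₂, hA₂⟩ := h G F (V ⧸ W) (ρ.quotient W hW) (by omega) hm
  let K : Subgroup G := (ρ.subrepresentation W hW).ker ⊓ (ρ.quotient W hW).ker
  haveI : K.Normal := inferInstance
  have hKp : ∀ k ∈ K, k ^ p = 1 := by
    rintro k ⟨hk1, hk2⟩
    have e1 : ∀ w ∈ W, ρ k w = w := fun w hw => by
      have := congrArg (fun e : Module.End F W => ((e ⟨w, hw⟩ : W) : V)) (MonoidHom.mem_ker.mp hk1)
      simpa using this
    have e2 : ∀ x, ρ k x - x ∈ W := fun x => by
      have := congrArg (fun e : Module.End F (V ⧸ W) => e (W.mkQ x)) (MonoidHom.mem_ker.mp hk2)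
      rw [← Submodule.Quotient.eq]
      simpa using this
    have e3 : (ρ k - 1) ^ 2 = 0 := by
      ext x
      simp only [pow_two, Module.End.mul_apply, LinearMap.sub_apply, Module.End.one_apply,
        LinearMap.zero_apply]
      rw [e1 _ (e2 x), sub_self]
    have e4 := pow_eq_of_sub_pow_eq_zero p (j := 1) (Commute.one_right _) e3
      (by simpa using hp.out.two_le)
    apply hρ
    simpa using e4
  have hKc : Nat.card K ≤ p ^ m := by
    refine card_le_of_isPGroup ?_ (Subgroup.card_subgroup_dvd_card _) hm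
    rintro ⟨x, hx⟩
    exact ⟨1, Subtype.ext (by simpa using hKp x hx)⟩
  let B : Subgroup G := A₁ ⊓ A₂ ⊓ centralizer (K : Set G)
  have hBi : B.index ≤ c * c * (p ^ m).factorial :=
    Subgroup.index_inf_le.trans (Nat.mul_le_mul (Subgroup.index_inf_le.trans
      (Nat.mul_le_mul hi₁ hi₂)) ((index_centralizer_le_factorial K).trans
        (Nat.factorial_le hKc)))
  have hcomm : ∀ {M : Type v} [Monoid M] (τ : G →* M) (a b : G), τ a * τ b = τ b * τ a →
      a * b * a⁻¹ * b⁻¹ ∈ τ.ker := by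
    intro M _ τ a b hab
    rw [MonoidHom.mem_ker, map_mul, map_mul, map_mul, hab, mul_assoc (τ b), ← map_mul,
      mul_inv_cancel, map_one, mul_one, ← map_mul, mul_inv_cancel, map_one]
  have hB : ∀ a ∈ B, ∀ b ∈ B, a ^ p * b = b * a ^ p := by
    intro a ha b hb
    have hc : a * b * a⁻¹ * b⁻¹ ∈ K :=
      ⟨hcomm _ a b (hA₁ a ha.1.1 b hb.1.1), hcomm _ a b (hA₂ a ha.1.2 b hb.1.2)⟩
    have := pow_mul_eq_of_comm (a := a) (b := b) (c := a * b * a⁻¹ * b⁻¹) (by group)
      (ha.2 _ hc).symm p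
    rwa [hKp _ hc, one_mul] at this
  refine ⟨(center B).map B.subtype, ?_, ?_⟩
  · rintro _ ⟨a, ha, rfl⟩ _ ⟨b, -, rfl⟩
    exact congrArg Subtype.val (Subgroup.mem_center_iff.mp ha b)
  · rw [Subgroup.index_map_subtype]
    refine Nat.mul_le_mul ?_ hBi
    refine card_le_of_isPGroup (X := B ⧸ center B) ?_
      ((Subgroup.card_quotient_dvd_card _).trans (Subgroup.card_subgroup_dvd_card _)) hm
    intro x
    obtain ⟨a, rfl⟩ := QuotientGroup.mk_surjective x
    refine ⟨1, ?_⟩
    rw [pow_one, ← QuotientGroup.mk_pow, QuotientGroup.eq_one_iff, Subgroup.mem_center_iff]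
    intro b
    exact Subtype.ext (hB a a.2 b b.2).symm

theorem jp_faithful {p m n c : ℕ} [hp : Fact p.Prime] (h : JP.{u, v} p m n c) : ∃ c' : ℕ,
    ∀ (G : Type u) [Group G] [Finite G] (F : Type v) [Field F] [IsAlgClosed F] [CharP F p]
    (V : Type v) [AddCommGroup V] [Module F V] [FiniteDimensional F V] (ρ : Representation F G V),
    Function.Injective ρ → finrank F V ≤ n + 1 → ¬ p ^ (m + 1) ∣ Nat.card G →
      ∃ A : Subgroup G, Ab A ∧ A.index ≤ c' := by
  set c₁ := p ^ m * (c * c * (p ^ m).factorial) with hc₁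
  set w := p ^ m * (n + 1 + 1) ^ (n + 1) with hw
  set N := (n + 1) * (n + 1) with hN
  obtain ⟨B, hB⟩ := struct_lemma'.{u} (c₁ * w) (fun k => p ^ m * (k + 1) ^ N)
    (p ^ m * (N + 1) ^ N)
  refine ⟨B + c₁ * w * B, ?_⟩
  intro G _ _ F _ _ _ V _ _ _ ρ hρ hV hm
  let Z : Subgroup G := (Representation.linHom ρ ρ).ker
  haveI : Z.Normal := inferInstance
  have hZc : ∀ z ∈ Z, ∀ g, g * z = z * g := by
    intro z hz g
    have := congrArg (fun e : Module.End F (V →ₗ[F] V) => e (ρ g)) (MonoidHom.mem_ker.mp hz)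
    simp only [Representation.linHom_apply, Module.End.one_apply] at this
    have e : z * g * z⁻¹ = g := hρ (by rw [map_mul, map_mul, mul_assoc]; exact this)
    rw [mul_inv_eq_iff_eq_mul] at e
    exact e.symm
  have hZab : Ab Z := fun a _ b hb => (hZc b hb a).symm
  let π : G →* G ⧸ Z := QuotientGroup.mk' Z
  have key : ∀ x, x ∉ Z → ∃ A : Subgroup G, Ab A ∧ A ≤ Cz x ∧
      A.relIndex ((Cz (π x)).comap π) ≤ c₁ * w := by
    intro x hx
    haveI : Nontrivial V := by
      by_contra hnt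
      haveI := not_nontrivial_iff_subsingleton.mp hnt
      exact hx (MonoidHom.mem_ker.mpr (Subsingleton.elim _ _))
    obtain ⟨μ, hμ⟩ := Module.End.exists_eigenvalue (ρ x)
    have htop : (Module.End.eigenspace (ρ x) μ) ≠ ⊤ := by
      intro ht
      have e : ∀ y, ρ x y = μ • y := fun y =>
        Module.End.mem_eigenspace_iff.mp (ht ▸ Submodule.mem_top)
      refine hx (MonoidHom.mem_ker.mpr ?_)
      ext f y
      simp only [Representation.linHom_apply, LinearMap.comp_apply, Module.End.one_apply]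
      rw [e, ← map_smul, ← e, ← Module.End.mul_apply (ρ x), ← map_mul, mul_inv_cancel, map_one,
        Module.End.one_apply]
    obtain ⟨A', hA', hi⟩ := exists_ab_of_reducible h (G := Cz x) (ρ.comp (Cz x).subtype)
      (hρ.comp Subtype.val_injective) hV
      (fun hd => hm (hd.trans (Subgroup.card_subgroup_dvd_card _)))
      (Module.End.eigenspace (ρ x) μ) (fun g => Module.End.mapsTo_genEigenspace_of_comm
        ((show Commute x g from g.2 x rfl).map ρ) μ 1) hμ htop
    refine ⟨A'.map (Cz x).subtype, ?_, map_subtype_le _, ?_⟩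
    · rintro _ ⟨a, ha, rfl⟩ _ ⟨b, hb, rfl⟩
      exact congrArg Subtype.val (hA' ha b hb)
    · refine relIndex_le_mul' _ (map_subtype_le _) ?_ ?_
      · rwa [Subgroup.relIndex, subgroupOf, comap_map_eq_self_of_injective (Cz x).subtype_injective]
      · refine (relIndex_centralizer_le _ x
          (Y := {a | a ∈ zpowers x ⊔ Z ∧ IsConj x a}) ?_).trans
          (ncard_isConj_le ρ hρ hm hV (ab_zpowers_sup hZab fun b hb => (hZc b hb x).symm) x)
        intro g hg
        refine ⟨?_, isConj_iff.mpr ⟨g, rfl⟩⟩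
        have e : π x * π g = π g * π x := hg (π x) rfl
        have e2 : x⁻¹ * (g * x * g⁻¹) ∈ Z := by
          rw [← QuotientGroup.eq]
          change π x = π (g * x * g⁻¹)
          rw [map_mul, map_mul, ← e, map_inv, mul_inv_cancel_right]
        have := mul_mem_sup (mem_zpowers x) e2
        rwa [mul_inv_cancel_left] at this
  let σ : Representation F (G ⧸ Z) (V →ₗ[F] V) :=
    QuotientGroup.lift Z (Representation.linHom ρ ρ) le_rfl
  have hσ : Function.Injective σ := by
    rw [injective_iff_map_eq_one]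
    intro x hx
    obtain ⟨g, rfl⟩ := QuotientGroup.mk_surjective x
    exact (QuotientGroup.eq_one_iff g).mpr hx
  have hm' : ¬ p ^ (m + 1) ∣ Nat.card (G ⧸ Z) := fun hd =>
    hm (hd.trans (Subgroup.card_quotient_dvd_card _))
  have hVV : finrank F (V →ₗ[F] V) ≤ N := by
    rw [Module.finrank_linearMap]
    exact Nat.mul_le_mul hV hV
  have hsurj : Function.Surjective π := QuotientGroup.mk'_surjective Z
  have hcen : ∀ z : G ⧸ Z, z ≠ 1 → ∃ A, Ab A ∧ A ≤ Cz z ∧ A.relIndex (Cz z) ≤ c₁ * w := by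
    intro z hz
    obtain ⟨x, rfl⟩ := hsurj z
    obtain ⟨A, hA, hAx, hi⟩ := key x fun hx => hz ((QuotientGroup.eq_one_iff x).mpr hx)
    refine ⟨A.map π, ?_, ?_, ?_⟩
    · rintro _ ⟨a, ha, rfl⟩ _ ⟨b, hb, rfl⟩
      rw [← map_mul, ← map_mul, hA ha b hb]
    · rintro _ ⟨a, ha, rfl⟩ y hy
      rw [Set.mem_singleton_iff.mp hy, ← map_mul, ← map_mul, hAx ha x rfl]
    · have e : (A.map π).relIndex (Cz (π x)) =
          ((A.map π).comap π).relIndex ((Cz (π x)).comap π) := by
        rw [Subgroup.relIndex_comap, map_comap_eq_self_of_surjective hsurj]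
      rw [e]
      exact (Subgroup.relIndex_le_of_le_left (le_comap_map π A) (relIndex_ne_zero' _ _)).trans hi
  rcases hB (G ⧸ Z) hcen (fun A hA k hk => ncard_pow_le σ hσ hm' hVV hA hk)
    (fun A hA z => ncard_isConj_le σ hσ hm' hVV hA z) with h1 | ⟨z, hz, h1⟩
  · exact ⟨Z, hZab, le_trans h1 (Nat.le_add_right _ _)⟩
  · obtain ⟨x, rfl⟩ := hsurj z
    obtain ⟨A, hA, hAx, hi⟩ := key x fun hx => hz ((QuotientGroup.eq_one_iff x).mpr hx)
    refine ⟨A, hA, le_trans ?_ (Nat.le_add_left _ _)⟩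
    have hle : A ≤ (Cz (π x)).comap π := by
      intro a ha y hy
      rw [Set.mem_singleton_iff.mp hy, ← map_mul, ← map_mul, hAx ha x rfl]
    rw [← Subgroup.relIndex_mul_index hle]
    refine Nat.mul_le_mul hi ?_
    rwa [Subgroup.index_comap_of_surjective _ hsurj]

theorem jp_succ {p m n c : ℕ} [hp : Fact p.Prime] (h : JP.{u, v} p m n c) :
    ∃ c' : ℕ, JP.{u, v} p m (n + 1) c' := by
  obtain ⟨c', hc'⟩ := jp_faithful h
  refine ⟨c', ?_⟩
  intro G _ _ F _ _ _ V _ _ _ ρ hV hm
  let σ : Representation F (G ⧸ ρ.ker) V := QuotientGroup.lift ρ.ker ρ le_rfl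
  have hσ : Function.Injective σ := by
    rw [injective_iff_map_eq_one]
    intro x hx
    obtain ⟨g, rfl⟩ := QuotientGroup.mk_surjective x
    exact (QuotientGroup.eq_one_iff g).mpr hx
  obtain ⟨A, hA, hi⟩ := hc' (G ⧸ ρ.ker) F V σ hσ hV fun hd =>
    hm (hd.trans (Subgroup.card_quotient_dvd_card _))
  refine ⟨A.comap (QuotientGroup.mk' _), ?_, ?_⟩
  · rwa [Subgroup.index_comap_of_surjective _ (QuotientGroup.mk'_surjective _)]
  · intro a ha b hb
    have := congrArg σ (hA hb _ ha)
    rwa [map_mul, map_mul] at this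

theorem exists_jp (p m n : ℕ) [Fact p.Prime] : ∃ c, JP.{u, v} p m n c := by
  induction n with
  | zero => exact ⟨1, jp_zero p m⟩
  | succ n ih =>
    obtain ⟨c, hc⟩ := ih
    exact jp_succ hc

end CL.JordanP
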