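import Mathlib
import Cfsg.Agent.BLK.JordanP4
import Cfsg.Agent.INV.InvCalc
import Cfsg.Agent.SOLV.Core
import Cfsg.Agent.SOLV.MaxClass
import Cfsg.Agent.S0238

/-! Groups with a four-group whose involutions have bounded centralizers. -/

set_option autoImplicit false

open Subgroup

universe u

namespace CL.Defic

open CL.JordanP

variable {G : Type*} [Group G] [Finite G]

/-- A normal subgroup of odd order is bounded by the centralizers of the involutions of a
four-group. -/
theorem card_odd_le {K : Subgroup G} [K.Normal] (hK : Odd (Nat.card K)) {a b : G}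
    (ha : a * a = 1) (hb : b * b = 1) (hab : a * b = b * a) {N : ℕ} (h1 : Nat.card (Cz a) ≤ N)
    (h2 : Nat.card (Cz b) ≤ N) (h3 : Nat.card (Cz (a * b)) ≤ N) : Nat.card K ≤ N ^ 4 := by
  classical
  have hodd : ∀ k ∈ K, Odd (orderOf k) := fun k hk =>
    hK.of_dvd_nat (by simpa using orderOf_dvd_natCard (⟨k, hk⟩ : K))
  have hc : (a * b) * (a * b) = 1 := by
    rw [mul_assoc, ← mul_assoc b, ← hab, mul_assoc, hb, mul_one, ha]
  have key : ∀ k l : K, ∃ j : K, (j : G)⁻¹ * (k * a * (k : G)⁻¹) * j ∈ Cz (a * b) ∧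
      (j : G)⁻¹ * (l * b * (l : G)⁻¹) * j ∈ Cz (a * b) := by
    intro k l
    set s : G := k * a * (k : G)⁻¹ with hs
    set t : G := l * b * (l : G)⁻¹ with ht
    have hs2 : s * s = 1 := by rw [hs, conj_mul, ha, mul_one, mul_inv_cancel]
    have ht2 : t * t = 1 := by rw [ht, conj_mul, hb, mul_one, mul_inv_cancel]
    let π := QuotientGroup.mk' K
    have hk1 : ∀ k : K, π k = 1 := fun k => (QuotientGroup.eq_one_iff _).mpr k.2
    have hx : π (s * t) = π (a * b) := by
      simp only [hs, ht, map_mul, map_inv, hk1, one_mul, inv_one, mul_one]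
    have hx2 : (s * t) ^ 2 ∈ K := by
      rw [← QuotientGroup.eq_one_iff]
      change π _ = 1
      rw [map_pow, hx, ← map_pow, pow_two, hc, map_one]
    obtain ⟨m, hm⟩ := hodd _ hx2
    set w : G := (s * t) ^ (2 * m + 1) with hw
    have hw2 : w * w = 1 := by
      rw [hw, ← pow_two, ← pow_mul, mul_comm, pow_mul, ← hm, pow_orderOf_eq_one]
    have hws : Commute s w := CL.Inv.commute_of_inverts_of_mul_self
      (CL.Inv.conj_pow_eq_inv (CL.Inv.conj_mul_eq_inv hs2 ht2) _) hw2
    have hwt : Commute t w := CL.Inv.commute_of_inverts_of_mul_self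
      (CL.Inv.conj_pow_eq_inv (CL.Inv.conj_mul_eq_inv' hs2 ht2) _) hw2
    have hwK : w * (a * b) ∈ K := by
      rw [← QuotientGroup.eq_one_iff]
      change π _ = 1
      rw [map_mul, hw, map_pow, hx, ← map_pow, ← map_mul, ← pow_succ, add_assoc,
        show 2 * m + (1 + 1) = 2 * (m + 1) by ring, pow_mul, pow_two, hc, one_pow, map_one]
    obtain ⟨i, hi⟩ := CL.Inv.exists_pow_conj_of_odd hw2 hc (hodd _ hwK)
    have e : ∀ y : G, Commute y w → ((w * (a * b)) ^ i)⁻¹ * y * (w * (a * b)) ^ i ∈ Cz (a * b) := by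
      intro y hy
      rw [CL.Inv.mem_centralizer_singleton]
      set j := (w * (a * b)) ^ i
      have : a * b = j⁻¹ * w * j := by rw [← hi]; group
      rw [this]
      change j⁻¹ * y * j * (j⁻¹ * w * j) = j⁻¹ * w * j * (j⁻¹ * y * j)
      calc j⁻¹ * y * j * (j⁻¹ * w * j) = j⁻¹ * (y * w) * j := by group
        _ = j⁻¹ * (w * y) * j := by rw [hy.eq]
        _ = _ := by group
    exact ⟨⟨(w * (a * b)) ^ i, K.pow_mem hwK i⟩, e s hws, e t hwt⟩
  choose j hj using key
  have sec : ∀ c u : G, ∃ r : G, ∀ k : G, k * c * k⁻¹ = u → r⁻¹ * k ∈ Cz c := by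
    intro c u
    by_cases h : ∃ r : G, r * c * r⁻¹ = u
    · obtain ⟨r, hr⟩ := h
      refine ⟨r, fun k hk => ?_⟩
      rw [CL.Inv.mem_centralizer_singleton]
      change r⁻¹ * k * c = c * (r⁻¹ * k)
      calc r⁻¹ * k * c = r⁻¹ * (k * c * k⁻¹) * k := by group
        _ = r⁻¹ * (r * c * r⁻¹) * k := by rw [hk, hr]
        _ = _ := by group
    · exact ⟨1, fun k hk => (h ⟨k, hk⟩).elim⟩
  choose r hr using sec
  let φ : K × K → K × Cz (a * b) × Cz (a * b) × Cz a × Cz b := fun x =>
    (j x.1 x.2, ⟨_, (hj x.1 x.2).1⟩, ⟨_, (hj x.1 x.2).2⟩, ⟨_, hr a _ x.1 rfl⟩, ⟨_, hr b _ x.2 rfl⟩)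
  have hφ : Function.Injective φ := by
    rintro ⟨k, l⟩ ⟨k', l'⟩ h
    simp only [φ, Prod.mk.injEq, Subtype.mk.injEq] at h
    obtain ⟨e1, e2, e3, e4, e5⟩ := h
    rw [e1, mul_left_inj, mul_right_inj] at e2 e3
    rw [e2, mul_right_inj] at e4
    rw [e3, mul_right_inj] at e5
    exact Prod.ext (Subtype.ext e4) (Subtype.ext e5)
  have hle := Nat.card_le_card_of_injective φ hφ
  simp only [Nat.card_prod] at hle
  have h4 := Nat.le_of_mul_le_mul_left hle Nat.card_pos
  refine h4.trans ?_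
  calc _ ≤ N * (N * (N * N)) :=
        Nat.mul_le_mul h3 (Nat.mul_le_mul h3 (Nat.mul_le_mul h1 h2))
    _ = N ^ 4 := by ring

/-- The Brauer–Fowler counting argument. -/
theorem exists_index_centralizer_le {t : G} (ht : orderOf t = 2) {N : ℕ}
    (h : Nat.card (Cz t) ≤ N) : ∃ x : G, x ≠ 1 ∧ (Cz x).index ≤ 2 * N ^ 2 := by
  classical
  by_contra hcon
  push Not at hcon
  letI := Fintype.ofFinite G
  have hN : 0 < N := Nat.card_pos.trans_le h
  set T : Finset G := Finset.univ.filter fun y => IsConj t y with hT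
  have hTc : T.card = (Cz t).index := by
    rw [← CL.Inv.card_isConj_eq_index, Nat.card_eq_fintype_card, Fintype.card_subtype]
  have hT2 : ∀ y ∈ T, orderOf y = 2 := fun y hy => by
    rw [← CL.Inv.orderOf_eq_of_isConj (Finset.mem_filter.mp hy).2, ht]
  have hsum : (T ×ˢ T).card = ∑ x : G, ((T ×ˢ T).filter fun q => q.1 * q.2 = x).card :=
    Finset.card_eq_sum_card_fiberwise fun _ _ => Finset.mem_univ _
  have hone : ((T ×ˢ T).filter fun q => q.1 * q.2 = 1).card ≤ T.card := by
    refine Finset.card_le_card_of_injOn Prod.fst ?_ ?_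
    · intro q hq
      exact (Finset.mem_product.mp (Finset.mem_filter.mp hq).1).1
    · intro q hq q' hq' e
      have e1 := (Finset.mem_filter.mp hq).2
      have e2 := (Finset.mem_filter.mp hq').2
      refine Prod.ext e ?_
      rw [e, ← e2] at e1
      exact mul_left_cancel e1
  have hoth : ∀ x : G, x ≠ 1 →
      2 * N ^ 2 * ((T ×ˢ T).filter fun q => q.1 * q.2 = x).card ≤ Nat.card G := by
    intro x hx
    have h1 : ((T ×ˢ T).filter fun q => q.1 * q.2 = x).card ≤ Nat.card (Cz x) := by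
      refine le_trans ?_ (Cfsg.Agent.S0238.result x).1
      rw [Nat.card_eq_fintype_card, Fintype.card_subtype]
      refine Finset.card_le_card fun q hq => ?_
      obtain ⟨hq1, hq2⟩ := Finset.mem_filter.mp hq
      obtain ⟨hq3, hq4⟩ := Finset.mem_product.mp hq1
      exact Finset.mem_filter.mpr ⟨Finset.mem_univ _, hT2 _ hq3, hT2 _ hq4, hq2⟩
    rw [← (Cz x).index_mul_card]
    exact Nat.mul_le_mul (hcon x hx).le h1
  have hG : Nat.card G ≤ T.card * N := by
    rw [hTc, ← (Cz t).index_mul_card]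
    exact Nat.mul_le_mul_left _ h
  have hbig : 2 * N ^ 2 < T.card := hTc ▸ hcon t (CL.Inv.ne_one_of_orderOf_two ht)
  have hmain : 2 * N ^ 2 * (T.card * T.card) ≤ 2 * N ^ 2 * T.card + Nat.card G * Nat.card G := by
    rw [← Finset.card_product, hsum, Finset.mul_sum, ← Finset.add_sum_erase _ _ (Finset.mem_univ 1)]
    refine Nat.add_le_add (Nat.mul_le_mul_left _ hone) ?_
    refine (Finset.sum_le_card_nsmul _ _ (Nat.card G) fun x hx =>
      hoth x (Finset.ne_of_mem_erase hx)).trans ?_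
    rw [smul_eq_mul]
    refine Nat.mul_le_mul_right _ ((Finset.card_le_univ _).trans ?_)
    rw [Nat.card_eq_fintype_card]
  have h5 : Nat.card G * Nat.card G ≤ (T.card * N) * (T.card * N) := Nat.mul_le_mul hG hG
  have h6 : 1 ≤ N ^ 2 := Nat.one_le_pow _ _ hN
  have h7 : N ^ 2 * T.card * T.card ≤ N ^ 2 * T.card * 2 := by nlinarith
  have h8 := Nat.le_of_mul_le_mul_left h7 (Nat.mul_pos (by omega) (by omega))
  omega

/-- A group without normal subgroups of odd order and with an involution of bounded centralizer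
has a bounded normal subgroup of even order. -/
theorem exists_normal_even {e : ℕ} (he : ¬ 2 ^ (e + 1) ∣ Nat.card G)
    (hO : Cfsg.pPrimeCore 2 G = ⊥) {t : G} (ht : orderOf t = 2) {N : ℕ}
    (h : Nat.card (Cz t) ≤ N) : ∃ L : Subgroup G, L.Normal ∧ 2 ∣ Nat.card L ∧
      Nat.card L ≤ 2 ^ e * (2 * N ^ 2).factorial := by
  haveI : Fact (Nat.Prime 2) := ⟨Nat.prime_two⟩
  obtain ⟨x, hx, hi⟩ := exists_index_centralizer_le ht h
  let L := normalClosure ({x} : Set G)
  let M := (Cz x).normalCore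
  have hodd : ∀ A : Subgroup G, A.Normal → ¬ 2 ∣ Nat.card A → A = ⊥ := fun A _ hA =>
    eq_bot_iff.mpr (hO ▸ CL.le_pPrimeCore
      ((Nat.Prime.coprime_iff_not_dvd Nat.prime_two).mpr hA).symm)
  have hxL : x ∈ L := subset_normalClosure rfl
  have hM : M.index ≤ (2 * N ^ 2).factorial := by
    change (Cz x).normalCore.index ≤ _
    rw [Subgroup.normalCore_eq_ker, Subgroup.index_ker]
    refine le_trans (Nat.card_le_card_of_injective _ Subtype.val_injective) ?_
    rw [Nat.card_perm]
    exact Nat.factorial_le hi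
  have hLM : L ≤ centralizer (M : Set G) := by
    refine normalClosure_le_normal ?_
    rintro _ rfl y hy
    exact ((Cz _).normalCore_le hy _ rfl).symm
  have hA : Ab (L ⊓ M) := fun a ha b hb => hLM ha.1 b hb.2
  let A' : Subgroup G :=
    { carrier := {y | ∃ a ∈ L ⊓ M, a ^ 2 ^ e = y}
      one_mem' := ⟨1, one_mem _, one_pow _⟩
      mul_mem' := by
        rintro _ _ ⟨a, ha, rfl⟩ ⟨b, hb, rfl⟩
        exact ⟨a * b, mul_mem ha hb, (show Commute a b from hA hb a ha).mul_pow _⟩
      inv_mem' := by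
        rintro _ ⟨a, ha, rfl⟩
        exact ⟨a⁻¹, inv_mem ha, inv_pow _ _⟩ }
  have hA'n : A'.Normal := ⟨by
    rintro _ ⟨a, ha, rfl⟩ g
    exact ⟨g * a * g⁻¹, (inferInstance : (L ⊓ M).Normal).conj_mem a ha g, conj_pow⟩⟩
  have hA'b : A' = ⊥ := by
    refine hodd A' hA'n fun hd => ?_
    obtain ⟨⟨y, hy0⟩, hy⟩ := exists_prime_orderOf_dvd_card' 2 hd
    rw [Subgroup.orderOf_mk] at hy
    obtain ⟨a, -, rfl⟩ := hy0
    rw [orderOf_pow] at hy
    apply he
    refine dvd_trans ?_ (orderOf_dvd_natCard a)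
    have h1 : orderOf a = 2 * (orderOf a).gcd (2 ^ e) := by
      have := Nat.div_mul_cancel (Nat.gcd_dvd_left (orderOf a) (2 ^ e))
      rw [hy] at this
      exact this.symm
    obtain ⟨i, hi, hi'⟩ := (Nat.dvd_prime_pow Nat.prime_two).mp (Nat.gcd_dvd_right (orderOf a) (2 ^ e))
    rcases hi.lt_or_eq with hlt | rfl
    · exfalso
      have h2 : orderOf a ∣ 2 ^ e := by
        rw [h1, hi', ← pow_succ']
        exact pow_dvd_pow 2 hlt
      rw [Nat.gcd_eq_left h2] at h1
      have := orderOf_pos a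
      omega
    · rw [h1, hi', pow_succ']
  have hAc : Nat.card ↥(L ⊓ M) ≤ 2 ^ e := by
    refine card_le_of_isPGroup ?_ (Subgroup.card_subgroup_dvd_card _) he
    rintro ⟨a, ha⟩
    refine ⟨e, Subtype.ext ?_⟩
    have : a ^ 2 ^ e ∈ A' := ⟨a, ha, rfl⟩
    rw [hA'b] at this
    simpa using this
  refine ⟨L, inferInstance, ?_, ?_⟩
  · by_contra hd
    rw [hodd L inferInstance hd] at hxL
    exact hx hxL
  · rw [← Subgroup.card_mul_index (M.subgroupOf L)]
    refine Nat.mul_le_mul ?_ ?_
    · rwa [← inf_subgroupOf_left, Nat.card_congr (subgroupOfEquivOfLe inf_le_left).toEquiv]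
    · exact (Nat.le_of_dvd (Nat.pos_of_ne_zero index_ne_zero_of_finite)
        (relIndex_dvd_index_of_normal M L)).trans hM

theorem card_le_card_mul_of_mem {L : Subgroup G} [L.Normal] {v : G} (hv : v ∈ L) :
    Nat.card G ≤ Nat.card L * Nat.card (Cz v) := by
  rw [← (Cz v).index_mul_card]
  refine Nat.mul_le_mul_right _ ?_
  have := relIndex_centralizer_le ⊤ v (Y := L) fun g _ => (inferInstance : L.Normal).conj_mem v hv g
  rwa [relIndex_top_right, ← Nat.card_coe_set_eq] at this

/-- A group with a four-group all of whose involutions have bounded centralizers is bounded in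
terms of the order of its Sylow `2`-subgroups. -/
theorem exists_bound (N e : ℕ) : ∃ B : ℕ, ∀ (G : Type u) [Group G] [Finite G],
    ¬ 2 ^ e ∣ Nat.card G → ∀ a b : G, a * a = 1 → b * b = 1 → a * b = b * a → a ≠ 1 → b ≠ 1 →
      a * b ≠ 1 → Nat.card (Cz a) ≤ N → Nat.card (Cz b) ≤ N → Nat.card (Cz (a * b)) ≤ N →
        Nat.card G ≤ B := by
  induction e with
  | zero => exact ⟨0, fun G _ _ h => (h (by simp)).elim⟩
  | succ e ih =>
    obtain ⟨B, hB⟩ := ih
    refine ⟨N ^ 4 * (2 ^ e * (2 * N ^ 2).factorial) * (N + B), ?_⟩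
    intro G _ _ he a b ha hb hab ha1 hb1 hab1 h1 h2 h3
    let K := Cfsg.pPrimeCore 2 G
    have hK : Odd (Nat.card K) := Nat.coprime_two_right.1 (CL.coprime_card_pPrimeCore 2 G)
    have hKc := card_odd_le hK ha hb hab h1 h2 h3
    have haK : a ∉ K := fun h => by
      have := hK.of_dvd_nat (show orderOf a ∣ _ by simpa using orderOf_dvd_natCard (⟨a, h⟩ : K))
      rw [CL.Inv.orderOf_eq_two_of ha ha1] at this
      exact absurd this (by decide)
    obtain ⟨L, hLn, hL2, hLc⟩ := exists_normal_even (G := G ⧸ K) (e := e)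
      (fun hd => he (hd.trans (Subgroup.card_quotient_dvd_card _)))
      (CL.pPrimeCore_quotient_pPrimeCore 2 G) (t := (a : G ⧸ K))
      (CL.Inv.orderOf_eq_two_of (by rw [← QuotientGroup.mk_mul, ha, QuotientGroup.mk_one])
        fun h => haK ((QuotientGroup.eq_one_iff a).mp h))
      ((CL.PCyc.card_centralizer_mk_le K a).trans h1)
    let L' := L.comap (QuotientGroup.mk' K)
    have hL'c : Nat.card L' = Nat.card K * Nat.card L := by
      have e1 := L'.card_mul_index
      have e2 := L.card_mul_index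
      have e3 := Subgroup.card_eq_card_quotient_mul_card_subgroup K
      have e4 : L'.index = L.index :=
        Subgroup.index_comap_of_surjective _ (QuotientGroup.mk'_surjective K)
      refine Nat.eq_of_mul_eq_mul_right (Nat.pos_of_ne_zero (index_ne_zero_of_finite (H := L))) ?_
      rw [mul_assoc, e2, ← e4, e1, e3, mul_comm]
    have hL'le : Nat.card L' ≤ N ^ 4 * (2 ^ e * (2 * N ^ 2).factorial) := by
      rw [hL'c]; exact Nat.mul_le_mul hKc hLc
    have hin : ∀ v ∈ L', Nat.card (Cz v) ≤ N → Nat.card G ≤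
        N ^ 4 * (2 ^ e * (2 * N ^ 2).factorial) * (N + B) := fun v hv hN =>
      (card_le_card_mul_of_mem hv).trans (Nat.mul_le_mul hL'le (by omega))
    by_cases c1 : a ∈ L'
    · exact hin a c1 h1
    by_cases c2 : b ∈ L'
    · exact hin b c2 h2
    by_cases c3 : a * b ∈ L'
    · exact hin _ c3 h3
    have hq := hB (G ⧸ L') ?_ (a : G ⧸ L') (b : G ⧸ L')
      (by rw [← QuotientGroup.mk_mul, ha, QuotientGroup.mk_one])
      (by rw [← QuotientGroup.mk_mul, hb, QuotientGroup.mk_one])
      (by rw [← QuotientGroup.mk_mul, hab, QuotientGroup.mk_mul])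
      (fun h => c1 ((QuotientGroup.eq_one_iff a).mp h))
      (fun h => c2 ((QuotientGroup.eq_one_iff b).mp h))
      (fun h => c3 ((QuotientGroup.eq_one_iff (a * b)).mp h))
      ((CL.PCyc.card_centralizer_mk_le L' a).trans h1)
      ((CL.PCyc.card_centralizer_mk_le L' b).trans h2)
      ((CL.PCyc.card_centralizer_mk_le L' (a * b)).trans h3)
    · rw [Subgroup.card_eq_card_quotient_mul_card_subgroup L', mul_comm]
      exact Nat.mul_le_mul hL'le (by omega)
    · intro hd
      apply he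
      rw [Subgroup.card_eq_card_quotient_mul_card_subgroup L', pow_succ]
      exact mul_dvd_mul hd (hL'c ▸ hL2.mul_left _)

end CL.Defic
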