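import Mathlib
import Cfsg.Agent.BLK.FrobCol
import Cfsg.Agent.BLK.IntVec
import Cfsg.Agent.INV.DihFusion

/-! The principal 2-block of a group with dihedral Sylow 2-subgroups. -/

set_option autoImplicit false
open Cfsg Subgroup MulAction CL.Inv CL.Dih CL.Z2 CL.DQ
open scoped ComplexConjugate

namespace CL.Blk

variable {G : Type*} [Group G] {p : ℕ} {M : Ideal AlgInt}

theorem conj_in_sylow_of_npc [Finite G] [Fact p.Prime] {C : Subgroup G}
    (h : HasNormalPComplement p C) (P : Sylow p G) (hPC : (P : Subgroup G) ≤ C) {y y' u : G}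
    (hy : y ∈ (P : Subgroup G)) (hy' : y' ∈ (P : Subgroup G)) (hu : u ∈ C) (he : u * y * u⁻¹ = y') :
    ∃ n ∈ (P : Subgroup G), n * y * n⁻¹ = y' := by
  obtain ⟨φ, h1, h2, -, -⟩ := exists_proj_sylow h P hPC
  refine ⟨φ ⟨u, hu⟩, h1 _, ?_⟩
  rw [← show φ ⟨y, hPC hy⟩ = y from h2 _ hy, ← show φ ⟨y', hPC hy'⟩ = y' from h2 _ hy', ← map_inv,
    ← map_mul, ← map_mul]
  exact congrArg φ (Subtype.ext he)

theorem factorization_centralizer_of_npc [Finite G] [hp : Fact p.Prime] {C : Subgroup G}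
    (h : HasNormalPComplement p C) (P : Sylow p G) (hPC : (P : Subgroup G) ≤ C) {y : G}
    (hy : y ∈ (P : Subgroup G)) (hC : centralizer ({y} : Set G) ≤ C) :
    p ^ (Nat.card (centralizer ({y} : Set G))).factorization p =
      Nat.card ((P : Subgroup G) ⊓ centralizer ({y} : Set G) : Subgroup G) := by
  obtain ⟨φ, h1, h2, h3, -⟩ := exists_proj_sylow h P hPC
  let ψ := φ.comp (inclusion hC)
  have hr : ψ.range = (P : Subgroup G) ⊓ centralizer ({y} : Set G) := by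
    refine le_antisymm ?_ fun x hx => ⟨⟨x, hx.2⟩, h2 _ hx.1⟩
    rintro _ ⟨u, rfl⟩
    refine ⟨h1 _, mem_centralizer_singleton_iff.2 ?_⟩
    have h4 := congrArg φ (show inclusion hC u * ⟨y, hPC hy⟩ = ⟨y, hPC hy⟩ * inclusion hC u from
      Subtype.ext (mem_centralizer_singleton_iff.1 u.2))
    rwa [map_mul, map_mul, h2 ⟨y, hPC hy⟩ hy] at h4
  have hk : ¬ p ∣ Nat.card ψ.ker := fun hd => by
    obtain ⟨x, hx⟩ := exists_prime_orderOf_dvd_card' p hd
    refine (h3 _).1 x.2 ?_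
    rw [orderOf_injective _ (inclusion_injective hC), orderOf_coe, hx]
  obtain ⟨k, hk'⟩ := IsPGroup.iff_card.1 (P.isPGroup'.to_inf_left (K := centralizer ({y} : Set G)))
  rw [← ψ.ker.card_mul_index, index_ker, hr, hk', Nat.factorization_mul Nat.card_pos.ne'
    (pow_ne_zero _ hp.out.ne_zero), Finsupp.add_apply, Nat.factorization_eq_zero_of_not_dvd hk,
    hp.out.factorization_pow]
  simp

theorem exists_mul_eq_hh {m : ℕ} {i : ZMod (2 ^ m)} (hi : i ≠ 0) : ∃ t, t * i = hh m := by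
  obtain ⟨a, ha, b, rfl⟩ := exists_eq_pow_mul_odd i
  obtain ⟨v, hv⟩ := exists_inv_odd b
  have h1 : a ≠ m := by rintro rfl; exact hi (by rw [two_pow_self, zero_mul])
  refine ⟨2 ^ (m - 1 - a) * v, ?_⟩
  rw [hh, show m - 1 = m - 1 - a + a by omega, pow_add, Nat.add_sub_cancel]
  linear_combination 2 ^ (m - 1 - a) * 2 ^ a * hv

theorem exists_coord_of_gens {S : Subgroup G} {σ τ : G} {m : ℕ} (hm : 2 ≤ m)
    (hσ : orderOf σ = 2 ^ m) (hτ : τ * τ = 1) (hrel : τ * σ * τ⁻¹ = σ⁻¹)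
    (hS : closure ({σ, τ} : Set G) = S) : ∃ c : Coord S m, c.r 1 = σ ∧ c.s 0 = τ := by
  have h1 : σ ^ 2 ^ m = 1 := hσ ▸ pow_orderOf_eq_one σ
  have h2 : τ ∉ zpowers σ := by
    rintro ⟨k, rfl⟩
    have h3 : σ ^ 2 = 1 := by
      rw [sq, ← eq_inv_iff_mul_eq_one, ← hrel]; simp only; group
    have h4 := Nat.le_of_dvd (by norm_num) (hσ ▸ orderOf_dvd_of_pow_eq_one h3)
    have := Nat.pow_le_pow_right (show 0 < 2 by norm_num) hm
    omega
  let f := dihedralHom σ τ h1 hτ hrel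
  have hf : f.range = S := by
    rw [← hS]
    refine le_antisymm ?_ ((closure_le _).2 ?_)
    · have a1 : σ ∈ closure ({σ, τ} : Set G) := subset_closure (by simp)
      have a2 : τ ∈ closure ({σ, τ} : Set G) := subset_closure (by simp)
      rintro _ ⟨i | i, rfl⟩
      · rw [dihedralHom_r]; exact zpw_mem a1 i
      · rw [dihedralHom_sr]; exact mul_mem a2 (zpw_mem a1 i)
    · rintro _ (rfl | rfl)
      · exact ⟨.r 1, by rw [dihedralHom_r, zpw_one h1]⟩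
      · exact ⟨.sr 0, by rw [dihedralHom_sr, zpw_zero, mul_one]⟩
  subst hf
  refine ⟨ofEquiv (by omega) (MonoidHom.ofInjective
    (dihedralHom_injective σ τ h1 hτ hrel hσ h2)).symm, ?_, ?_⟩
  · exact (dihedralHom_r σ τ h1 hτ hrel 1).trans (zpw_one h1)
  · exact (dihedralHom_sr σ τ h1 hτ hrel (-0)).trans (by rw [neg_zero, zpw_zero, mul_one])

/-- The linear characters of a cyclic subgroup. -/
theorem exists_lam [Finite G] {σ : G} {q : ℕ} (hσ : orderOf σ = q) (hq : q ≠ 0) {ζ : ℂ}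
    (hζ : IsPrimitiveRoot ζ q) :
    ∃ lam : ZMod q → (zpowers σ →* ℂˣ), Function.Bijective lam ∧ lam 0 = 1 ∧
      (∀ i, lam (-i) = (lam i)⁻¹) ∧
      ∀ a l : ℕ, lc (lam a) ⟨σ ^ l, pow_mem (mem_zpowers _) l⟩ = ζ ^ (a * l) := by
  let g : zpowers σ := ⟨σ, mem_zpowers _⟩
  have hg : ∀ x, x ∈ zpowers g := fun ⟨_, k, hk⟩ => ⟨k, Subtype.ext hk⟩
  let u : ℂˣ := Units.mk0 ζ (hζ.ne_zero hq)
  have hu : orderOf u = q := by rw [← orderOf_units]; exact hζ.eq_orderOf.symm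
  have hgo : orderOf g = q := by rw [← orderOf_coe]; exact hσ
  let ψ := monoidHomOfForallMemZpowers hg (show orderOf u ∣ orderOf g by rw [hu, hgo])
  have hψ : ψ g = u := monoidHomOfForallMemZpowers_apply_gen _ _
  have ho : orderOf ψ = q := by
    rw [← hu, orderOf_eq_orderOf_iff]
    refine fun k => ⟨fun h => by simpa [hψ] using DFunLike.congr_fun h g, fun h => ?_⟩
    exact MonoidHom.eq_iff_eq_on_generator hg _ _ |>.2 (by simpa [hψ] using h)
  have h1 : ψ ^ q = 1 := ho ▸ pow_orderOf_eq_one ψ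
  refine ⟨zpw ψ, (zpw_injective ho).bijective_of_nat_card_le ?_, zpw_zero, zpw_neg h1,
    fun a l => ?_⟩
  · rw [Char.card_hom_of_comm fun a b => mul_comm' a b, Nat.card_zpowers, hσ, Nat.card_zmod]
  · rw [zpw_natCast h1, show (⟨σ ^ l, pow_mem (mem_zpowers _) l⟩ : zpowers σ) = g ^ l from rfl]
    simp [lc, hψ, u, ← pow_mul, mul_comm]

theorem exists_third {N : ℕ} (hN : N ≠ 2) (i j : Fin N) (h : i ≠ j) : ∃ k, k ≠ i ∧ k ≠ j := by
  by_contra hn
  push Not at hn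
  have h1 : (Finset.univ : Finset (Fin N)) = {i, j} := by
    ext k; simpa [or_iff_not_imp_left] using hn k
  exact hN (by simpa [Finset.card_pair h] using congrArg Finset.card h1)

theorem idx_facts {m : ℕ} (hm : 1 ≤ m) (ι : Fin (2 ^ (m - 1) - 1) → ZMod (2 ^ m))
    (hι : ι = fun j : Fin (2 ^ (m - 1) - 1) => (((j : ℕ) + 1 : ℕ) : ZMod (2 ^ m))) :
    (∀ j, ι j ≠ 0) ∧ (∀ j, ι j ≠ hh m) ∧ Function.Injective ι ∧ (∀ j k, -ι j ≠ ι k) ∧
      ∀ i, i = 0 ∨ i = hh m ∨ ∃ j, i = ι j ∨ i = -ι j := by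
  subst hι
  have hq : 2 ^ m = 2 * 2 ^ (m - 1) := by rw [← pow_succ']; congr 1; omega
  have h0 : 0 < 2 ^ (m - 1) := by positivity
  have h1 : ∀ a b : ℕ, a < 2 ^ m → b < 2 ^ m → (a : ZMod (2 ^ m)) = b → a = b := fun a b ha hb h => by
    simpa [ZMod.val_natCast_of_lt ha, ZMod.val_natCast_of_lt hb] using congrArg ZMod.val h
  have h2 : hh m = ((2 ^ (m - 1) : ℕ) : ZMod (2 ^ m)) := by rw [hh]; simp
  refine ⟨fun j h => ?_, fun j h => ?_, fun j k h => ?_, fun j k h => ?_, fun i => ?_⟩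
  · have := h1 (j + 1) 0 (by omega) (by omega) (by simpa using h)
    omega
  · have := h1 (j + 1) _ (by omega) (by omega) (h.trans h2)
    omega
  · have := h1 (j + 1) (k + 1) (by omega) (by omega) h
    omega
  · have := h1 (j + 1 + (k + 1)) 0 (by omega) (by omega) (by
      rw [Nat.cast_add, Nat.cast_zero]; linear_combination -h)
    omega
  · have h3 := i.val_lt
    have h4 := ZMod.natCast_zmod_val i
    rcases lt_trichotomy i.val (2 ^ (m - 1)) with h | h | h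
    · rcases Nat.eq_zero_or_pos i.val with h' | h'
      · exact Or.inl (by rw [← h4, h', Nat.cast_zero])
      · exact Or.inr (Or.inr ⟨⟨i.val - 1, by omega⟩, Or.inl (h4.symm.trans
          (congrArg Nat.cast (Nat.sub_add_cancel h').symm))⟩)
    · exact Or.inr (Or.inl (by rw [h2, ← h, h4]))
    · refine Or.inr (Or.inr ⟨⟨2 ^ m - i.val - 1, by omega⟩, Or.inr ?_⟩)
      rw [eq_neg_iff_add_eq_zero]
      conv_lhs => enter [1]; rw [← h4]
      rw [← Nat.cast_add, ← ZMod.natCast_self (2 ^ m)]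
      congr 1
      simp only
      omega

end CL.Blk

namespace CL.Dih.Coord

open CL.Blk

variable {G : Type*} [Group G] {M : Ideal AlgInt}

section
variable {S : Subgroup G} {m : ℕ} (c : Coord S m)

include c in
theorem exists_rescale (hm : 2 ≤ m) {σ : G} (hσ : σ ∈ S) (ho : orderOf σ = 2 ^ m) :
    ∃ c' : Coord S m, c'.r 1 = σ := by
  rcases (c.mem_iff σ).1 hσ with ⟨u, rfl⟩ | ⟨u, rfl⟩
  · obtain ⟨v, hv⟩ := isUnit_of_hh_mul c.hn
      ((c.orderOf_r_eq_two_pow_succ_iff u (m - 1)).1 (by rw [ho]; congr 1; omega))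
    have a1 : c.r u ∈ closure ({c.r u, c.s 0} : Set G) := subset_closure (by simp)
    have a2 : c.s 0 ∈ closure ({c.r u, c.s 0} : Set G) := subset_closure (by simp)
    have a3 : ∀ i, c.r i ∈ closure ({c.r u, c.s 0} : Set G) := fun i => by
      simpa [mul_assoc, hv] using c.r_mul_mem a1 (i * v)
    obtain ⟨c', h, -⟩ := exists_coord_of_gens (S := S) hm ho (c.s_sq 0)
      (by rw [c.s_conj_r, c.r_inv]) (le_antisymm ((closure_le _).2 (by
        rintro _ (rfl | rfl)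
        exacts [c.r_mem _, c.s_mem _])) (c.le_of_forall le_rfl (fun i _ => a3 i) fun i _ => by
          simpa [c.r_mul_s] using mul_mem (a3 i) a2))
    exact ⟨c', h⟩
  · rw [c.orderOf_s] at ho
    have := Nat.pow_le_pow_right (show 0 < 2 by norm_num) hm
    omega

theorem r_mem_zpowers (i : ZMod (2 ^ m)) : c.r i ∈ zpowers (c.r 1) := by
  simpa using c.r_mul_mem (mem_zpowers (c.r 1)) i

theorem mem_zpowers_r_one {y : G} : y ∈ zpowers (c.r 1) ↔ ∃ i, y = c.r i :=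
  ⟨fun ⟨k, hk⟩ => ⟨_, hk.symm.trans (c.r_zpow 1 k)⟩, fun ⟨i, hi⟩ => hi ▸ c.r_mem_zpowers i⟩

theorem h_mem_zpowers {y : G} (hy : y ∈ zpowers (c.r 1)) (h1 : y ≠ 1) :
    c.r (hh m) ∈ zpowers y := by
  obtain ⟨i, rfl⟩ := c.mem_zpowers_r_one.1 hy
  obtain ⟨t, ht⟩ := exists_mul_eq_hh fun h => h1 (c.r_eq_one_iff.2 h)
  exact ht ▸ c.r_mul_mem (mem_zpowers _) t

theorem orderOf_h : orderOf (c.r (hh m)) = 2 := (c.orderOf_r_eq_two_iff _).2 rfl

theorem le_centralizer_h : S ≤ centralizer ({c.r (hh m)} : Set G) := fun _ hg =>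
  mem_centralizer_singleton_iff.2 (c.r_h_comm hg)

theorem centralizer_le_h {y : G} (hy : y ∈ zpowers (c.r 1)) (h1 : y ≠ 1) :
    centralizer ({y} : Set G) ≤ centralizer ({c.r (hh m)} : Set G) := fun g hg => by
  obtain ⟨k, hk⟩ := c.h_mem_zpowers hy h1
  rw [← hk]
  exact mem_centralizer_singleton_iff.2
    (Commute.zpow_right (mem_centralizer_singleton_iff.1 hg) k)

theorem zpowers_le : zpowers (c.r 1) ≤ S := Subgroup.zpowers_le.2 (c.r_mem 1)

theorem le_normalizer_zpowers : S ≤ normalizer (zpowers (c.r 1) : Set G) := fun g hg => by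
  have key : ∀ g ∈ S, ∀ y ∈ zpowers (c.r 1), g * y * g⁻¹ ∈ zpowers (c.r 1) := by
    intro g hg y hy
    obtain ⟨i, rfl⟩ := c.mem_zpowers_r_one.1 hy
    rcases (c.mem_iff g).1 hg with ⟨t, rfl⟩ | ⟨t, rfl⟩
    · rw [c.r_conj_r]; exact hy
    · rw [c.s_conj_r]; exact c.r_mem_zpowers _
  exact mem_normalizer_iff.2 fun y => ⟨key g hg y, fun h => by
    simpa [mul_assoc] using key g⁻¹ (inv_mem hg) _ h⟩

theorem sum_coord [Fintype S] {A : Type*} [AddCommMonoid A] (F : S → A) :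
    ∑ x, F x = ∑ i, F ⟨c.r i, c.r_mem i⟩ + ∑ i, F ⟨c.s i, c.s_mem i⟩ := by
  refine Eq.trans (Function.Bijective.sum_comp ⟨?_, fun x => ?_⟩ F).symm
    (Fintype.sum_sum_type fun i : ZMod (2 ^ m) ⊕ ZMod (2 ^ m) =>
      F (i.elim (fun i => ⟨c.r i, c.r_mem i⟩) fun i => ⟨c.s i, c.s_mem i⟩))
  · rintro (i | i) (j | j) h <;> have h' := congrArg Subtype.val h
    · rw [c.r_eq_iff.1 h']
    · exact absurd h' (c.r_ne_s _ _)
    · exact absurd h' (c.s_ne_r _ _)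
    · rw [c.s_eq_iff.1 h']
  · rcases (c.mem_iff x).1 x.2 with ⟨i, h⟩ | ⟨i, h⟩
    exacts [⟨.inl i, Subtype.ext h.symm⟩, ⟨.inr i, Subtype.ext h.symm⟩]

theorem r_smul_hom (i : ZMod (2 ^ m)) (φ : zpowers (c.r 1) →* ℂˣ) :
    DomMulAct.mk (inclusion c.le_normalizer_zpowers ⟨c.r i, c.r_mem i⟩) • φ = φ :=
  MonoidHom.ext fun y => (nk_smul_apply _ φ y).trans (congrArg φ (Subtype.ext (by
    obtain ⟨j, hj⟩ := c.mem_zpowers_r_one.1 y.2
    rw [coe_normalizer_smul, hj]; exact c.r_conj_r _ _)))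

theorem s_smul_hom (i : ZMod (2 ^ m)) (φ : zpowers (c.r 1) →* ℂˣ) :
    DomMulAct.mk (inclusion c.le_normalizer_zpowers ⟨c.s i, c.s_mem i⟩) • φ = φ⁻¹ :=
  MonoidHom.ext fun y => (nk_smul_apply _ φ y).trans (Eq.trans (congrArg φ (Subtype.ext (by
    obtain ⟨j, hj⟩ := c.mem_zpowers_r_one.1 y.2
    rw [coe_normalizer_smul, coe_inv, hj, c.r_inv]; exact c.s_conj_r _ _))) (map_inv φ y))

theorem card_zpowers : Nat.card (zpowers (c.r 1)) = 2 ^ m := by
  rw [Nat.card_zpowers, c.orderOf_r_one]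

end

variable [Finite G] {P : Sylow 2 G} {m : ℕ} (c : Coord (P : Subgroup G) m)

theorem npc_of_mem {y : G} (hy : y ∈ zpowers (c.r 1)) (h1 : y ≠ 1) :
    HasNormalPComplement 2 (centralizer ({y} : Set G)) :=
  CL.hasNPC_of_le (c.hasNPC_centralizer c.orderOf_h) (c.centralizer_le_h hy h1)

theorem fus_zpowers {y y' : G} (hy : y ∈ zpowers (c.r 1)) (hy' : y' ∈ zpowers (c.r 1)) (h1 : y ≠ 1)
    (h : IsConj y y') : ∃ n ∈ (P : Subgroup G), n * y * n⁻¹ = y' := by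
  obtain ⟨u, rfl⟩ := isConj_iff.1 h
  refine conj_in_sylow_of_npc (c.hasNPC_centralizer c.orderOf_h) P c.le_centralizer_h
    (c.zpowers_le hy) (c.zpowers_le hy') (mem_centralizer_singleton_iff.2 ?_) rfl
  rw [← mul_inv_eq_iff_eq_mul]
  exact eq_of_orderOf_two_of_mem_zpowers (by rw [Inv.orderOf_conj', c.orderOf_h]) c.orderOf_h
    ((conj_mem_zpowers_conj u).2 (c.h_mem_zpowers hy h1))
    (c.h_mem_zpowers hy' (by simpa using h1))

open Classical in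
theorem gram_zpowers [Fintype (zpowers (c.r 1))] (hM : IsPModular 2 M)
    (ψ ψ' φ : zpowers (c.r 1) →* ℂˣ) :
    ∑ χ with χ ∈ principalBlock M G, (mlt _ ψ χ - mlt _ ψ' χ) * mlt _ φ χ =
      ((if φ = ψ then 1 else 0) + (if φ⁻¹ = ψ then 1 else 0)) -
        ((if φ = ψ' then 1 else 0) + (if φ⁻¹ = ψ' then 1 else 0)) := by
  have := Fintype.ofFinite (P : Subgroup G)
  have h1 := sum_mlt_sub_mul hM (P.isPGroup'.to_le c.zpowers_le) c.le_normalizer_zpowers (w := 1)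
    (fun y y' hy hc => c.fus_zpowers y.2 y'.2 (fun h => hy (Subtype.ext h)) hc) (fun y hy => by
      have hy' : (y : G) ≠ 1 := fun h => hy (Subtype.ext h)
      rw [sum_sq_principal_of_npc hM (c.npc_of_mem y.2 hy'), one_mul,
        ← factorization_centralizer_of_npc (c.hasNPC_centralizer c.orderOf_h) P c.le_centralizer_h
          (c.zpowers_le y.2) (c.centralizer_le_h y.2 hy')]
      push_cast; rfl) ψ ψ' φ
  simp only [Finset.card_filter, c.sum_coord, c.r_smul_hom, c.s_smul_hom, Finset.sum_const,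
    Finset.card_univ, ZMod.card, c.card_zpowers] at h1
  apply Int.cast_injective (α := ℂ)
  rw [h1]
  push_cast
  field_simp
  split_ifs <;> simp <;> ring

open Classical in
/-- The principal block. -/
theorem principal_block (hM : IsPModular 2 M) (hm : 2 ≤ m) {ζ : ℂ}
    (hζ : IsPrimitiveRoot ζ (2 ^ m)) :
    ∃ (χ₁ χ₂ χ₃ : IrrCharacter G) (ξ : Fin (2 ^ (m - 1) - 1) → IrrCharacter G) (δ₁ δ₂ δ₃ : ℤ),
      (δ₁ = 1 ∨ δ₁ = -1) ∧ (δ₂ = 1 ∨ δ₂ = -1) ∧ (δ₃ = 1 ∨ δ₃ = -1) ∧ Function.Injective ξ ∧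
      χ₁ ≠ irrOne G ∧ χ₂ ≠ irrOne G ∧ χ₃ ≠ irrOne G ∧ χ₁ ≠ χ₂ ∧ χ₁ ≠ χ₃ ∧ χ₂ ≠ χ₃ ∧
      (∀ j, ξ j ≠ χ₁ ∧ ξ j ≠ χ₂ ∧ ξ j ≠ χ₃ ∧ ξ j ≠ irrOne G) ∧
      (∀ χ, χ ∈ principalBlock M G ↔ χ = irrOne G ∨ χ = χ₁ ∨ χ = χ₂ ∨ χ = χ₃ ∨ ∃ j, χ = ξ j) ∧
      (∀ l : ℕ, 0 < l → l < 2 ^ m → χ₁.1 (c.r 1 ^ l) = δ₁ ∧ χ₂.1 (c.r 1 ^ l) = δ₂ * (-1) ^ (l + 1) ∧
        χ₃.1 (c.r 1 ^ l) = δ₃ * (-1) ^ (l + 1) ∧ ∀ j, (ξ j).1 (c.r 1 ^ l) =
          δ₁ * (ζ ^ (((j : ℕ) + 1) * l) + (ζ ^ (((j : ℕ) + 1) * l))⁻¹)) ∧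
      ∀ ρ : G, ¬ 2 ∣ orderOf ρ → 1 + δ₁ * χ₁.1 ρ = -δ₂ * χ₂.1 ρ - δ₃ * χ₃.1 ρ ∧
        ∀ j, 1 + δ₁ * χ₁.1 ρ = δ₁ * (ξ j).1 ρ := by
  have := Fintype.ofFinite G
  have := Fintype.ofFinite (zpowers (c.r 1))
  have := Fintype.ofFinite (zpowers (c.r 1) →* ℂˣ)
  obtain ⟨lam, hb, h0, hneg, hval⟩ := exists_lam c.orderOf_r_one (by positivity) hζ
  have hc : ∀ a b : zpowers (c.r 1), a * b = b * a := fun a b => mul_comm' a b
  have hB := isBlockUnion_of_block hM (isPBlock_principalBlock (G := G))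
  let T : ZMod (2 ^ m) → IrrCharacter G → ℤ := fun i χ => mlt _ (lam 0) χ - mlt _ (lam i) χ
  let s := (Finset.univ.filter (· ∈ principalBlock M G)).erase (irrOne G)
  have hs : ∀ {R : Type} [AddCommMonoid R] (F : IrrCharacter G → R),
      ∑ χ with χ ∈ principalBlock M G, F χ = F (irrOne G) + ∑ χ ∈ s, F χ := fun F =>
    (Finset.add_sum_erase _ _ (Finset.mem_filter.2
      ⟨Finset.mem_univ _, irrOne_mem_principalBlock hM⟩)).symm
  have hT1 : ∀ i, i ≠ 0 → T i (irrOne G) = 1 := fun i hi => by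
    simp only [T, mlt_irrOne, ← h0, hb.1.eq_iff, if_neg hi, if_true, sub_zero]
  have hTn : ∀ i χ, T (-i) χ = T i χ := fun i χ => by
    simp only [T]
    rw [hneg, ← c.s_smul_hom 0, mlt_smul]
  have hg : ∀ i k, i ≠ 0 → k ≠ 0 → ∑ χ ∈ s, T i χ * T k χ =
      1 + (if k = i then 1 else 0) + (if -k = i then 1 else 0) := fun i k hi hk => by
    have h1 := hs fun χ => T i χ * T k χ
    rw [hT1 i hi, hT1 k hk] at h1
    conv_lhs at h1 => simp only [T, mul_sub, Finset.sum_sub_distrib, c.gram_zpowers hM, ← hneg,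
      hb.1.eq_iff, neg_zero, neg_eq_zero, if_neg hk, if_neg hi.symm, if_true]
    linarith
  have hreg : ∀ i, i ≠ 0 → ∀ ρ : G, ¬ 2 ∣ orderOf ρ → 1 + ∑ χ ∈ s, (T i χ : ℂ) * χ.1 ρ = 0 :=
    fun i hi ρ hρ => by
    have h1 := sum_mlt_sub_mul_reg hM (P.isPGroup'.to_le c.zpowers_le) hB (lam 0) (lam i) hρ
    rw [hs fun χ => (T i χ : ℂ) * χ.1 ρ, hT1 i hi] at h1
    simpa [irrOne_apply] using h1
  have hdeg : ∀ i, i ≠ 0 → 1 + ∑ χ ∈ s, T i χ * charDegree χ.1 = 0 := fun i hi => by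
    have h1 := hreg i hi 1 (not_dvd_orderOf_one Nat.prime_two)
    simp only [irr_one_eq] at h1
    exact_mod_cast h1
  let ι : Fin (2 ^ (m - 1) - 1) → ZMod (2 ^ m) := fun j => ((j : ℕ) + 1 : ℕ)
  obtain ⟨i0, ih, iinj, ineg, icases⟩ := idx_facts c.hn ι rfl
  have hh0 := c.h_ne
  have hhn : -hh m = hh m := by linear_combination -c.two_h
  have h2m : 2 ∣ 2 ^ (m - 1) := dvd_pow_self 2 (by omega)
  have h2m' : 0 < 2 ^ (m - 1) := by positivity
  have : Nonempty (Fin (2 ^ (m - 1) - 1)) := ⟨⟨0, by omega⟩⟩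
  obtain ⟨a, b, d, ξ, ha, hb', hd, hξ, hab, had, hbd, hinj, za, zb, zd, hξn, hz0, ht⟩ :=
    dihedral_vec (exists_third (by omega)) (s := s) (d := fun χ => charDegree χ.1) (z := T (hh m))
      (t := fun j => T (ι j)) (fun χ => by exact_mod_cast χ.2.charDegree_pos)
      (by simp only [sq]; rw [hg _ _ hh0 hh0, if_pos rfl, if_pos hhn]; rfl)
      (fun j => by simp only [sq]; rw [hg _ _ (i0 j) (i0 j), if_pos rfl, if_neg (ineg j j)]; rfl)
      (fun j k h => by rw [hg _ _ (i0 j) (i0 k), if_neg (iinj.ne h.symm), if_neg (ineg k j)]; rfl)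
      (fun j => by
        rw [hg _ _ hh0 (i0 j), if_neg (ih j), if_neg fun h => ih j (by rw [← hhn, ← h, neg_neg])]
        rfl)
      (hdeg _ hh0) fun j => hdeg _ (i0 j)
  have hv : ∀ (χ : IrrCharacter G) (y : zpowers (c.r 1)), y ≠ 1 → ∀ e : ℤ,
      χ.1 y = ∑ i, ((e - T i χ : ℤ) : ℂ) * lc (lam i) y := fun χ y hy e => by
    rw [apply_eq_sum_mlt_sub hc χ hy (mlt _ (lam 0) χ - e), ← hb.sum_comp]
    refine Finset.sum_congr rfl fun i _ => ?_
    simp only [T]; congr 2; ring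
  have hT0 : ∀ χ, T 0 χ = 0 := fun χ => sub_self _
  have hne : ∀ l : ℕ, 0 < l → l < 2 ^ m →
      (⟨c.r 1 ^ l, pow_mem (mem_zpowers _) l⟩ : zpowers (c.r 1)) ≠ 1 := fun l h1 h2 h =>
    pow_ne_one_of_lt_orderOf h1.ne' (c.orderOf_r_one.symm ▸ h2) (congrArg Subtype.val h)
  have hsgn : ∀ w ∈ s, w ≠ a → (∀ j, w ≠ ξ j) → ∀ l : ℕ, 0 < l → l < 2 ^ m →
      w.1 (c.r 1 ^ l) = T (hh m) w * (-1) ^ (l + 1) := fun w hw h1 h2 l hl hl' => by
    rw [hv w _ (hne l hl hl') 0, Finset.sum_eq_single (hh m)]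
    · have h3 := hval (2 ^ (m - 1)) l
      rw [pow_mul, (hζ.pow (by positivity) (show 2 ^ m = 2 ^ (m - 1) * 2 by
        rw [← pow_succ]; congr 1; omega)).eq_neg_one_of_two_right] at h3
      push_cast at h3 ⊢
      rw [hh, h3]; ring
    · intro i _ hi
      rcases icases i with rfl | rfl | ⟨j, rfl | rfl⟩
      · simp [hT0]
      · exact absurd rfl hi
      · simp [(ht j).2.2 w hw h1 (h2 j)]
      · simp [hTn, (ht j).2.2 w hw h1 (h2 j)]
    · simp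
  have hJ : c.r 1 ^ 2 ^ (m - 1) = c.r (hh m) := by rw [c.r_pow, hh]; simp
  have hlt : 2 ^ (m - 1) < 2 ^ m := Nat.pow_lt_pow_right (by norm_num) (by omega)
  have hsne : ∀ w ∈ s, w ≠ irrOne G := fun w hw => (Finset.mem_erase.1 hw).1
  have hsB : ∀ w ∈ s, w ∈ principalBlock M G := fun w hw =>
    (Finset.mem_filter.1 (Finset.mem_erase.1 hw).2).2
  refine ⟨a, b, d, ξ, T (hh m) a, T (hh m) b, T (hh m) d, za, zb, zd, hinj, hsne a ha, hsne b hb',
    hsne d hd, hab, had, hbd, fun j => ⟨(hξn j).1, (hξn j).2.1, (hξn j).2.2, hsne _ (hξ j)⟩,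
    fun χ => ⟨fun hχ => ?_, ?_⟩, fun l hl hl' => ⟨?_, hsgn b hb' hab.symm
      (fun j => (hξn j).2.1.symm) l hl hl', hsgn d hd had.symm (fun j => (hξn j).2.2.symm) l hl hl',
      fun j => ?_⟩, fun ρ hρ => ⟨?_, fun j => ?_⟩⟩
  · by_contra hn
    push Not at hn
    have hw : χ ∈ s := Finset.mem_erase.2 ⟨hn.1, Finset.mem_filter.2 ⟨Finset.mem_univ _, hχ⟩⟩
    have h1 := hsgn χ hw hn.2.1 hn.2.2.2.2 _ h2m' hlt
    rw [hz0 χ hw hn.2.1 hn.2.2.1 hn.2.2.2.1, hJ] at h1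
    exact principal_apply_ne_zero' hM hχ (fun hd => P.not_dvd_index
      (hd.trans (index_dvd_of_le c.le_centralizer_h))) (by simpa using h1)
  · rintro (rfl | rfl | rfl | rfl | ⟨j, rfl⟩)
    exacts [irrOne_mem_principalBlock hM, hsB _ ha, hsB _ hb', hsB _ hd, hsB _ (hξ j)]
  · rw [hv a _ (hne l hl hl') (T (hh m) a), Finset.sum_eq_single 0]
    · simp [hT0, h0, lc]
    · intro i _ hi
      rcases icases i with rfl | rfl | ⟨j, rfl | rfl⟩
      · exact absurd rfl hi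
      · simp
      · simp [(ht j).1]
      · simp [hTn, (ht j).1]
    · simp
  · rw [hv (ξ j) _ (hne l hl hl') 0, sum_eq_of_two (Finset.mem_univ (ι j)) (Finset.mem_univ (-ι j))
      (ineg j j).symm, hTn, (ht j).2.1, hneg, ← hval]
    · simp [lc, ι, mul_add]
    · intro i _ h1 h2
      rcases icases i with rfl | rfl | ⟨k, rfl | rfl⟩
      · simp [hT0]
      · simp [hz0 _ (hξ j) (hξn j).1 (hξn j).2.1 (hξn j).2.2]
      · simp [(ht k).2.2 _ (hξ j) (hξn j).1 (hinj.ne fun h => h1 (by rw [h]))]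
      · simp [hTn, (ht k).2.2 _ (hξ j) (hξn j).1 (hinj.ne fun h => h2 (by rw [h]))]
  · have h1 := hreg _ hh0 ρ hρ
    rw [sum_eq_of_three ha hb' hd hab had hbd fun w hw h1 h2 h3 => by
      simp [hz0 w hw h1 h2 h3]] at h1
    linear_combination h1
  · have h1 := hreg _ (i0 j) ρ hρ
    rw [sum_eq_of_two ha (hξ j) (hξn j).1.symm fun w hw h1 h2 => by
      simp [(ht j).2.2 w hw h1 h2], (ht j).1, (ht j).2.1] at h1
    push_cast at h1
    linear_combination h1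

end CL.Dih.Coord
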