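import Mathlib
import Cfsg.Agent.BLK.Brauer
import Cfsg.Agent.BLK.PPart

/-!
# Class functions and `p`-th powers in a group algebra of characteristic `p`

For a class function `τ` on `G` with values in a commutative ring of characteristic `p`,
`τ(b ^ p) = ∑ b_x ^ p τ(x ^ p)`.
-/

open MonoidAlgebra

namespace CL.Blk

variable {A : Type*} [CommRing A] {G : Type*} [Group G] {p : ℕ}

theorem pow_eq_sum_words [Fintype G] (b : A[G]) (n : ℕ) :
    b ^ n = ∑ f : Fin n → G, single (List.ofFn f).prod (∏ i, b.coeff (f i)) := by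
  induction n with
  | zero => simp [MonoidAlgebra.one_def]
  | succ n ih =>
    rw [pow_succ', ih, ← (Fin.consEquiv fun _ : Fin (n + 1) => G).sum_comp, Fintype.sum_prod_type]
    nth_rewrite 1 [eq_sum_single b]
    rw [Finset.sum_mul_sum]
    refine Finset.sum_congr rfl fun x _ => Finset.sum_congr rfl fun f _ => ?_
    rw [single_mul_single]
    simp [List.ofFn_succ, Fin.prod_univ_succ, Fin.consEquiv]

/-- The linear form attached to a function on the group. -/
noncomputable def tauL [Fintype G] (τ : G → A) (a : A[G]) : A := ∑ g, a.coeff g * τ g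

section
variable [Fintype G]

theorem tauL_single (τ : G → A) (g : G) (c : A) : tauL τ (single g c) = c * τ g := by
  classical
  simp only [tauL, coeff_single']
  simp

theorem tauL_add (τ : G → A) (a b : A[G]) : tauL τ (a + b) = tauL τ a + tauL τ b := by
  simp [tauL, add_mul, Finset.sum_add_distrib]

theorem tauL_sub (τ : G → A) (a b : A[G]) : tauL τ (a - b) = tauL τ a - tauL τ b := by
  simp [tauL, sub_mul, Finset.sum_sub_distrib]

theorem tauL_smul (τ : G → A) (c : A) (a : A[G]) : tauL τ (c • a) = c * tauL τ a := by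
  simp [tauL, Finset.mul_sum, mul_assoc]

theorem tauL_zero (τ : G → A) : tauL τ (0 : A[G]) = 0 := by simp [tauL]

theorem tauL_sum (τ : G → A) {ι : Type*} (s : Finset ι) (a : ι → A[G]) :
    tauL τ (∑ i ∈ s, a i) = ∑ i ∈ s, tauL τ (a i) := by
  simp only [tauL, coeff_sum', Finset.sum_mul]
  exact Finset.sum_comm

theorem tauL_pow_prime (hp : p.Prime) (hA : (p : A) = 0) {τ : G → A}
    (hτ : ∀ g h, τ (h * g * h⁻¹) = τ g) (b : A[G]) :
    tauL τ (b ^ p) = ∑ x, b.coeff x ^ p * τ (x ^ p) := by
  classical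
  obtain ⟨n, rfl⟩ : ∃ n, p = n + 1 := ⟨p - 1, (Nat.succ_pred_eq_of_pos hp.pos).symm⟩
  rw [pow_eq_sum_words, tauL_sum]
  simp only [tauL_single]
  set T : (Fin (n + 1) → G) → A := fun f => (∏ i, b.coeff (f i)) * τ (List.ofFn f).prod with hT
  let σ : Equiv.Perm (Fin (n + 1) → G) := Equiv.arrowCongr (finRotate (n + 1)).symm (Equiv.refl G)
  have hσ : ∀ f i, σ f i = f (finRotate (n + 1) i) := fun f i => rfl
  have hσk : ∀ (k : ℕ) f i, (σ ^ k) f i = f ((finRotate (n + 1) ^ k) i) := fun k => by
    induction k with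
    | zero => intro f i; rfl
    | succ k ih => intro f i; rw [pow_succ, Equiv.Perm.mul_apply, ih, hσ, pow_succ']; rfl
  have hrot : finRotate (n + 1) ^ (n + 1) = 1 := by
    rcases n with _ | n
    · exact absurd hp Nat.not_prime_one
    · have := (isCycle_finRotate (n := n)).orderOf
      rw [support_finRotate, Finset.card_univ, Fintype.card_fin] at this
      rw [← orderOf_dvd_iff_pow_eq_one, this]
  have hσp : σ ^ (n + 1) ^ 1 = 1 := by
    ext f i; rw [pow_one, hσk, hrot]; rfl
  have hP := isPGroup_zpowers_of_pElt (exists_orderOf_eq_pow_of_pow_eq_one hp hσp)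
  have hTσ : ∀ f, T (σ f) = T f := fun f => by
    simp only [hT, hσ]
    rw [Equiv.prod_comp (finRotate (n + 1)) fun i => b.coeff (f i)]
    congr 1
    rw [List.ofFn_succ' , List.ofFn_succ (f := f), List.prod_concat, List.prod_cons, hσ,
      finRotate_last, ← hτ _ (f 0), ← mul_assoc, mul_inv_cancel_right]
    congr 4
    funext i
    rw [hσ, finRotate_apply, Fin.coeSucc_eq_succ]
  let K : Subgroup (Equiv.Perm (Fin (n + 1) → G)) :=
    { carrier := {u | ∀ f, T (u f) = T f}
      one_mem' := fun _ => rfl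
      mul_mem' := fun {u v} hu hv f => by rw [Equiv.Perm.mul_apply, hu, hv]
      inv_mem' := fun {u} hu f => by rw [← hu (u⁻¹ f)]; simp }
  have hK : Subgroup.zpowers σ ≤ K := (Subgroup.zpowers_le (G := Equiv.Perm _)).2 hTσ
  have hconst : ∀ f : Fin (n + 1) → G, σ f = f → ∀ i, f i = f 0 := fun f hf i => by
    induction i using Fin.induction with
    | zero => rfl
    | succ i ih => rw [← ih, ← Fin.coeSucc_eq_succ, ← finRotate_apply, ← hσ f, hf]
  have h0 := sum_eq_zero_of_no_fixed_action (P := Subgroup.zpowers σ) hp hP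
    (nsmul_eq_zero_of_cast hA) T (fun u f => hK u.2 f) (Finset.univ.filter fun f => σ f ≠ f)
    (fun u f hf => by
      simp only [Finset.mem_filter, Finset.mem_univ, true_and] at hf ⊢
      intro h
      apply hf
      have hc : Commute σ (u : Equiv.Perm _) := by
        obtain ⟨u, k, rfl⟩ := u
        exact Commute.self_zpow σ k
      apply (u : Equiv.Perm _).injective
      rw [← Equiv.Perm.mul_apply, ← hc.eq]
      exact h)
    (fun f hf => ⟨⟨σ, Subgroup.mem_zpowers σ⟩, (Finset.mem_filter.1 hf).2⟩)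
  rw [← Finset.sum_filter_add_sum_filter_not Finset.univ (fun f => σ f ≠ f), h0, zero_add]
  symm
  refine Finset.sum_bij (fun x _ => fun _ => x) (fun x _ => ?_) (fun x _ y _ h => congrFun h 0)
    (fun f hf => ⟨f 0, Finset.mem_univ _, funext fun i => ?_⟩) fun x _ => ?_
  · simp only [Finset.mem_filter, Finset.mem_univ, true_and, not_not]; rfl
  · exact (hconst f (not_not.1 (Finset.mem_filter.1 hf).2) i).symm
  · simp [pow_succ']

open Classical in
/-- The sum of the coefficients on a set. -/
noncomputable def coeffSum (S : Set G) (a : A[G]) : A := tauL (fun g => if g ∈ S then 1 else 0) a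

omit [Group G] in
open Classical in
theorem coeffSum_eq (S : Set G) (a : A[G]) : coeffSum S a = ∑ g with g ∈ S, a.coeff g := by
  simp [coeffSum, tauL, Finset.sum_filter]

theorem coeffSum_pow_prime (hp : p.Prime) [CharP A p] {S : Set G}
    (hS : ∀ g h, h * g * h⁻¹ ∈ S ↔ g ∈ S) (b : A[G]) :
    coeffSum S (b ^ p) = coeffSum {x | x ^ p ∈ S} b ^ p := by
  classical
  have : Fact p.Prime := ⟨hp⟩
  rw [coeffSum, tauL_pow_prime hp (CharP.cast_eq_zero A p) (fun g h => by simp only [hS]),
    coeffSum_eq, sum_pow_char, Finset.sum_filter]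
  exact Finset.sum_congr rfl fun x _ => by simp

theorem coeffSum_pow_pow (hp : p.Prime) [CharP A p] (k : ℕ) {S : Set G}
    (hS : ∀ g h, h * g * h⁻¹ ∈ S ↔ g ∈ S) (b : A[G]) :
    coeffSum S (b ^ p ^ k) = coeffSum {x | x ^ p ^ k ∈ S} b ^ p ^ k := by
  induction k generalizing S with
  | zero => simp
  | succ k ih =>
    rw [pow_succ, pow_mul, coeffSum_pow_prime hp hS, ih (fun g h => by
      simp only [Set.mem_ofPred_eq, conj_pow, hS]), ← pow_mul]
    simp only [Set.mem_ofPred_eq, ← pow_mul]

end

end CL.Blk
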