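import Mathlib
import Cfsg.Agent.BLK.Cover2
import Cfsg.Agent.BLK.Local

/-! The Harris-Knörr correspondence. -/

set_option autoImplicit false
open Cfsg MonoidAlgebra Subgroup
open scoped CL.MSS

namespace CL.Blk

variable {F : Type*} [Field F] {G : Type*} [Group G] [Finite G] {p : ℕ}
  {N Q : Subgroup G} [hN : N.Normal] {d c : F[G]}

theorem SDef.exists_normalizer_cj_eq (hd : IsSB N d) (hQ : SDef p N d Q) {x : G}
    (hb : BrNe Q (CL.Blk.cj x d)) :
    ∃ h ∈ normalizer (Q : Set G), CL.Blk.cj h d = CL.Blk.cj x d := by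
  have h1 := hQ.cj x
  rw [MSS.cj_eq_of_normal] at h1
  have h2 := (hd.cj_of_mem_normalizer (x := x) (le_normalizer_of_normal (mem_top x))).fixed
  obtain ⟨n, hn, h3⟩ := h1.exists_cj_eq
    (h1.of_card_le h2 hQ.le hQ.pgroup hb (MSS.card_cj x Q).le)
  refine ⟨n * x, MSS.mem_normalizer_iff_cj.2 (by rw [MSS.cj_mul, h3]), ?_⟩
  rw [← cj_cj, h2.cj_eq hn]

theorem SDef.mul_Br_orbSum_iff (hp : p.Prime) (hF : (p : F) = 0) (hd : IsSB N d)
    (hQ : SDef p N d Q) (hc : IsSB (normalizer (Q : Set G)) c) :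
    c * Br Q (orbSum ⊤ d) ≠ 0 ↔ c * Br Q d ≠ 0 := by
  constructor
  · intro h
    rw [orbSum, map_sum, Finset.mul_sum] at h
    obtain ⟨_, h1, h2⟩ := Finset.exists_ne_zero_of_sum_ne_zero h
    obtain ⟨x, -, rfl⟩ := mem_orbSet.1 h1
    obtain ⟨y, hy, h3⟩ := hQ.exists_normalizer_cj_eq hd (x := x)
      (brNe_iff_Br.2 fun h0 => h2 (by rw [h0, mul_zero]))
    have h4 := Br_cj y Q d
    rw [MSS.cj_eq_of_mem_normalizer hy] at h4
    rw [← h3, h4] at h2
    have h5 := hc.cov_cj h2 (inv_mem hy)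
    rwa [cj_inv_cj'] at h5
  · intro h h0
    refine h ?_
    rw [← hd.orbSum_mul (N := ⊤) le_normalizer_of_normal, Br_mul hp hF hQ.pgroup
      ((isCentral_orbSum d).isFixed Q) (hd.fixed.mono hQ.le), ← mul_assoc, h0, zero_mul]

/-- Block induction from `N_G(Q)` respects covering. -/
theorem SDef.cov_iff_of_indAlong (hp : p.Prime) (hF : (p : F) = 0) (hd : IsSB N d)
    (hQ : SDef p N d Q) {c : F[normalizer (Q : Set G)]} {ν : F[normalizer (Q : Set G)] →ₗ[F] F}
    (hc : IsBlk c ν) {e : F[G]} {l : F[G] →ₗ[F] F} (he : IsBlk e l)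
    (h : IndAlong (normalizer (Q : Set G)).subtype ν l) :
    e * d ≠ 0 ↔ amb (normalizer (Q : Set G)).subtype c * Br Q d ≠ 0 := by
  have hc' := hc.isSB_amb
  have hCH : centralizer (Q : Set G) ≤ normalizer (Q : Set G) := centralizer_le_normalizer _
  rw [indAlong_iff_Br_mul hp hF hQ.pgroup le_normalizer hCH le_rfl hc he] at h
  have hm := Br_mul hp hF hQ.pgroup ((isCentral_orbSum d).isFixed Q) (he.central.isFixed Q)
  have hcm := hc'.comm ((suppIn_Br Q (orbSum ⊤ d)).mono hCH)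
  rw [← hQ.mul_Br_orbSum_iff hp hF hd hc', hcm, ← h, ← mul_assoc, ← hm]
  constructor
  · intro h1
    rw [he.isSB_top.orbSum_mul_of_cov hd le_top le_normalizer_of_normal h1, h]
    exact hc'.ne_zero
  · intro h1
    refine he.isSB_top.cov_of_orbSum_mul (fun h0 => h1 ?_) (suppIn_top d)
    rw [h0, map_zero, zero_mul]

theorem normalizer_inf_normal_le : normalizer (Q : Set G) ≤
    normalizer ((normalizer (Q : Set G) ⊓ N : Subgroup G) : Set G) :=
  MSS.le_normalizer_inf le_normalizer le_normalizer_of_normal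

theorem SDef.inf_eq_of_cov_normalizer [IsAlgClosed F] (hp : p.Prime) (hF : (p : F) = 0) {b : F[G]}
    (hb : IsSB (normalizer (Q : Set G) ⊓ N) b) (hQ : SDef p (normalizer (Q : Set G) ⊓ N) b Q)
    (hc : IsSB (normalizer (Q : Set G)) c) (h : c * b ≠ 0) {D : Subgroup G}
    (hD : SDef p (normalizer (Q : Set G)) c D) : D ⊓ N = Q := by
  have h1 := hD.inf_eq_of_le hp hF hc hb inf_le_left normalizer_inf_normal_le h hQ
    (hc.normal_le_of_sDef hp hF hD hQ.pgroup le_normalizer le_rfl)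
  rwa [← inf_assoc, inf_of_le_left hD.le] at h1

theorem normalizer_le_of_inf_eq {D : Subgroup G} (h : D ⊓ N = Q) :
    normalizer (D : Set G) ≤ normalizer (Q : Set G) :=
  h ▸ MSS.le_normalizer_inf le_rfl le_normalizer_of_normal

/-- Injectivity of the Harris-Knörr correspondence. -/
theorem eq_of_cov_of_indAlong [IsAlgClosed F] (hp : p.Prime) (hF : (p : F) = 0) {b : F[G]}
    (hb : IsSB (normalizer (Q : Set G) ⊓ N) b) (hQ : SDef p (normalizer (Q : Set G) ⊓ N) b Q)
    {c c' : F[normalizer (Q : Set G)]} {ν ν' : F[normalizer (Q : Set G)] →ₗ[F] F}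
    (hc : IsBlk c ν) (hc' : IsBlk c' ν') (h : amb (normalizer (Q : Set G)).subtype c * b ≠ 0)
    (h' : amb (normalizer (Q : Set G)).subtype c' * b ≠ 0) {e : F[G]} {l : F[G] →ₗ[F] F}
    (he : IsBlk e l) (hi : IndAlong (normalizer (Q : Set G)).subtype ν l)
    (hi' : IndAlong (normalizer (Q : Set G)).subtype ν' l) : c = c' := by
  obtain ⟨D, hD⟩ := hc.isSB_amb.exists_sDef hp hF
  obtain ⟨D', hD'⟩ := hc'.isSB_amb.exists_sDef hp hF
  have h1 := hQ.inf_eq_of_cov_normalizer hp hF hb hc.isSB_amb h hD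
  have h2 := hQ.inf_eq_of_cov_normalizer hp hF hb hc'.isSB_amb h' hD'
  have hr := range_subtype (normalizer (Q : Set G))
  have h3 := first_main_isDef' hp hF (subtype_injective _) (hr.symm ▸ normalizer_le_of_inf_eq h1)
    hD.pgroup hc ((sDef_amb_subtype_iff' hD.le).1 hD) he hi
  have h4 := first_main_isDef' hp hF (subtype_injective _) (hr.symm ▸ normalizer_le_of_inf_eq h2)
    hD'.pgroup hc' ((sDef_amb_subtype_iff' hD'.le).1 hD') he hi'
  obtain ⟨x, rfl⟩ := h3.exists_cj_eq h4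
  have hx : x ∈ normalizer (Q : Set G) := by
    rw [MSS.mem_normalizer_iff_cj]
    conv_lhs => rw [← h1, MSS.cj_inf, MSS.cj_eq_of_normal x N, h2]
  have h5 := hD.cj_of_mem hc.isSB_amb.fixed hx
  exact first_main_inj' hp hF (subtype_injective _) (hr.symm ▸ normalizer_le_of_inf_eq h2)
    hD'.pgroup hc ((sDef_amb_subtype_iff' h5.le).1 h5) hc' ((sDef_amb_subtype_iff' hD'.le).1 hD')
    he hi hi'

omit hN in
/-- The Brauer correspondent inside a subgroup, in ambient form. -/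
theorem Br_sb_eq_of_isInducedBlockIn {M : Ideal AlgInt} (hM : IsPModular p M) (hQN : Q ≤ N)
    {d : Set (IrrCharacter N)} (hdQ : IsDefectGroup p M d (Q.subgroupOf N))
    {e : Set (IrrCharacter ↥(normalizer (Q : Set G) ⊓ N))}
    (h : IsInducedBlockIn M N (normalizer (Q : Set G) ⊓ N) e d) :
    Br Q (sb M N d) = sb M _ e := by
  obtain ⟨he, hd, hi⟩ := (isInducedBlockIn_iff hM inf_le_right).1 h
  have h1 := trunc_eq_amb_of_indAlong hM.1 (natCast_F hM) (inclusion_injective _)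
    (by rw [inclusion_range, inf_subgroupOf_right, subgroupOf_normalizer_eq hQN])
    (isBlk_eB hM he) (isBlk_eB hM hd) (hdQ.isDef hM hd) hi
  have h2 := Br_map_amb N.subtype_injective (Q.subgroupOf N) (eB M d)
  rw [map_subgroupOf_of_le hQN] at h2
  rw [sb, h2]
  change amb _ (trunc _ _) = _
  rw [h1, amb_amb]
  rfl

end CL.Blk
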