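import Cfsg.Agent.BLK.BaerInv

/-! Isaacs' correspondence by odd multiplicities for an abelian section of a group of odd order. -/

set_option autoImplicit false
open Cfsg Subgroup
open scoped ComplexConjugate commutatorElement

namespace CL.Baer
open CL.Char CL.Glb CL.OW

theorem corr_transfer {G C G' C' : Type*} [Group G] [Group C] [Group G'] [Group C'] [Fintype C]
    [Fintype C'] {p : ℕ} {j : C →* G} {j' : C' →* G'} {IG : (G → ℂ) → Prop} {IC : (C → ℂ) → Prop}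
    {IG' : (G' → ℂ) → Prop} {IC' : (C' → ℂ) → Prop} (h : Corr p j' IG' IC')
    (r : (G → ℂ) → (G' → ℂ) → Prop) (t : (C → ℂ) → (C' → ℂ) → Prop)
    (r1 : ∀ χ, IsIrrCharacter G χ → IG χ → ∃ χ', IsIrrCharacter G' χ' ∧ IG' χ' ∧ r χ χ')
    (r2 : ∀ χ', IsIrrCharacter G' χ' → IG' χ' → ∃ χ, IsIrrCharacter G χ ∧ IG χ ∧ r χ χ')
    (r3 : ∀ χ₁ χ₂ χ', IsIrrCharacter G χ₁ → IsIrrCharacter G χ₂ → IsIrrCharacter G' χ' → IG' χ' →
      r χ₁ χ' → r χ₂ χ' → χ₁ = χ₂)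
    (t1 : ∀ χ, IsIrrCharacter C χ → IC χ → ∃ χ', IsIrrCharacter C' χ' ∧ IC' χ' ∧ t χ χ')
    (t2 : ∀ χ', IsIrrCharacter C' χ' → IC' χ' → ∃ χ, IsIrrCharacter C χ ∧ IC χ ∧ t χ χ')
    (t3 : ∀ χ₁ χ₂ χ', IsIrrCharacter C χ₁ → IsIrrCharacter C χ₂ → IsIrrCharacter C' χ' → IC' χ' →
      t χ₁ χ' → t χ₂ χ' → χ₁ = χ₂)
    (hm : ∀ χ χ' ξ ξ', IsIrrCharacter G χ → IsIrrCharacter G' χ' → IG' χ' → IsIrrCharacter C ξ →
      IsIrrCharacter C' ξ' → IC' ξ' → r χ χ' → t ξ ξ' →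
      classInner (fun c => χ (j c)) ξ = classInner (fun c => χ' (j' c)) ξ') : Corr p j IG IC := by
  refine ⟨fun χ hχ hi => ?_, fun χ hχ hi ξ₁ ξ₂ h1 i1 h2 i2 a1 a2 => ?_, fun χ hχ hi ξ hξ hj => ?_,
    fun χ₁ χ₂ h1 i1 h2 i2 ξ hξ hj a1 a2 => ?_, fun ξ hξ hj => ?_⟩
  · obtain ⟨χ', b1, b2, b3⟩ := r1 χ hχ hi
    obtain ⟨ξ', c1, c2, c3⟩ := h.ex χ' b1 b2
    obtain ⟨ξ, d1, d2, d3⟩ := t2 ξ' c1 c2
    exact ⟨ξ, d1, d2, by rwa [Glb.Rel, hm _ _ _ _ hχ b1 b2 d1 c1 c2 b3 d3]⟩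
  · obtain ⟨χ', b1, b2, b3⟩ := r1 χ hχ hi
    obtain ⟨η₁, c1, c2, c3⟩ := t1 ξ₁ h1 i1
    obtain ⟨η₂, d1, d2, d3⟩ := t1 ξ₂ h2 i2
    rw [Glb.Rel, hm _ _ _ _ hχ b1 b2 h1 c1 c2 b3 c3] at a1
    rw [Glb.Rel, hm _ _ _ _ hχ b1 b2 h2 d1 d2 b3 d3] at a2
    exact t3 _ _ _ h1 h2 d1 d2 (h.uniq χ' b1 b2 _ _ c1 c2 d1 d2 a1 a2 ▸ c3) d3
  · obtain ⟨χ', b1, b2, b3⟩ := r1 χ hχ hi
    obtain ⟨η, c1, c2, c3⟩ := t1 ξ hξ hj
    rw [hm _ _ _ _ hχ b1 b2 hξ c1 c2 b3 c3]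
    exact h.pm χ' b1 b2 η c1 c2
  · obtain ⟨η, b1, b2, b3⟩ := t1 ξ hξ hj
    obtain ⟨η₁, c1, c2, c3⟩ := r1 χ₁ h1 i1
    obtain ⟨η₂, d1, d2, d3⟩ := r1 χ₂ h2 i2
    rw [Glb.Rel, hm _ _ _ _ h1 c1 c2 hξ b1 b2 c3 b3] at a1
    rw [Glb.Rel, hm _ _ _ _ h2 d1 d2 hξ b1 b2 d3 b3] at a2
    exact r3 _ _ _ h1 h2 d1 d2 (h.inj _ _ c1 c2 d1 d2 η b1 b2 a1 a2 ▸ c3) d3
  · obtain ⟨ξ', b1, b2, b3⟩ := t1 ξ hξ hj
    obtain ⟨χ', c1, c2, c3⟩ := h.surj ξ' b1 b2
    obtain ⟨χ, d1, d2, d3⟩ := r2 χ' c1 c2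
    exact ⟨χ, d1, d2, by rwa [Glb.Rel, hm _ _ _ _ d1 c1 c2 hξ b1 b2 d3 b3]⟩

variable {Γ : Type*} [Group Γ] {L K H G S U : Subgroup Γ} {n : ℕ}

/-- Lying over the linear character `μ` of `L`. -/
def Y (U : Subgroup Γ) (μ : L →* ℂˣ) (β : U → ℂ) : Prop :=
  ∀ (l : U) (hl : (l : Γ) ∈ L) x, β (l * x) = μ ⟨l, hl⟩ * β x

/-- The hypotheses on the action of `S`. -/
structure Act (n : ℕ) (L K H G S : Subgroup Γ) : Prop extends Cmp n L K H G where
  nL : G ⊔ S ≤ normalizer (L : Set Γ)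
  nK : G ⊔ S ≤ normalizer (K : Set Γ)
  sG : S ≤ normalizer (G : Set Γ)
  cop : (L.relIndex S).Coprime n
  comm : ∀ x ∈ K, ∀ y ∈ K, ⁅x, y⁆ ∈ L
  fix : ∀ x ∈ H, ∀ s ∈ S, s * x * s⁻¹ * x⁻¹ ∈ L
  fpf : ∀ Z, L ≤ Z → Z ≤ K → S ≤ normalizer (Z : Set Γ) → Z ≤ L ⊔ ⁅Z, S⁆
  solv : SolvMod G L

theorem Cmp.LK (h : Cmp n L K H G) : L ≤ K := h.inf.le.trans inf_le_left

theorem Cmp.LH (h : Cmp n L K H G) : L ≤ H := h.inf.le.trans inf_le_right

theorem Act.pow_mem (h : Act n L K H G S) {s : Γ} (hs : s ∈ S) : s ^ L.relIndex S ∈ L := by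
  have := normal_subgroupOf_of_le_normalizer (le_sup_right.trans h.nL)
  exact (L.subgroupOf S).pow_index_mem ⟨s, hs⟩

variable [Finite Γ]

theorem Y_of_ov {h : L ≤ U} {μ : L →* ℂˣ} (hU : U ≤ stab L fun l => μ l) {β : U → ℂ}
    (hβ : IsIrrCharacter U β) (ho : Ov h β fun l => μ l) : Y U μ β := fun l hl x => by
  have h1 := res_eq_of_IS (isIrrCharacter_hom μ) hU hβ ho
  have h2 : β l = μ ⟨l, hl⟩ * β 1 := by
    rw [show β l = _ from h1 ⟨l, hl⟩, show β 1 = _ from h1 1, map_one, Units.val_one, mul_one,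
      mul_comm]
  refine mul_left_cancel₀ hβ.one_ne_zero ?_
  rw [apply_mul_of_mem_charCenter (hβ.isCharacter.mem_charCenter'.2 (by
    rw [h2, norm_mul, norm_hom, one_mul])), h2]
  ring

theorem Act.IS_iff [L.Normal] [K.Normal] (hA : Act n L K H G S) {μ : L →* ℂˣ}
    {b : K →* K →* ℂˣ} {c : K → ℂˣ} (h : Dat n μ b) (hc : Fam μ b c)
    (hS : ∀ s ∈ S, ∀ k, c (MulAut.conjNormal s k) = c k)
    (hG : ∀ g ∈ G, ∀ z ∈ b.ker, c (MulAut.conjNormal g z) = c z) {χ : G → ℂ}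
    (hχ : IsIrrCharacter G χ) : IS S G χ ∧ Y G μ χ ↔ X hA.KG b c χ := by
  have h1 : ∀ (u : Γ) z, MulAut.conjNormal u z ∈ b.ker ↔ z ∈ b.ker := fun u z => by
    simp only [MonoidHom.mem_ker, MonoidHom.ext_iff]
    rw [(MulAut.conjNormal u).surjective.forall]
    simp only [h.cj, MonoidHom.one_apply]
  have hL : ∀ l : K, (l : Γ) ∈ L → l ∈ b.ker := fun l hl => MonoidHom.ext (h.left l hl)
  refine ⟨fun ⟨hi, hY⟩ => ?_, fun hX => ⟨fun s hs => (mem_stab_of_relFix hA.KG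
    le_normalizer_of_normal (hA.sG hs) (le_normalizer_of_normal (mem_top s)) (fun g hg => ?_) hA.cop
    (h.le (hA.pow_mem hs)) (fun g hg => h.le (hA.pow g hg)) hχ.isCharacter fun θ hθ ho =>
      ⟨le_normalizer_of_normal (mem_top s), fun x y e => ?_⟩).2, fun l hl x => ?_⟩⟩
  · let Z := b.ker.map K.subtype
    have hZ : Z ≤ K := map_subtype_le _
    have hm : ∀ z : Z, inclusion hZ z ∈ b.ker := fun ⟨_, z, hz, rfl⟩ => hz
    have : Z.Normal := ⟨fun _ ⟨z, hz, e⟩ u => ⟨_, (h1 u z).2 hz, e ▸ rfl⟩⟩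
    have hLZ : L ≤ Z := fun l hl => ⟨⟨l, h.le hl⟩, hL _ hl, rfl⟩
    let ζ : Z →* ℂˣ := MonoidHom.mk' (fun z => c (inclusion hZ z)) fun x y => by
      rw [map_mul, h.mul_ker hc (hm y)]
    obtain ⟨η, hη, ho, hj⟩ := exists_IS_under (hZ.trans hA.KG) le_normalizer_of_normal hA.sG
      le_normalizer_of_normal hA.cop (fun s hs => hLZ (hA.pow_mem hs))
      (fun g hg => hLZ (hA.pow g hg)) (Or.inr (hA.solv.imp fun _ h s hs => hLZ (h s hs))) hχ hi
    obtain ⟨lam, h2, rfl⟩ := exists_hom_mul_of_ov (h := hLZ) (commutator_le.2 fun x hx y hy =>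
      hA.comm x (hZ hx) y (hZ hy)) (isIrrCharacter_hom ζ) hη (isIrrCharacter_hom μ)
      (ov_of_res (isIrrCharacter_hom μ) fun l => congrArg Units.val (hc.ext _ l.2)) (by
        rw [Ov, show (fun l => η (inclusion hLZ l)) = η 1 • fun l => (μ l : ℂ) from funext fun l =>
          (congrArg η (mul_one _).symm).trans ((apply_mul_of_constituent (hχ.isClassFunction.comp _)
            hη ho (norm_hom μ l) (fun x => hY ⟨l, hA.KG (h.le l.2)⟩ l.2 (inclusion _ x)) 1).trans (mul_comm ..)),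
          inner_smul_self (isIrrCharacter_hom μ)]
        exact hη.one_ne_zero)
    have h3 := eq_one_of_inv (hA.fpf Z hLZ hZ le_normalizer_of_normal) hLZ le_normalizer_of_normal
      lam h2 fun s hs z => Units.ext (mul_right_cancel₀ (ζ z).ne_zero (Eq.trans (congrArg _
        (congrArg Units.val (hS s hs (inclusion hZ z)).symm)) (hj s hs z _ rfl)))
    simp only [h3, Units.val_one, one_mul] at ho
    exact fun z hz => Y_of_ov (fun g hg => ⟨le_normalizer_of_normal (mem_top g), fun x y e =>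
      congrArg Units.val ((congrArg c (Subtype.ext e)).trans (hG g hg _ (hm x)))⟩) hχ ho
      (inclusion hA.KG z) ⟨z, hz, rfl⟩
  · obtain ⟨k, hk, x, hx, rfl⟩ := hA.gen g hg
    simpa [mul_assoc] using K.mul_mem (K.mul_mem (Normal.conj_mem ‹_› k hk s)
      (h.le (hA.fix x hx s hs))) (K.inv_mem hk)
  · have h2 : ∀ z ∈ b.ker, ∀ k, θ (z * k) = c z * θ k := fun z hz =>
      apply_mul_of_constituent (hχ.isClassFunction.comp _) hθ ho (h.norm_eq hc z) fun k => by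
        rw [map_mul, hX z hz]
    have h3 : ∀ k, k ∉ b.ker → θ k = 0 := fun k hk => by_contra fun h0 => hk (MonoidHom.ext fun y => by
      obtain ⟨h4, h5⟩ := h.sq y k
      have h6 := h2 ⟨_, h.le h4⟩ (hL _ h4) k
      rw [show (⟨_, h.le h4⟩ : K) * k = y * k * y⁻¹ from Subtype.ext (by
        simp [commutatorElement_def]), hθ.isClassFunction, hc.ext _ h4, h5, eq_comm,
        mul_eq_right₀ h0, Units.val_eq_one] at h6
      rw [h.symm y k]
      exact inv_mem (mem_of_coprime_pow_mem ⊥ hA.odd.coprime_two_left h6 (by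
        rw [← map_pow, h.right (h.pow k k.2)]; exact one_mem _)))
    rw [show y = MulAut.conjNormal s x from Subtype.ext e]
    by_cases hx : x ∈ b.ker
    · rw [← mul_one (MulAut.conjNormal s x), h2 _ ((h1 s x).2 hx), hS s hs, ← h2 x hx, mul_one]
    · rw [h3 x hx, h3 _ (mt (h1 s x).1 hx)]
  · rw [← hc.ext ⟨l, h.le hl⟩ hl]
    exact hX ⟨l, h.le hl⟩ (hL _ hl) x

theorem Act.corr_lin [L.Normal] [K.Normal] (hA : Act n L K H G S) {μ : L →* ℂˣ}
    (hi : ∀ u l, μ (MulAut.conjNormal u l) = μ l) :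
    Corr 2 (inclusion hA.HG) (fun χ => IS S G χ ∧ Y G μ χ) (Y H μ) := by
  obtain ⟨b, h⟩ := exists_dat hA.odd hA.LK (fun k hk => hA.pow k (hA.KG hk)) hi hA.comm
  obtain ⟨c, hc, hS⟩ := h.exists_fam hA.cop hA.odd.pos.ne'
  have hH := fun x hx => h.inv_of_fix hc (hA.fpf K hA.LK le_rfl le_normalizer_of_normal) hS
    (hA.fix x hx)
  have h1 := fun χ => hA.IS_iff h hc hS (h.cj_ker hc hA.toCmp hH) (χ := χ)
  exact corr_transfer (h.corr hc hA.toCmp hH) Eq Eq (fun χ hχ a => ⟨χ, hχ, (h1 χ hχ).1 a, rfl⟩)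
    (fun χ hχ a => ⟨χ, hχ, (h1 χ hχ).2 a, rfl⟩) (fun _ _ _ _ _ _ _ a b => a.trans b.symm)
    (fun χ hχ a => ⟨χ, hχ, a, rfl⟩) (fun χ hχ a => ⟨χ, hχ, a, rfl⟩)
    (fun _ _ _ _ _ _ _ a b => a.trans b.symm) fun _ _ _ _ _ _ _ _ _ _ a b => a ▸ b ▸ rfl

section cover
variable {Δ : Type*} [Group Δ] {f : Δ →* Γ} {φ : L → ℂ} {θ : Δ → ℂ} {μ : L.comap f →* ℂˣ}

/-- A cover on which the invariant character `φ` is a linear character times a restriction. -/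
structure Cov (f : Δ →* Γ) (φ : L → ℂ) (θ : Δ → ℂ) (μ : L.comap f →* ℂˣ) : Prop where
  norm : (L.comap f).Normal
  char : IsCharacter Δ θ
  irr : IsIrrCharacter (L.comap f) fun x => θ x
  inv : ∀ u l, μ (MulAut.conjNormal u l) = μ l
  val : ∀ x : L.comap f, θ x * μ x = φ ⟨f x, x.2⟩
  ker : ∀ x : L.comap f, f x = 1 → ∀ γ, θ (x * γ) * μ x = θ γ

omit [Finite Γ] in
theorem surj_comap (hU : U ≤ f.range) : Function.Surjective (f.subgroupComap U) := fun u =>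
  (hU u.2).elim fun x hx => ⟨⟨x, show f x ∈ U from hx ▸ u.2⟩, Subtype.ext hx⟩

omit [Finite Γ] in
theorem Act.comap (h : Act n L K H G S) (hf : f.range = G ⊔ S) :
    Act n (L.comap f) (K.comap f) (H.comap f) (G.comap f) (S.comap f) := by
  have h1 : ∀ {A B : Subgroup Γ}, A ≤ normalizer (B : Set Γ) →
      A.comap f ≤ normalizer (B.comap f : Set Δ) := fun hA =>
    (comap_mono hA).trans (le_normalizer_comap f)
  refine ⟨⟨h.odd, comap_mono h.KG, comap_mono h.HG, fun g hg => ?_, fun g hg => ?_,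
    by rw [h.inf, comap_inf]⟩, (comap_sup_comap_le ..).trans (h1 h.nL),
    (comap_sup_comap_le ..).trans (h1 h.nK), h1 h.sG, ?_, fun x hx y hy => ?_, fun x hx s hs => ?_,
    fun Z h2 h3 h4 z hz => ?_, h.solv.imp fun k hk s hs => hk _
      (map_derivedSeries_le_derivedSeries (f.subgroupComap G) k ⟨s, hs, rfl⟩)⟩
  · simpa using h.pow _ hg
  · obtain ⟨k, hk, x, hx, e⟩ := h.gen _ hg
    obtain ⟨k, rfl⟩ := hf.ge (mem_sup_left (h.KG hk))
    exact ⟨k, hk, k⁻¹ * g, by simpa [e] using hx, by simp⟩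
  · rw [relIndex_comap, map_comap_eq_self (hf ▸ le_sup_right)]; exact h.cop
  · simpa [map_commutatorElement] using h.comm _ hx _ hy
  · simpa using h.fix _ hx _ hs
  · have h5 : L ≤ f.range := hf ▸ (h.LK.trans h.KG).trans le_sup_left
    have h6 := h.fpf (Z.map f) (map_comap_eq_self h5 ▸ map_mono h2) (map_le_iff_le_comap.2 h3)
      (map_comap_eq_self (hf.ge.trans' le_sup_right) ▸ (map_mono h4).trans (le_normalizer_map f))
      ⟨z, hz, rfl⟩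
    rwa [← map_comap_eq_self h5, ← map_comap_eq_self (hf.ge.trans' le_sup_right),
      ← map_commutator, ← Subgroup.map_sup, ← mem_comap, comap_map_eq_self
        (le_sup_left.trans' (ker_le_comap f L))] at h6

/-- `χ` corresponds to `β` on the cover. -/
def R (f : Δ →* Γ) (θ : Δ → ℂ) (U : Subgroup Γ) (χ : U → ℂ) (β : U.comap f → ℂ) : Prop :=
  ∀ x, χ (f.subgroupComap U x) = β x * θ x

namespace Cov
variable [Finite Δ] (h : Cov f φ θ μ) (hL : L ≤ U) (hU : U ≤ f.range)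
include h hL hU

theorem inner {a b : U → ℂ} {a' b' : U.comap f → ℂ} (ha : Y _ μ a') (hb : Y _ μ b')
    (h1 : R f θ U a a') (h2 : R f θ U b b') : classInner a b = classInner a' b' := by
  have := h.norm
  rw [← classInner_comp_surjective _ (surj_comap hU), funext h1, funext h2]
  exact classInner_mul_ext (h.char.res _) (res_subgroupOf_irr (comap_mono hL) h.irr) fun l hl =>
    ⟨_, norm_hom μ ⟨l, hl⟩, ha l hl, hb l hl⟩

omit hU [Finite Γ] in
theorem mul_irr {β : U.comap f → ℂ} (hβ : IsIrrCharacter _ β) (hY : Y _ μ β) :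
    IsIrrCharacter _ (β * fun x : U.comap f => θ x) := by
  have := h.norm
  exact mul_ext_irr (h.char.res _) (res_subgroupOf_irr (comap_mono hL) h.irr) hβ fun l hl =>
    ⟨_, norm_hom μ ⟨l, hl⟩, hY l hl⟩

theorem down (hφ : IsIrrCharacter L φ) {β : U.comap f → ℂ} (hβ : IsIrrCharacter _ β)
    (hY : Y _ μ β) : ∃ χ, IsIrrCharacter U χ ∧ Ov hL χ φ ∧ R f θ U χ β := by
  have h1 : ∀ x : L.comap f, β (inclusion (comap_mono hL) x) * θ x = β 1 * φ ⟨f x, x.2⟩ := fun x => by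
    rw [← h.val, ← mul_one (inclusion _ x), hY _ x.2, mul_comm (θ x), ← mul_assoc, mul_comm (β 1)]
    rfl
  obtain ⟨χ, hχ, h2⟩ := (h.mul_irr hL hβ hY).exists_deflate _ (surj_comap hU) fun z hz => by
    have h3 : f z = 1 := congrArg Subtype.val hz
    have h4 : (z : Δ) ∈ L.comap f := by rw [mem_comap, h3]; exact one_mem L
    refine (h1 ⟨z, h4⟩).trans (Eq.trans ?_ (h1 1).symm)
    exact congrArg (β 1 * φ ·) (Subtype.ext (h3.trans (map_one f).symm))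
  refine ⟨χ, hχ, ?_, fun x => (congrFun h2 x).symm⟩
  rw [Ov, show (fun l => χ (inclusion hL l)) = β 1 • φ from funext fun l => by
    obtain ⟨x, rfl⟩ := surj_comap (hL.trans hU) l
    exact (congrFun h2 (inclusion (comap_mono hL) x)).symm.trans (h1 x), inner_smul_self hφ]
  exact hβ.one_ne_zero

theorem up {χ : U → ℂ} (hχ : IsIrrCharacter U χ) (ho : Ov hL χ φ) :
    ∃ β, IsIrrCharacter _ β ∧ Y _ μ β ∧ R f θ U χ β := by
  have := h.norm
  have h1 := hχ.comp_surjective _ (surj_comap hU)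
  obtain ⟨β, hβ, h2, h3⟩ := exists_constituent_comp (inclusion (comap_mono (f := f) hL))
    (h1.isClassFunction.mul (h.char.res _).isClassFunction.conj) (θ := fun x => μ x) fun h0 => ho (by
      rw [← classInner_comp_surjective _ (surj_comap (hL.trans hU)), ← h0]
      exact (congrArg _ (funext fun x => (h.val x).symm)).trans (classInner_mul_right ..))
  have h4 := Y_of_ov (fun g _ => ⟨le_normalizer_of_normal (mem_top g), fun a b e =>
    congrArg Units.val ((congrArg μ (Subtype.ext e)).trans (h.inv g a))⟩) hβ h3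
  exact ⟨β, hβ, h4, fun x => (congrFun (h1.eq_of_inner_ne_zero (h.mul_irr hL hβ h4) (by
    rw [mul_comm, classInner_mul_right]; exact h2)) x)⟩

end Cov

theorem Act.corr_cov [Finite Δ] (hA : Act n L K H G S) (hf : f.range = G ⊔ S) (h : Cov f φ θ μ)
    (hφ : IsIrrCharacter L φ) : Corr 2 (inclusion hA.HG)
      (fun χ => IS S G χ ∧ Ov (hA.LK.trans hA.KG) χ φ) (Ov hA.LH · φ) := by
  have := h.norm
  have : (K.comap f).Normal := normalizer_eq_top_iff.1 (eq_top_iff.2 fun x _ =>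
    le_normalizer_comap f (hA.nK (hf.le ⟨x, rfl⟩)))
  have hG : G ≤ f.range := hf ▸ le_sup_left
  have hLG := hA.LK.trans hA.KG
  have hB := hA.comap hf
  have hcj : ∀ s x : Δ, f (s * x * s⁻¹) = f s * f x * (f s)⁻¹ := by simp
  refine corr_transfer (hB.corr_lin h.inv) (R f θ G) (R f θ H) (fun χ hχ a => ?_)
    (fun β hβ a => ?_) (fun _ _ _ _ _ _ _ a b => ?_) (fun χ hχ => h.up hA.LH (hA.HG.trans hG) hχ)
    (fun β hβ => h.down hA.LH (hA.HG.trans hG) hφ hβ) (fun _ _ _ _ _ _ _ a b => ?_)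
    fun χ β ξ ξ' _ _ a _ _ b r t => h.inner hA.LH (hA.HG.trans hG)
      (fun l hl x => a.2 (inclusion hB.HG l) hl (inclusion hB.HG x)) b (fun x => r (inclusion hB.HG x)) t
  · obtain ⟨β, hβ, h1, h2⟩ := h.up hLG hG hχ a.2
    refine ⟨β, hβ, ⟨IS_of_cj hB.sG fun s hs => (cjI (hB.sG hs) ⟨β, hβ⟩).2.eq_of_inner_ne_zero hβ ?_,
      h1⟩, h2⟩
    refine (h.inner hLG hG (fun l hl x => ?_) h1 (fun x => ?_) h2).symm.trans_ne
      (hχ.inner_self.trans_ne one_ne_zero)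
    · rw [← h.inv s]
      exact (congrArg β (map_mul _ l x)).trans (h1 _ (Normal.conj_mem ‹_› _ hl s) _)
    · rw [← h.char.isClassFunction x s, ← a.1 (f s) hs (f.subgroupComap G x)
        (f.subgroupComap G (cjE _ (hB.sG hs) x)) (hcj s x)]
      exact h2 _
  · obtain ⟨χ, hχ, h1, h2⟩ := h.down hLG hG hφ hβ a.2
    refine ⟨χ, hχ, ⟨fun s hs g g' e => ?_, h1⟩, h2⟩
    obtain ⟨s, rfl⟩ := hf.ge (mem_sup_right hs)
    obtain ⟨g, rfl⟩ := surj_comap hG g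
    rw [show g' = f.subgroupComap G (cjE _ (hB.sG hs) g) from Subtype.ext (e.trans (hcj s g).symm),
      h2, h2, a.1 s hs g _ rfl, coe_cjE, h.char.isClassFunction]
  · exact comp_surjective_injective (surj_comap hG) ((funext a).trans (funext b).symm)
  · exact comp_surjective_injective (surj_comap (hA.HG.trans hG)) ((funext a).trans (funext b).symm)

end cover

theorem Act.corr_inv (hA : Act n L K H G S) {φ : L → ℂ} (hφ : IsIrrCharacter L φ)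
    (hi : G ⊔ S ≤ stab L φ) : Corr 2 (inclusion hA.HG)
      (fun χ => IS S G χ ∧ Ov (hA.LK.trans hA.KG) χ φ) (Ov hA.LH · φ) := by
  have := normal_subgroupOf_of_le_normalizer hA.nL
  obtain ⟨Δ, _, _, π, θ, μ, hπ, -, h1, h2, h3, h4, -, -, h5⟩ := exists_central_ext'
    (L.subgroupOf (G ⊔ S)) _ (hφ.subOf ((hA.LK.trans hA.KG).trans le_sup_left))
    fun g l => (hi g.2).2 _ _ rfl
  exact hA.corr_cov (f := (G ⊔ S).subtype.comp π) (μ := μ) (by
    rw [MonoidHom.range_comp, MonoidHom.range_eq_top.2 hπ, ← MonoidHom.range_eq_map, range_subtype])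
    ⟨this.comap π, h1.isCharacter, h2, h3, h4, fun x hx => h5 x (Subtype.ext hx)⟩ hφ

theorem inner_eq_inner_res {T : Subgroup Γ} {h : L ≤ T} (h' : T ≤ G)
    (hN : G ≤ normalizer (L : Set Γ)) {ν : L → ℂ} (hν : IsIrrCharacter L ν)
    (hT : G ⊓ stab L ν ≤ T) {ψ : T → ℂ} (hψ : IsIrrCharacter T ψ) (h1 : Ov h ψ ν)
    {χ : G → ℂ} (hχ : IsIrrCharacter G χ) (h2 : Ov h' χ ψ) {a : G → ℂ} (ha : IsClassFunction G a) :
    classInner a χ = classInner (fun x => a (inclusion h' x)) ψ := by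
  have := (normal_subgroupOf_iff_le_normalizer (h.trans h')).mpr hN
  rw [← (clifford_corr_aux (fun _ hx => h hx : L.subgroupOf G ≤ T.subgroupOf G)
    (hν.subOf (h.trans h')) (by
      rw [inertia_subOf_eq (h.trans h') hN]
      exact fun g hg => hT ⟨g.2, hg⟩) (hψ.subOf h') (fun h0 => h1 ((classInner_subOf
        (h.trans h') (fun n => ψ (inclusion h n)) ν).symm.trans h0)) hχ
    (by rwa [classInner_res_subOf h'])).1, classInner_indFun_right _ ha, classInner_res_subOf h']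
  rfl

theorem inner_clifford {B T : Subgroup Γ} {h : L ≤ B} (h' : B ≤ T) (h'' : T ≤ G)
    (hN : G ≤ normalizer (L : Set Γ)) {ν : L → ℂ} (hν : IsIrrCharacter L ν)
    (hT : G ⊓ stab L ν ≤ T) {ψ : T → ℂ} (hψ : IsIrrCharacter T ψ) (h1 : Ov (h.trans h') ψ ν)
    {χ : G → ℂ} (hχ : IsIrrCharacter G χ) (h2 : Ov h'' χ ψ) {ξ : B → ℂ} (hξ : IsIrrCharacter B ξ)
    (h3 : Ov h ξ ν) : classInner (fun x => χ (inclusion (h'.trans h'') x)) ξ =
      classInner (fun x => ψ (inclusion h' x)) ξ := by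
  have h4 := (inner_eq_inner_res h'' hN hν hT hψ h1 hχ h2 hχ.isClassFunction).symm.trans
    hχ.inner_self
  have h5 := (mult_comp (inclusion h') (hχ.isCharacter.comp (inclusion h'')) hξ.isCharacter).trans
    (Finset.sum_eq_single ⟨ψ, hψ⟩ (fun η _ hη => by_contra fun h0 => hη (Subtype.ext
    ((clifford_amb h'' hN hν hT hψ h1 hχ h2).2 _ η.2 (Ov.trans η.2.isCharacter hξ hν.isCharacter
      (fun h6 => right_ne_zero_of_mul h0 (mult_eq (h6.trans Nat.cast_zero.symm))) h3)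
      fun h6 => left_ne_zero_of_mul h0 (mult_eq (h6.trans Nat.cast_zero.symm))))) (by simp))
  rw [mult_eq (h4.trans Nat.cast_one.symm), one_mul] at h5
  rw [inner_eq_mult (hχ.isCharacter.comp _) hξ.isCharacter,
    inner_eq_mult (hψ.isCharacter.comp _) hξ.isCharacter, ← h5]
  rfl

namespace Act
variable (hA : Act n L K H G S) {φ : L → ℂ} (hφ : IsIrrCharacter L φ) (hi : S ≤ stab L φ)
include hA hφ hi

omit [Finite Γ] in
theorem cj_mem {x : Γ} (hx : x ∈ H) {s : Γ} (hs : s ∈ S) : x * s * x⁻¹ ∈ stab L φ := by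
  simpa [mul_assoc] using mul_mem (le_stab_self L hφ.isClassFunction (inv_mem (hA.fix x hx s hs)))
    (hi hs)

omit [Finite Γ] in
theorem gen_stab {g : Γ} (hg : g ∈ G) (h : ∀ s ∈ S, g * s * g⁻¹ ∈ stab L φ) :
    ∃ k ∈ K ⊓ stab L φ, ∃ x ∈ H, g = k * x := by
  obtain ⟨k, hk, x, hx, rfl⟩ := hA.gen g hg
  have hL := le_inf hA.LK (le_stab_self L hφ.isClassFunction)
  have h1 : K ≤ normalizer ((K ⊓ stab L φ : Subgroup Γ) : Set Γ) := le_norm_of_conj fun k hk t ht =>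
    by simpa [commutatorElement_def] using mul_mem (hL (hA.comm k hk t ht.1)) ht
  have hSK := le_sup_right.trans hA.nK
  have h2 := le_norm_stab hSK (le_sup_right.trans hA.nL) fun s hs => (hi hs).2
  refine ⟨k, (hA.fpf (relCent K _ h1 S) (fun l hl => mem_relCent.2 ⟨hA.LK hl, fun s hs => hL
    (mul_mem (conj_mem_of_norm (hi hs).1 hl) (inv_mem hl))⟩) relCent_le (le_norm_relCent' h1 hSK h2
      fun u hu t ht => mul_mem (mul_mem (inv_mem hu) ht) hu)).trans (sup_le hL (commutator_le.2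
        fun z hz s hs => ?_)) (mem_relCent.2 ⟨hk, fun s hs => ⟨K.mul_mem (conj_mem_of_norm (hSK hs) hk)
          (K.inv_mem hk), ?_⟩⟩), x, hx, rfl⟩
  · simpa [commutatorElement_def, mul_assoc] using inv_mem ((mem_relCent.1 hz).2 s hs)
  · simpa [mul_assoc] using (stab L φ).mul_mem (hi hs) (mul_mem (inv_mem (h s hs))
      (hL (conj_mem_of_norm (hA.nL (mem_sup_left (hA.KG hk))) (inv_mem (hA.fix x hx s hs)))).2)

theorem restrict : Act n L (K ⊓ stab L φ) (H ⊓ stab L φ) (G ⊓ stab L φ) S := by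
  have h1 := fun {U : Subgroup Γ} (h : S ≤ normalizer (U : Set Γ)) =>
    le_norm_stab h (le_sup_right.trans hA.nL) fun s hs => (hi hs).2
  refine ⟨⟨hA.odd, inf_le_inf_right _ hA.KG, inf_le_inf_right _ hA.HG, fun g hg => hA.pow g hg.1,
    fun g hg => ?_, ?_⟩, (sup_le_sup_right inf_le_left S).trans hA.nL, sup_le (le_norm_of_conj
      fun g hg k hk => ⟨conj_mem_of_norm (hA.nK (mem_sup_left hg.1)) hk.1, (stab L φ).mul_mem
        (mul_mem hg.2 hk.2) ((stab L φ).inv_mem hg.2)⟩) (h1 (le_sup_right.trans hA.nK)), h1 hA.sG, hA.cop,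
    fun x hx y hy => hA.comm x hx.1 y hy.1, fun x hx => hA.fix x hx.1,
    fun Z a b => hA.fpf Z a (b.trans inf_le_left), hA.solv.mono inf_le_left⟩
  · obtain ⟨k, hk, x, hx, rfl⟩ := hA.gen_stab hφ hi hg.1 fun s hs =>
      mul_mem (mul_mem hg.2 (hi hs)) ((stab L φ).inv_mem hg.2)
    exact ⟨k, hk, x, ⟨hx, ((stab L φ).mul_mem_cancel_left hk.2).1 hg.2⟩, rfl⟩
  · rw [← inf_inf_distrib_right, ← hA.inf, inf_of_le_left (le_stab_self L hφ.isClassFunction)]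

theorem corr_ov : Corr 2 (inclusion hA.HG)
    (fun χ => IS S G χ ∧ Ov (hA.LK.trans hA.KG) χ φ) (Ov hA.LH · φ) := by
  have hB := hA.restrict hφ hi
  have hG := le_sup_left.trans hA.nL
  have hH := hA.HG.trans hG
  have hLG := hB.LK.trans hB.KG
  have hcj : ∀ s (hs : s ∈ S), (fun l => φ (cjE L (hi hs).1 l)) = φ := fun s hs =>
    (mem_stab_iff _).1 (hi hs)
  refine corr_transfer (hB.corr_inv hφ (sup_le inf_le_right hi)) (Ov inf_le_left) (Ov inf_le_left)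
    (fun χ hχ a => ?_) (fun ψ hψ a => ?_) (fun _ _ ψ a b hψ c d e => ?_) (fun χ hχ a => ?_)
    (fun ψ hψ a => ?_) (fun _ _ ψ a b hψ c d e => ?_) fun χ χ' ξ ξ' a b c d e f g h => ?_
  · obtain ⟨ψ, hψ, h1, h2⟩ := exists_between (h := hLG) (h' := inf_le_left) hχ.isCharacter
      hφ.isCharacter a.2
    refine ⟨ψ, hψ, ⟨IS_of_cj hB.sG fun s hs => ?_, h2⟩, h1⟩
    have h3 := h2.cj (hB.sG hs) (hi hs).1
    have h4 := h1.cj (hA.sG hs) (hB.sG hs)
    rw [hcj s hs] at h3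
    rw [a.1.cj hs] at h4
    exact (clifford_amb inf_le_left hG hφ le_rfl hψ h2 hχ h1).2 _ (cjI (hB.sG hs) ⟨ψ, hψ⟩).2 h3 h4
  · obtain ⟨χ, hχ, h1, h2⟩ := exists_unique_ov inf_le_left hG hφ le_rfl hψ a.2
    refine ⟨χ, hχ, ⟨IS_of_cj hA.sG fun s hs => ?_, h1.trans hχ.isCharacter hψ hφ.isCharacter a.2⟩, h1⟩
    have h3 := h1.cj (hA.sG hs) (hB.sG hs)
    rw [a.1.cj hs] at h3
    exact h2 _ (cjI (hA.sG hs) ⟨χ, hχ⟩).2 h3
  · obtain ⟨χ, -, -, h2⟩ := exists_unique_ov inf_le_left hG hφ le_rfl hψ c.2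
    exact (h2 _ a d).trans (h2 _ b e).symm
  · obtain ⟨ψ, hψ, h1, h2⟩ := exists_between (h := hB.LH) (h' := inf_le_left) hχ.isCharacter
      hφ.isCharacter a
    exact ⟨ψ, hψ, h2, h1⟩
  · obtain ⟨χ, hχ, h1⟩ := exists_ov inf_le_left hψ
    exact ⟨χ, hχ, h1.trans hχ.isCharacter hψ hφ.isCharacter a, h1⟩
  · obtain ⟨χ, -, -, h2⟩ := exists_unique_ov inf_le_left hH hφ le_rfl hψ c
    exact (h2 _ a d).trans (h2 _ b e).symm
  · exact (inner_eq_inner_res inf_le_left hH hφ le_rfl e f d h (a.isClassFunction.comp _)).trans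
      (inner_clifford hB.HG inf_le_left hG hφ le_rfl b c.2 a g e f)

omit hφ hi [Finite Γ] in
theorem sH : S ≤ normalizer (H : Set Γ) := le_norm_of_conj fun s hs x hx => by
  simpa using mul_mem (hA.LH (hA.fix x hx s hs)) hx

theorem IS_of_ov {ψ : H → ℂ} (hψ : IsIrrCharacter H ψ) (ho : Ov hA.LH ψ φ) : IS S H ψ :=
  fun s hs => (mem_stab_of_relFix hA.LH (hA.HG.trans (le_sup_left.trans hA.nL)) (hA.sH hs)
    (hi hs).1 (fun x hx => hA.fix x hx s hs) hA.cop (hA.pow_mem hs) (fun x hx => hA.pow x (hA.HG hx))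
    hψ.isCharacter fun θ hθ h1 => by
      obtain ⟨x, hx, rfl⟩ := exists_cj_of_ov (hA.HG.trans (le_sup_left.trans hA.nL)) hψ hφ hθ ho h1
      exact (mem_stab_cj _).2 (hA.cj_mem hφ hi hx hs)).2

omit hφ hi in
theorem under (h : L ≤ U) (h' : U ≤ G) (hS : S ≤ normalizer (U : Set Γ)) {χ : U → ℂ}
    (hχ : IsIrrCharacter U χ) (hj : IS S U χ) :
    ∃ φ, IsIrrCharacter L φ ∧ Ov h χ φ ∧ S ≤ stab L φ :=
  (exists_IS_under h (h'.trans (le_sup_left.trans hA.nL)) hS (le_sup_right.trans hA.nL) hA.cop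
    (fun _ => hA.pow_mem) (fun g hg => hA.pow g (h' hg)) (Or.inr (hA.solv.mono h')) hχ hj).imp
    fun _ a => ⟨a.1, a.2.1, (IS_iff_le_stab (le_sup_right.trans hA.nL)).1 a.2.2⟩

theorem ov_of_IS {χ : G → ℂ} (hχ : IsIrrCharacter G χ) (ho : Ov (hA.LK.trans hA.KG) χ φ)
    {ψ : H → ℂ} (hψ : IsIrrCharacter H ψ) (hj : IS S H ψ) (h : Ov hA.HG χ ψ) : Ov hA.LH ψ φ := by
  obtain ⟨η, hη, h1, h2⟩ := hA.under hA.LH hA.HG hA.sH hψ hj
  have hG := le_sup_left.trans hA.nL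
  obtain ⟨g, hg, rfl⟩ := exists_cj_of_ov hG hχ hη hφ
    (h.trans hχ.isCharacter hψ hη.isCharacter h1) ho
  obtain ⟨k, hk, x, hx, rfl⟩ := hA.gen_stab hη h2 hg fun s hs => (mem_stab_cj _).1 (hi hs)
  rw [show (fun l => η (cjE L (hG hg) l)) = fun l => η (cjE L (hG (hA.HG hx)) l) from
    funext fun l => hk.2.2 _ _ (by simp [coe_cjE, mul_assoc])]
  exact Ov_cj_right hψ.isClassFunction h1 hx _

omit hφ hi in
/-- Isaacs' correspondence. -/
theorem corr : Corr 2 (inclusion hA.HG) (IS S G) (IS S H) := by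
  have hLG := hA.LK.trans hA.KG
  refine ⟨fun χ hχ a => ?_, fun χ hχ a ξ ξ' hξ b hξ' c r r' => ?_, fun _ _ _ _ _ _ m _ hm =>
    Or.inl ?_, fun χ χ' hχ a hχ' b ξ hξ c r r' => ?_, fun ψ hψ a => ?_⟩
  · obtain ⟨φ, hφ, h1, h2⟩ := hA.under hLG le_rfl hA.sG hχ a
    exact ((hA.corr_ov hφ h2).ex χ hχ ⟨a, h1⟩).imp fun ψ h => ⟨h.1, hA.IS_of_ov hφ h2 h.1 h.2.1, h.2.2⟩
  · obtain ⟨φ, hφ, h1, h2⟩ := hA.under hLG le_rfl hA.sG hχ a
    exact (hA.corr_ov hφ h2).uniq χ hχ ⟨a, h1⟩ ξ ξ' hξ (hA.ov_of_IS hφ h2 hχ h1 hξ b r.ov) hξ'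
      (hA.ov_of_IS hφ h2 hχ h1 hξ' c r'.ov) r r'
  · exact (ZMod.natCast_eq_one_iff_odd).2 (Nat.odd_iff.2 (Nat.two_dvd_ne_zero.1 hm))
  · obtain ⟨φ, hφ, h1, h2⟩ := hA.under hA.LH hA.HG hA.sH hξ c
    exact (hA.corr_ov hφ h2).inj χ χ' hχ ⟨a, r.ov.trans hχ.isCharacter hξ hφ.isCharacter h1⟩ hχ'
      ⟨b, r'.ov.trans hχ'.isCharacter hξ hφ.isCharacter h1⟩ ξ hξ h1 r r'
  · obtain ⟨φ, hφ, h1, h2⟩ := hA.under hA.LH hA.HG hA.sH hψ a
    exact ((hA.corr_ov hφ h2).surj ψ hψ h1).imp fun χ h => ⟨h.1, h.2.1.1, h.2.2⟩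

end Act

end CL.Baer
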