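import Mathlib
import Cfsg.Agent.TECH.Conj

/-! Normal chains of `p`-subgroups and a sign-reversing involution on the chains normalized by a
nontrivial `p`-element (the combinatorics of the Knörr–Robinson alternating sums). -/

set_option autoImplicit false

open Subgroup
open scoped CL.MSS

namespace CL.Blk

variable {G : Type*} [Group G] {p : ℕ}

/-- A chain of nontrivial `p`-subgroups normalizing each other (possibly empty). -/
structure NChain (p : ℕ) (s : Finset (Subgroup G)) : Prop where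
  chain : ∀ Q ∈ s, ∀ R ∈ s, Q ≤ R ∨ R ≤ Q
  nontriv : ∀ Q ∈ s, Q ≠ ⊥ ∧ IsPGroup p Q
  norm : ∀ Q ∈ s, ∀ R ∈ s, R ≤ normalizer (Q : Set G)

/-- The stabilizer of a chain. -/
abbrev chN (s : Finset (Subgroup G)) : Subgroup G := ⨅ Q ∈ s, normalizer ((Q : Subgroup G) : Set G)

theorem mem_chN {s : Finset (Subgroup G)} {g : G} :
    g ∈ chN s ↔ ∀ Q ∈ s, g ∈ normalizer (Q : Set G) := by simp [chN, mem_iInf]

theorem le_chN {s : Finset (Subgroup G)} {H : Subgroup G} :
    H ≤ chN s ↔ ∀ Q ∈ s, H ≤ normalizer (Q : Set G) := by simp [chN]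

theorem sup_eq_bot_or_mem {s : Finset (Subgroup G)} (h : ∀ Q ∈ s, ∀ R ∈ s, Q ≤ R ∨ R ≤ Q) :
    s.sup id = ⊥ ∨ s.sup id ∈ s := by
  refine Finset.sup_induction (p := fun W => W = ⊥ ∨ W ∈ s) (Or.inl rfl) ?_ fun b hb => Or.inr hb
  rintro a (rfl | ha) b hb
  · rwa [bot_sup_eq]
  rcases hb with rfl | hb
  · rw [sup_bot_eq]; exact Or.inr ha
  rcases h a ha b hb with h1 | h1
  · rw [sup_eq_right.2 h1]; exact Or.inr hb
  · rw [sup_eq_left.2 h1]; exact Or.inr ha

theorem le_normalizer_finset_sup {s : Finset (Subgroup G)} {H : Subgroup G}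
    (h : ∀ Q ∈ s, H ≤ normalizer (Q : Set G)) :
    H ≤ normalizer ((s.sup id : Subgroup G) : Set G) :=
  Finset.sup_induction (p := fun W : Subgroup G => H ≤ normalizer (W : Set G))
    (by rw [normalizer_eq_top]; exact le_top) (fun _ ha _ hb => MSS.le_normalizer_sup ha hb) h

theorem nChain_iff {s : Finset (Subgroup G)} : (s.Nonempty ∧ NChain p s) ↔
    (s.Nonempty ∧ (∀ Q ∈ s, ∀ R ∈ s, Q ≤ R ∨ R ≤ Q) ∧ (∀ Q ∈ s, Q ≠ ⊥ ∧ IsPGroup p Q) ∧
      ∃ T ∈ s, ∀ Q ∈ s, Q ≤ T ∧ T ≤ normalizer ((Q : Subgroup G) : Set G)) := by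
  refine and_congr_right fun hs => ⟨fun h => ⟨h.chain, h.nontriv, ?_⟩, ?_⟩
  · have h1 : s.sup id ∈ s := (sup_eq_bot_or_mem h.chain).resolve_left fun h0 => by
      obtain ⟨Q, hQ⟩ := hs
      exact (h.nontriv Q hQ).1 (le_bot_iff.1 (h0 ▸ Finset.le_sup (f := id) hQ))
    exact ⟨_, h1, fun Q hQ => ⟨Finset.le_sup (f := id) hQ, h.norm Q hQ _ h1⟩⟩
  · rintro ⟨h1, h2, T, hT, h3⟩
    exact ⟨h1, h2, fun Q hQ R hR => (h3 R hR).1.trans (h3 Q hQ).2⟩

theorem nChain_empty : NChain p (∅ : Finset (Subgroup G)) := ⟨by simp, by simp, by simp⟩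

theorem NChain.isPGroup_sup {s t : Finset (Subgroup G)} (h : NChain p s) (ht : t ⊆ s) :
    IsPGroup p (t.sup id : Subgroup G) := by
  rcases sup_eq_bot_or_mem (s := t) fun Q hQ R hR => h.chain Q (ht hQ) R (ht hR) with h1 | h1
  · rw [h1]; exact IsPGroup.of_bot
  · exact (h.nontriv _ (ht h1)).2

theorem NChain.mono {s t : Finset (Subgroup G)} (h : NChain p s) (ht : t ⊆ s) : NChain p t :=
  ⟨fun Q hQ R hR => h.chain Q (ht hQ) R (ht hR), fun Q hQ => h.nontriv Q (ht hQ),
    fun Q hQ R hR => h.norm Q (ht hQ) R (ht hR)⟩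

/-- In a finite `p`-group a subgroup whose normal closure is everything is everything. -/
theorem eq_of_forall_normal [Finite G] [Fact p.Prime] {T W : Subgroup G} (hT : IsPGroup p T)
    (hW : W ≤ T) (h : ∀ X, W ≤ X → X ≤ T → T ≤ normalizer (X : Set G) → T ≤ X) : W = T := by
  by_contra hne
  obtain ⟨X, ⟨h1, h2⟩, hX⟩ := (Set.toFinite {X : Subgroup G | W ≤ X ∧ X < T}).exists_maximal
    ⟨W, le_rfl, lt_of_le_of_ne hW hne⟩
  have h3 := MSS.lt_inf_normalizer_of_lt hT h2
  have h4 : T ⊓ normalizer (X : Set G) = T := by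
    by_contra h5
    exact h3.not_ge (hX ⟨h1.trans h3.le, lt_of_le_of_ne inf_le_left h5⟩ h3.le)
  exact h2.not_ge (h X h1 h2.le (inf_eq_left.1 h4))

section tog

variable (u : G) (s : Finset (Subgroup G))

/-- The top of the chain with `u` adjoined. -/
def chT : Subgroup G := s.sup id ⊔ zpowers u

open Classical in
/-- The largest member not containing `u`. -/
noncomputable def chQ : Subgroup G := (s.filter (u ∉ ·)).sup id

/-- The subgroup to be inserted or removed. -/
noncomputable def chR : Subgroup G :=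
  sInf {W | chQ u s ≤ W ∧ u ∈ W ∧ chT u s ≤ normalizer (W : Set G)}

open Classical in
/-- The involution. -/
noncomputable def chTog : Finset (Subgroup G) :=
  if chR u s ∈ s then s.erase (chR u s) else insert (chR u s) s

theorem chQ_le_chR : chQ u s ≤ chR u s := le_sInf fun _ h => h.1

theorem mem_chR : u ∈ chR u s := mem_sInf.2 fun _ h => h.2.1

variable {u s}

theorem chR_le {W : Subgroup G} (h1 : chQ u s ≤ W) (h2 : u ∈ W)
    (h3 : chT u s ≤ normalizer (W : Set G)) : chR u s ≤ W := sInf_le ⟨h1, h2, h3⟩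

theorem chT_le_normalizer_chR : chT u s ≤ normalizer (chR u s : Set G) :=
  le_normalizer_iff.2 fun _ hx _ hy => mem_sInf.2 fun W hW =>
    MSS.conj_mem_of_normalizes hW.2.2 hx (mem_sInf.1 hy W hW)

theorem le_chQ {Q : Subgroup G} (hQ : Q ∈ s) (hu : u ∉ Q) : Q ≤ chQ u s := by
  classical exact Finset.le_sup (f := id) (Finset.mem_filter.2 ⟨hQ, hu⟩)

theorem chQ_le {W : Subgroup G} (h : ∀ Q ∈ s, u ∉ Q → Q ≤ W) : chQ u s ≤ W := by
  classical exact Finset.sup_le fun Q hQ => h Q (Finset.mem_filter.1 hQ).1 (Finset.mem_filter.1 hQ).2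

theorem le_chT {Q : Subgroup G} (hQ : Q ∈ s) : Q ≤ chT u s :=
  (Finset.le_sup (f := id) hQ).trans le_sup_left

theorem mem_chT : u ∈ chT u s := (le_sup_right : zpowers u ≤ _) (mem_zpowers u)

theorem chT_le {W : Subgroup G} (h : ∀ Q ∈ s, Q ≤ W) (hu : u ∈ W) : chT u s ≤ W :=
  sup_le (Finset.sup_le h) (zpowers_le.2 hu)

theorem chR_le_chT : chR u s ≤ chT u s :=
  chR_le (chQ_le fun _ hQ _ => le_chT hQ) mem_chT le_normalizer

theorem chR_congr {t : Finset (Subgroup G)} (h1 : chQ u s = chQ u t) (h2 : chT u s = chT u t) :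
    chR u s = chR u t := by rw [chR, chR, h1, h2]

theorem NChain.chT_le_chN (h : NChain p s) (hu : u ∈ chN s) : chT u s ≤ chN s :=
  chT_le (fun Q hQ => le_chN.2 fun R hR => h.norm R hR Q hQ) hu

theorem NChain.isPGroup_chT (h : NChain p s) (hu : u ∈ chN s) (hp : IsPGroup p (zpowers u)) :
    IsPGroup p (chT u s) :=
  MSS.isPGroup_sup_of_normalizes' (h.isPGroup_sup subset_rfl) hp
    (le_normalizer_finset_sup fun Q hQ => zpowers_le.2 (mem_chN.1 hu Q hQ))

theorem NChain.chR_le_of_mem (h : NChain p s) (hu : u ∈ chN s) {Q : Subgroup G} (hQ : Q ∈ s)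
    (huQ : u ∈ Q) : chR u s ≤ Q :=
  chR_le (chQ_le fun R hR huR => (h.chain R hR Q hQ).resolve_right fun h1 => huR (h1 huQ)) huQ
    (le_chN.1 (h.chT_le_chN hu) Q hQ)

theorem mem_normalizer_chR [Finite G] {g : G} (hg : g ∈ chN s) (hgu : g * u * g⁻¹ = u) :
    g ∈ normalizer (chR u s : Set G) := by
  classical
  have h1 : g •ᶜ chQ u s = chQ u s := MSS.cj_eq_of_mem_normalizer
    (le_normalizer_finset_sup (H := zpowers g) (fun Q hQ => zpowers_le.2
      (mem_chN.1 hg Q (Finset.mem_filter.1 hQ).1)) (mem_zpowers g))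
  have h2 : g •ᶜ chT u s = chT u s := by
    rw [chT, MSS.cj_sup, MSS.cj_zpowers, hgu, MSS.cj_eq_of_mem_normalizer
      (le_normalizer_finset_sup (H := zpowers g) (fun Q hQ => zpowers_le.2
        (mem_chN.1 hg Q hQ)) (mem_zpowers g))]
  refine MSS.mem_normalizer_iff_cj.2 (MSS.cj_eq_of_ge (chR_le ?_ ?_ ?_))
  · rw [← h1]; exact MSS.cj_mono g (chQ_le_chR u s)
  · rw [← hgu]; simpa [hgu] using MSS.conj_mem_cj (g := g) (mem_chR u s)
  · rw [← MSS.cj_normalizer, ← h2]; exact MSS.cj_mono g chT_le_normalizer_chR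

theorem NChain.insert_chR [DecidableEq (Subgroup G)] (h : NChain p s) (hu : u ∈ chN s)
    (hp : IsPGroup p (zpowers u)) (h1 : u ≠ 1) : NChain p (insert (chR u s) s) := by
  have hc : ∀ Q ∈ s, Q ≤ chR u s ∨ chR u s ≤ Q := fun Q hQ => by
    by_cases huQ : u ∈ Q
    · exact Or.inr (h.chR_le_of_mem hu hQ huQ)
    · exact Or.inl ((le_chQ hQ huQ).trans (chQ_le_chR u s))
  refine ⟨?_, ?_, ?_⟩ <;> simp only [Finset.forall_mem_insert]
  · exact ⟨⟨Or.inl le_rfl, fun Q hQ => (hc Q hQ).symm⟩, fun Q hQ => ⟨hc Q hQ, h.chain Q hQ⟩⟩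
  · exact ⟨⟨fun h0 => h1 (by simpa [h0] using mem_chR u s),
      (h.isPGroup_chT hu hp).to_le chR_le_chT⟩, h.nontriv⟩
  · exact ⟨⟨le_normalizer, fun Q hQ => (le_chT hQ).trans chT_le_normalizer_chR⟩,
      fun Q hQ => ⟨chR_le_chT.trans (le_chN.1 (h.chT_le_chN hu) Q hQ), h.norm Q hQ⟩⟩

theorem chR_insert [DecidableEq (Subgroup G)] : chR u (insert (chR u s) s) = chR u s := by
  refine chR_congr (le_antisymm (chQ_le fun Q hQ huQ => ?_) (chQ_le fun Q hQ huQ =>
    le_chQ (Finset.mem_insert_of_mem hQ) huQ)) (le_antisymm (chT_le (fun Q hQ => ?_) mem_chT)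
      (chT_le (fun Q hQ => le_chT (Finset.mem_insert_of_mem hQ)) mem_chT))
  · rcases Finset.mem_insert.1 hQ with rfl | hQ
    · exact absurd (mem_chR u s) huQ
    · exact le_chQ hQ huQ
  · rcases Finset.mem_insert.1 hQ with rfl | hQ
    · exact chR_le_chT
    · exact le_chT hQ

theorem NChain.chR_erase [Finite G] [Fact p.Prime] [DecidableEq (Subgroup G)] (h : NChain p s)
    (hu : u ∈ chN s) (hp : IsPGroup p (zpowers u)) :
    chR u (s.erase (chR u s)) = chR u s := by
  have hQ : chQ u (s.erase (chR u s)) = chQ u s :=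
    le_antisymm (chQ_le fun Q hQ huQ => le_chQ (Finset.mem_of_mem_erase hQ) huQ)
      (chQ_le fun Q hQ huQ => le_chQ (Finset.mem_erase.2 ⟨fun h0 => huQ (h0 ▸ mem_chR u s), hQ⟩) huQ)
  have hT : chT u (s.erase (chR u s)) ≤ chT u s :=
    chT_le (fun Q hQ => le_chT (Finset.mem_of_mem_erase hQ)) mem_chT
  refine chR_congr hQ (eq_of_forall_normal (h.isPGroup_chT hu hp) hT fun X h1 _ h3 => ?_)
  have h4 : chR u s ≤ X := chR_le (hQ ▸ (chQ_le_chR u _).trans (chR_le_chT.trans h1)) (h1 mem_chT) h3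
  refine chT_le (fun Q hQ => ?_) (h1 mem_chT)
  by_cases h5 : Q = chR u s
  · exact h5 ▸ h4
  · exact (le_chT (Finset.mem_erase.2 ⟨h5, hQ⟩)).trans h1

theorem chN_insert_inf [Finite G] [DecidableEq (Subgroup G)] :
    chN (insert (chR u s) s) ⊓ centralizer {u} = chN s ⊓ centralizer {u} := by
  ext g
  simp only [mem_inf, mem_chN, Finset.forall_mem_insert, mem_centralizer_singleton_iff]
  refine and_congr_left fun hg => ⟨fun h => h.2, fun h => ⟨mem_normalizer_chR (mem_chN.2 h) ?_, h⟩⟩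
  rw [hg, mul_inv_cancel_right]

end tog

open Classical in
/-- The alternating sum over the normal chains normalized by a nontrivial `p`-element `u` of a
function of `N(s) ∩ C(u)` vanishes. -/
theorem sum_nChain_eq_zero [Finite G] [Fintype (Finset (Subgroup G))] [Fact p.Prime] {u : G}
    (hp : IsPGroup p (zpowers u)) (h1 : u ≠ 1) {A : Type*} [Ring A] (Φ : Subgroup G → A) :
    ∑ s with NChain p s ∧ u ∈ chN s, (-1) ^ s.card * Φ (chN s ⊓ centralizer {u}) = 0 := by
  have hself : u ∈ centralizer ({u} : Set G) := mem_centralizer_singleton_iff.2 rfl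
  have key : ∀ s : Finset (Subgroup G), NChain p s → u ∈ chN s →
      chR u (chTog u s) = chR u s ∧ NChain p (chTog u s) ∧
        chN (chTog u s) ⊓ centralizer {u} = chN s ⊓ centralizer {u} := fun s hs hu => by
    unfold chTog
    split_ifs with h
    · have h2 := hs.chR_erase hu hp
      refine ⟨h2, hs.mono (Finset.erase_subset _ _), ?_⟩
      rw [← chN_insert_inf, h2, Finset.insert_erase h]
    · exact ⟨chR_insert, hs.insert_chR hu hp h1, chN_insert_inf⟩
  refine Finset.sum_involution (fun s _ => chTog u s) (fun s hs => ?_) (fun s _ _ => ?_)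
    (fun s hs => ?_) fun s hs => ?_
  · simp only [Finset.mem_filter, Finset.mem_univ, true_and] at hs
    rw [(key s hs.1 hs.2).2.2, ← add_mul]
    unfold chTog
    split_ifs with h
    · rw [← Finset.card_erase_add_one h, pow_succ]; simp
    · rw [Finset.card_insert_of_notMem h, pow_succ]; simp
  · unfold chTog
    split_ifs with h
    · exact fun h0 => Finset.notMem_erase _ _ (h0.ge h)
    · exact fun h0 => h (h0.le (Finset.mem_insert_self _ _))
  · simp only [Finset.mem_filter, Finset.mem_univ, true_and] at hs ⊢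
    obtain ⟨-, h2, h3⟩ := key s hs.1 hs.2
    exact ⟨h2, (h3.symm.le ⟨hs.2, hself⟩).1⟩
  · simp only [Finset.mem_filter, Finset.mem_univ, true_and] at hs
    have h2 := (key s hs.1 hs.2).1
    rw [chTog, h2]
    unfold chTog
    by_cases h : chR u s ∈ s
    · simp [h]
    · simp [h]

end CL.Blk
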