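import Mathlib
import Cfsg.Agent.BLK.Section2
import Cfsg.Agent.BLK.KRChain

/-! The Knörr–Robinson alternating sum for `k - l`. -/

set_option autoImplicit false

open Cfsg MonoidAlgebra Subgroup CL.Char
open scoped CL.MSS ComplexConjugate

namespace CL.Blk

variable {G : Type*} [Group G] {H : Type*} [Group H] {K : Type*} [Group K] {p : ℕ}
  {M : Ideal AlgInt}

open Classical in
/-- The trace of the contribution matrix of a union of blocks is its rank. -/
theorem IsBlockUnion.sum_contr_self [Fintype G] (hM : IsPModular p M) {A : Set (IrrCharacter G)}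
    (hA : IsBlockUnion M A) : ∑ χ with χ ∈ A, contr p χ.1 χ.1 = blockRank p A := by
  let I : IrrCharacter G → (G → ℂ) →ₗ[ℂ] ℂ := fun χ =>
    { toFun := fun φ => classInner φ χ.1
      map_add' := fun a b => classInner_add_left a b _
      map_smul' := fun c a => classInner_smul_left c a _ }
  let T : (G → ℂ) →ₗ[ℂ] (G → ℂ) := ∑ χ with χ ∈ A, (I χ).smulRight (pRegularPart p χ.1)
  have hT : ∀ φ, T φ = pRegularPart p (blockPart A φ) := fun φ => by
    rw [CL.Blk.blockPart_eq_sum, pRegularPart_sum]
    simp only [T, LinearMap.sum_apply, LinearMap.smulRight_apply, pRegularPart_smul]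
    rfl
  have hP : LinearMap.IsProj (Submodule.span ℂ
      ((fun χ : IrrCharacter G => pRegularPart p (χ : G → ℂ)) '' A)) T := by
    refine ⟨fun φ => ?_, fun φ hφ => ?_⟩
    · simp only [T, LinearMap.sum_apply, LinearMap.smulRight_apply]
      exact Submodule.sum_mem _ fun χ hχ => Submodule.smul_mem _ _
        (Submodule.subset_span ⟨χ, (Finset.mem_filter.1 hχ).2, rfl⟩)
    · refine (LinearMap.eqOn_span (f := T) (g := LinearMap.id) ?_ hφ :)
      rintro _ ⟨χ, hχ, rfl⟩
      rw [hT, blockPart_pRegularPart hM hA, pRegularPart_idem, blockPart_irr, if_pos hχ]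
      rfl
  rw [blockRank, ← hP.trace]
  simp only [T, map_sum, LinearMap.trace_smulRight]
  rfl

/-- Transitivity of `locSet` through the centralizer of a `p`-element. -/
theorem IsSec.locSet_locSet [Finite G] [Finite H] [Finite K] (hM : IsPModular p M) {f : K →* H}
    {z : K} (h : IsSec p f z) (g : H →* G) (A : Set (IrrCharacter G)) :
    locSet M f (locSet M g A) = locSet M (g.comp f) A := by
  ext ξ
  obtain ⟨β, hβ, h1⟩ := IsCChar.exists_block hM ((isCChar_lam (M := M) ξ).comp_res_of_range_eq
    hM.1 (natCast_F hM) (isPGroup_zpowers_of_pElt h.pElt) h.inj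
      (by rw [h.range, centralizer_zpowers']))
  obtain ⟨ψ, hψ⟩ := block_nonempty hM hβ
  rw [lamB_eq hM hβ hψ] at h1
  have h2 := h1 _ (eB_isCentral (M := M) (locSet M g A))
  have h3 := h1 _ ((eB_isCentral (M := M) A).res g)
  change lam M ξ.1 (res f _) = _ at h2 h3
  change lam M ξ.1 _ = 1 ↔ lam M ξ.1 _ = 1
  rw [← res_res, h2, h3, (isBlockUnion_locSet hM g A).lam_eB hM]
  change _ ↔ ψ ∈ locSet M g A
  split_ifs with h4 <;> simp [h4]

theorem locSet_id [Finite G] (hM : IsPModular p M) {A : Set (IrrCharacter G)}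
    (hA : IsBlockUnion M A) : locSet M (MonoidHom.id G) A = A := by
  ext χ
  change lam M χ.1 _ = 1 ↔ _
  rw [res_id, hA.lam_eB hM]
  split_ifs with h <;> simp [h]

/-- `|K| · l` for the blocks of `K` above `A`. -/
noncomputable def locL [Finite G] (p : ℕ) (M : Ideal AlgInt) (A : Set (IrrCharacter G))
    (K : Subgroup G) : ℤ := Nat.card K * blockRank p (locSet M K.subtype A)

open Classical in
theorem sum_eq_sum_isPPart [Fintype G] (hp : p.Prime) {R : Type*} [AddCommMonoid R] (θ : G → R) :
    ∑ g, θ g = ∑ u with ∃ k, orderOf u = p ^ k, ∑ g with IsPPart p g u, θ g := by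
  rw [Finset.sum_comm' (t' := Finset.univ) (s' := fun g => Finset.univ.filter fun u => IsPPart p g u)
    (fun u g => by simpa using fun h : IsPPart p g u => h.pElt)]
  refine Finset.sum_congr rfl fun g _ => ?_
  obtain ⟨x, hx⟩ := exists_isPPart hp g
  rw [Finset.sum_eq_single_of_mem x (by simpa using hx) fun y hy h =>
    absurd ((Finset.mem_filter.1 hy).2.unique hp hx) h]

open Classical in
theorem IsSec.sum_isPPart_eq [Fintype H] [Finite K] (hM : IsPModular p M) {f : K →* H} {z : K}
    (h : IsSec p f z) {A : Set (IrrCharacter H)} (hA : IsBlockUnion M A) :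
    ∑ g with IsPPart p g (f z), ∑ χ with χ ∈ A, χ.1 g * conj (χ.1 g) =
      Nat.card K * blockRank p (locSet M f A) := by
  have := Fintype.ofFinite K
  rw [h.sum_isPPart, ← (isBlockUnion_locSet hM f A).sum_contr_self hM, Finset.mul_sum]
  simp only [card_mul_contr]
  rw [Finset.sum_comm]
  refine Finset.sum_congr rfl fun c _ => ?_
  by_cases hc : p ∣ orderOf c
  · simp [pRegularPart_apply, hc]
  · simp only [pRegularPart_apply, hc, if_false, sh_apply]
    rw [h.column hM hA hc hc]
    exact Finset.sum_congr rfl fun _ _ => mul_comm _ _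

open Classical in
/-- `|H| (k - l)` of the blocks of `H` above `A`, as a sum over the nontrivial `p`-elements. -/
theorem card_mul_sub_eq_sum [Fintype G] [Finite H] (hM : IsPModular p M) {g : H →* G}
    (hg : Function.Injective g) {A : Set (IrrCharacter G)} (hA : IsBlockUnion M A) :
    (Nat.card H : ℤ) * ((Nat.card (locSet M g A) : ℤ) - blockRank p (locSet M g A)) =
      ∑ u with (∃ k, orderOf u = p ^ k) ∧ u ≠ 1,
        if u ∈ g.range then locL p M A (g.range ⊓ centralizer {u}) else 0 := by
  have := Fintype.ofFinite H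
  have hA' := isBlockUnion_locSet hM g A
  have h1 : ∑ x : H, ∑ χ with χ ∈ locSet M g A, χ.1 x * conj (χ.1 x) =
      Nat.card H * Nat.card (locSet M g A) := by
    rw [Finset.sum_comm]
    have : ∀ χ : IrrCharacter H, ∑ x, χ.1 x * conj (χ.1 x) = Nat.card H := fun χ => by
      rw [← card_mul_classInner, χ.2.inner_self, mul_one]
    simp only [this, Finset.sum_const, nsmul_eq_mul]
    rw [mul_comm, ← Nat.card_eq_finsetCard]
    congr 2
    exact Nat.card_congr (Equiv.subtypeEquivRight fun χ => by simp)
  have h2 : ∀ z : H, (∃ k, orderOf z = p ^ k) →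
      ∑ x with IsPPart p x z, ∑ χ with χ ∈ locSet M g A, χ.1 x * conj (χ.1 x) =
        locL p M A (g.range ⊓ centralizer {g z}) := fun z hz => by
    obtain ⟨f, hf, hfg⟩ := exists_hom_of_range_le
      (f₁ := (g.range ⊓ centralizer {g z}).subtype) (subtype_injective _) hg
      (by rw [range_subtype]; exact inf_le_left)
    have h3 : ∀ c, g (f c) = c := fun c => DFunLike.congr_fun hfg c
    have h4 : f ⟨g z, ⟨z, rfl⟩, self_mem_centralizer_singleton _⟩ = z := hg (h3 _)
    have h5 : IsSec p f ⟨g z, ⟨z, rfl⟩, self_mem_centralizer_singleton _⟩ := by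
      refine ⟨hf, by rwa [h4], ?_⟩
      rw [h4]
      ext y
      rw [mem_centralizer_singleton_iff]
      constructor
      · rintro ⟨c, rfl⟩
        apply hg
        rw [map_mul, map_mul, h3]
        exact mem_centralizer_singleton_iff.1 c.2.2
      · intro hy
        exact ⟨⟨g y, ⟨y, rfl⟩, mem_centralizer_singleton_iff.2 (by rw [← map_mul, hy, map_mul])⟩,
          hg (h3 _)⟩
    have h6 := h5.sum_isPPart_eq hM hA'
    rw [h4, h5.locSet_locSet hM g A, hfg] at h6
    rw [h6, locL]; push_cast; rfl
  have h3 : ∑ x with IsPPart p x 1, ∑ χ with χ ∈ locSet M g A, χ.1 x * conj (χ.1 x) =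
      Nat.card H * blockRank p (locSet M g A) := by
    have h5 : IsSec p (MonoidHom.id H) 1 := ⟨Function.injective_id, ⟨0, by simp⟩, by
      ext y; simp [mem_centralizer_singleton_iff]⟩
    have h6 := h5.sum_isPPart_eq hM hA'
    rwa [locSet_id hM hA'] at h6
  rw [sum_eq_sum_isPPart hM.1, ← Finset.add_sum_erase _ _ (a := 1) (by simpa using ⟨0, by simp⟩),
    h3, Finset.sum_congr rfl fun z hz => h2 z (Finset.mem_filter.1 (Finset.mem_of_mem_erase hz)).2]
    at h1
  have h4 : (Nat.card H : ℤ) * blockRank p (locSet M g A) +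
      ∑ z ∈ (Finset.univ.filter fun u : H => ∃ k, orderOf u = p ^ k).erase 1,
        locL p M A (g.range ⊓ centralizer {g z}) = Nat.card H * Nat.card (locSet M g A) := by
    exact_mod_cast h1
  rw [mul_sub, ← h4, add_sub_cancel_left]
  refine Finset.sum_of_injOn g hg.injOn (fun z hz => ?_) (fun u hu h5 => if_neg ?_)
    fun z _ => (if_pos ⟨z, rfl⟩).symm
  · obtain ⟨h5, h6⟩ := Finset.mem_erase.1 hz
    exact Finset.mem_filter.2 ⟨Finset.mem_univ _, by
      rw [orderOf_injective g hg]; exact (Finset.mem_filter.1 h6).2, (map_eq_one_iff g hg).not.2 h5⟩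
  · rintro ⟨z, rfl⟩
    simp only [Finset.mem_filter, Finset.mem_univ, true_and] at hu
    refine h5 ⟨z, ?_, rfl⟩
    simpa [map_eq_one_iff g hg, orderOf_injective g hg, and_comm] using hu

theorem NChain.setOf_induced_eq [Finite G] (hM : IsPModular p M) {s : Finset (Subgroup G)}
    (h : NChain p s) {b : Set (IrrCharacter G)} (hb : IsPBlock M b) :
    {ψ : IrrCharacter (chN s) | ∃ β : Set (IrrCharacter (chN s)), ψ ∈ β ∧
      IsInducedBlock M (chN s) β b} = locSet M (chN s).subtype b := by
  have hd : ∀ β, IsPBlock M β → InducedBlockDefined M (chN s) β := fun β hβ => by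
    refine inducedBlockDefined_of_local hM (h.isPGroup_sup subset_rfl)
      (Finset.sup_le fun Q hQ => le_chN.2 fun R hR => h.norm R hR Q hQ)
      (le_chN.2 fun Q hQ => (centralizer_le (SetLike.coe_subset_coe.2
        (Finset.le_sup (f := id) hQ : Q ≤ _))).trans
        (centralizer_le_normalizer _)) (le_normalizer_finset_sup fun Q hQ => le_chN.1 le_rfl Q hQ) hβ
  ext ψ
  constructor
  · rintro ⟨β, h1, h2⟩
    exact (subset_locSet_iff hM h2.1).2 ((isInducedBlock_iff_of_defined hM (hd β h2.1) hb).1 h2) h1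
  · intro h1
    have hβ := isPBlock_blockOf (M := M) ψ
    have h2 := mem_blockOf_self hM ψ
    refine ⟨_, h2, (isInducedBlock_iff_of_defined hM (hd _ hβ) hb).2 ?_⟩
    rw [lamB_eq hM hβ h2]; exact h1

open Classical in
theorem knorr_robinson [Finite G] [Fintype (Finset (Subgroup G))] [Fact p.Prime]
    (hM : IsPModular p M) {A : Set (IrrCharacter G)} (hA : IsBlockUnion M A) :
    (Nat.card G : ℤ) * ((Nat.card A : ℤ) - blockRank p A) =
      ∑ s with s.Nonempty ∧ NChain p s, (-1 : ℤ) ^ (s.card - 1) * Nat.card (chN s) *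
        ((Nat.card (locSet M (chN s).subtype A) : ℤ) - blockRank p (locSet M (chN s).subtype A)) := by
  have := Fintype.ofFinite G
  have h1 := card_mul_sub_eq_sum hM (g := MonoidHom.id G) Function.injective_id hA
  rw [locSet_id hM hA] at h1
  simp only [mul_assoc, card_mul_sub_eq_sum hM (subtype_injective _) hA, range_subtype, h1,
    Finset.mul_sum]
  rw [Finset.sum_comm]
  refine Finset.sum_congr rfl fun u hu => ?_
  simp only [Finset.mem_filter, Finset.mem_univ, true_and] at hu
  have h2 := sum_nChain_eq_zero (isPGroup_zpowers_of_pElt hu.1) hu.2 (locL p M A)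
  rw [← Finset.add_sum_erase _ _ (a := ∅) (by simp [nChain_empty])] at h2
  have h3 : (MonoidHom.id G).range = chN ∅ := by ext; simp
  rw [h3, if_pos (by simp)]
  simp only [Finset.card_empty, pow_zero, one_mul] at h2
  rw [eq_neg_of_add_eq_zero_left h2, ← Finset.sum_neg_distrib]
  simp only [mul_ite, mul_zero]
  rw [← Finset.sum_filter]
  refine Finset.sum_congr ?_ fun s hs => ?_
  · ext s
    simp only [Finset.mem_erase, Finset.mem_filter, Finset.mem_univ, true_and,
      Finset.nonempty_iff_ne_empty, and_assoc]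
  · simp only [Finset.mem_filter, Finset.mem_univ, true_and] at hs
    obtain ⟨n, hn⟩ := Nat.exists_eq_succ_of_ne_zero (Finset.card_pos.2 hs.1.1).ne'
    rw [hn, Nat.succ_sub_one, pow_succ]; ring

end CL.Blk
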