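import Cfsg.Agent.BLK.M1Main

/-! Real characters of degree `p + 1`. -/

set_option autoImplicit false
set_option linter.unusedSectionVars false
open Cfsg Module Finset Subgroup CL.D1T CL.Blk CL.Char
open scoped MatrixGroups Matrix Kronecker

namespace CL.M1

section
variable {F : Type*} [Field F] {U : Type*} [AddCommGroup U] [Module F U] [FiniteDimensional F U]

theorem trace_eq_add (f : End F U) (W : Submodule F U) (h : W ≤ W.comap f) :
    LinearMap.trace F U f =
      LinearMap.trace F W (f.restrict h) + LinearMap.trace F (U ⧸ W) (W.mapQ W f h) := by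
  obtain ⟨s, hs⟩ := W.mkQ.exists_rightInverse_of_surjective W.range_mkQ
  have h1 : ∀ v, W.mkQ (s v) = v := LinearMap.congr_fun hs
  obtain ⟨r, hr⟩ : ∃ r : U →ₗ[F] W, ∀ v, (r v : U) = v - s (W.mkQ v) :=
    ⟨(1 - s ∘ₗ W.mkQ).codRestrict W fun v => by
      rw [← Submodule.Quotient.mk_eq_zero, ← W.mkQ_apply]; simp [h1, -Submodule.mkQ_apply],
      fun _ => rfl⟩
  conv_lhs => rw [show f = (f ∘ₗ W.subtype) ∘ₗ r + (f ∘ₗ s) ∘ₗ W.mkQ by ext v; simp [hr], map_add,
    LinearMap.trace_comp_comm', LinearMap.trace_comp_comm' W.mkQ]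
  congr 2
  · ext w
    simp [hr, (Submodule.Quotient.mk_eq_zero W).2 (h w.2 : f w ∈ W)]
  · exact LinearMap.ext fun v => by
      conv_rhs => rw [← h1 v]
      rfl

variable {L Y : End F U} (J : Jor L Y) {a : F} (hYL : ∀ v, Y (L v) = a • L (Y v))
include hYL

open Classical in
theorem Jor.toMatrix :
    LinearMap.toMatrix J.b J.b Y = Matrix.diagonal fun j => J.μ j.1 * a ^ j.2.1 := by
  ext i j
  rw [LinearMap.toMatrix_apply, show Y (J.b j) = (J.μ j.1 * a ^ j.2.1) • J.b j by
    rw [J.hb j.1 j.2]; exact weight_pow' hYL _ (J.wt _)]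
  by_cases h : i = j
  · simp [h]
  · simp [h, Finsupp.single_eq_of_ne h]

theorem Jor.det_eq :
    LinearMap.det Y = ∏ r, J.μ r ^ J.s r * a ^ (∑ k ∈ range (J.s r), k) := by
  classical
  rw [← LinearMap.det_toMatrix J.b, J.toMatrix hYL, Matrix.det_diagonal, Fintype.prod_sigma]
  refine prod_congr rfl fun r _ => ?_
  rw [← prod_pow_eq_pow_sum, prod_range, prod_mul_distrib]
  simp

theorem Jor.trace_sq : LinearMap.trace F U (Y ^ 2) =
    ∑ r, J.μ r ^ 2 * ∑ k ∈ range (J.s r), (a ^ 2) ^ k := by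
  classical
  rw [LinearMap.trace_eq_matrix_trace F J.b, ← LinearMap.toMatrix_pow, J.toMatrix hYL,
    Matrix.diagonal_pow, Matrix.trace_diagonal, Fintype.sum_sigma]
  refine sum_congr rfl fun r _ => ?_
  rw [mul_sum, sum_range]
  exact sum_congr rfl fun k _ => by simp only [Pi.pow_apply]; ring

end

variable {G : Type*} [Group G] {p : ℕ} [hp : Fact p.Prime] [Finite G] {x y : G} {b : ZMod p}
  {e t : ℕ} {F : Type*} [Field F] [CharP F p] [IsAlgClosed F] {U : Type*} [AddCommGroup U]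
  [Module F U] [FiniteDimensional F U]

theorem det_eq_one (hG : commutator G = ⊤) (τ : Representation F G U) (g : G) :
    LinearMap.det (τ g) = 1 :=
  congrArg Units.val (Abelianization.commutator_subset_ker (LinearMap.det.comp τ).toHomUnits
    (hG.ge (mem_top g)))

namespace Ex

variable (h : Ex p x y b e t) (hy : y ^ e = 1) (τ : Representation F G U)
  (J : Jor (lg F p (τ x)) (τ y))
include h hy

theorem μ_pow (r : J.ι) {m : ℕ} (hm : e ∣ m) : J.μ r ^ m = 1 := by
  obtain ⟨k, rfl⟩ := hm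
  rw [pow_mul, pow_eq_one_of_apply (by rw [← map_pow, hy, map_one]) (J.wt r)
    (J.ne_zero r (J.pos r)), one_pow]

theorem jor_sq (hG : commutator G = ⊤) (he : 3 ≤ e) (hs : ∀ r, ∃ m, e ∣ m ∧ J.s r = m + 1) :
    LinearMap.trace F U (τ (y ^ 2)) = ∑ r, J.μ r ^ 2 ∧ ∏ r, J.μ r ^ 2 = 1 := by
  have h1 := congrArg (· ^ 2) (J.det_eq (h.weight τ))
  simp only [det_eq_one hG, one_pow, ← prod_pow] at h1
  rw [map_pow, J.trace_sq (h.weight τ), h1]
  constructor
  · refine sum_congr rfl fun r _ => ?_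
    obtain ⟨m, h2, h3⟩ := hs r
    rw [h3, sum_range_succ, geom_sum_eq fun e1 => by
      have := Nat.le_of_dvd two_pos (h.pow_eq_one_iff'.1 e1); omega, ← pow_mul,
      h.pow_eq_one_iff'.2 (h2.mul_left 2)]
    simp
  · refine prod_congr rfl fun r _ => ?_
    obtain ⟨m, h2, h3⟩ := hs r
    rw [mul_pow, ← pow_mul (b.val : F), sum_range_id_mul_two, h3, pow_succ _ m, h.μ_pow hy τ J r h2,
      Nat.add_sub_cancel, h.pow_eq_one_iff'.2 (h2.mul_left _), one_mul, mul_one]

theorem piece [IsSimpleGroup G] (hG : commutator G = ⊤) (he : 3 ≤ e) {m : ℕ} (hm : e ∣ m)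
    (hp' : p = 2 * m + 1) (h0 : ∃ g, τ g ≠ 1) : (∃ π : G →* PGL(2, F), π x ≠ 1) ∨
      (m + 1 ≤ finrank F U ∧ (finrank F U = m + 1 → LinearMap.trace F U (τ (y ^ 2)) = 1)) := by
  classical
  obtain ⟨J⟩ := h.nonempty_jor τ
  have h1 := J.sum_s
  by_cases h2 : ∀ r, J.s r ≤ m
  · have h3 := Nat.le_of_dvd (by have := hp.out.one_lt; omega) hm
    refine Or.inl (h.exists_pgl_of_pow ((LinearMap.toMatrixAlgEquiv J.b).toMonoidHom.comp τ)
      (fun e1 => ?_) (s := m) ?_ hp'.ge (by omega))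
    · obtain ⟨g, hg⟩ := h0
      refine hg ((((MonoidHom.normal_ker τ).eq_bot_or_eq_top.resolve_left fun e2 =>
        h.ne_one (mem_bot.1 (e2.le ?_))).ge (mem_top g)))
      exact (LinearMap.toMatrixAlgEquiv J.b).injective (e1.trans (map_one _).symm)
    · have h4 : (τ x - 1) ^ m = 0 := LinearMap.ext fun v => ((asc_lg (h.x_pow τ) m).2 v).1 (by
        rw [show lg F p (τ x) ^ m = 0 from J.ext' fun r i => by
          rw [pow_apply_pow, pow_apply_eq_zero (J.nil r) (by have := h2 r; omega)]; rfl]; rfl)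
      simpa using congrArg (LinearMap.toMatrixAlgEquiv J.b) h4
  push Not at h2
  obtain ⟨r, hr⟩ := h2
  rw [← add_sum_erase _ _ (mem_univ r)] at h1
  refine Or.inr ⟨by omega, fun h3 => ?_⟩
  have h4 : ∀ r', r' = r := fun r' => by_contra fun h4 => by
    have := single_le_sum (f := J.s) (fun _ _ => Nat.zero_le _) (mem_erase.2 ⟨h4, mem_univ _⟩)
    have := J.pos r'
    omega
  obtain ⟨h5, h6⟩ := h.jor_sq hy τ J hG he fun r' => ⟨m, hm, by rw [h4 r']; omega⟩
  rw [Fintype.prod_eq_single r fun r' hr => (hr (h4 r')).elim] at h6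
  rw [h5, Fintype.sum_eq_single r fun r' hr => (hr (h4 r')).elim, h6]

theorem trace_of_form (hG : commutator G = ⊤) (he : 3 ≤ e) (hZ : ZSc τ) (hl : Loc τ)
    (hd : finrank F U = p + 1) {B : U →ₗ[F] U →ₗ[F] F} (hB : ∀ v, B v = 0 → v = 0)
    (hB' : ∀ g u v, B (τ g u) (τ g v) = B u v) : LinearMap.trace F U (τ (y ^ 2)) = 2 := by
  classical
  obtain ⟨J⟩ := h.nonempty_jor τ
  have hA := asc_lg (h.x_pow τ)
  have h1 := J.sum_s.trans hd
  have h2 := J.le_of_pow (hA.pow_p (h.x_pow _))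
  have hp1 := hp.out.one_lt
  obtain ⟨r, hr⟩ : ∃ r, J.s r < p := by
    by_contra! h3
    rw [sum_congr rfl fun r _ => (h2 r).antisymm (h3 r), sum_const, smul_eq_mul] at h1
    exact hp1.ne' (Nat.dvd_one.1 ((Nat.dvd_add_right dvd_rfl).1 (h1 ▸ dvd_mul_left _ _)))
  have h3 : ∀ r', r' ≠ r → J.s r' = p := fun r' hr' =>
    (h2 r').antisymm (not_lt.1 fun e => hr' (h.eq_of_lt hZ hl J e hr))
  rw [← add_sum_erase _ _ (mem_univ r), sum_congr rfl fun r' hr' => h3 r' (ne_of_mem_erase hr'),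
    sum_const, smul_eq_mul] at h1
  have h4 : #(univ.erase r) = 1 := by
    have := J.pos r
    rcases (show #(univ.erase r) = 0 ∨ #(univ.erase r) = 1 ∨ 2 ≤ #(univ.erase r) by omega)
      with e1 | e1 | e1
    · rw [e1] at h1; omega
    · exact e1
    · have := Nat.mul_le_mul_right p e1; omega
  obtain ⟨r', hr'⟩ := card_eq_one.1 h4
  have h5 : r' ≠ r := ne_of_mem_erase (hr'.ge (mem_singleton_self _))
  rw [h4] at h1
  obtain ⟨h6, h7⟩ := h.jor_sq hy τ J hG he fun i => by
    by_cases hi : i = r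
    · exact ⟨0, dvd_zero _, by rw [hi]; omega⟩
    · exact ⟨t * e, dvd_mul_left _ _, by rw [h3 i hi, h.te]⟩
  rw [← add_sum_erase _ _ (mem_univ r), hr', sum_singleton] at h6
  rw [← mul_prod_erase _ _ (mem_univ r), hr', prod_singleton] at h7
  have h8 : ∀ {u}, lg F p (τ x) u = 0 → τ x u = u := fun {u} hu => by
    simpa [sub_eq_zero] using ((hA 1).2 u).1 (by simpa)
  have h9 : ∀ v, ∃ w, lg F p (τ x) v = τ x w - w := fun v => by
    simpa [eq_comm] using (hA 1).1.le ⟨v, rfl⟩
  have h10 : τ x ((lg F p (τ x) ^ (p - 1)) (J.u r')) = _ := h8 (by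
    rw [apply_pow, show p - 1 + 1 = J.s r' by rw [h3 r' h5]; omega, J.nil])
  have h11 : J.μ r' ^ 2 = 1 := by
    by_contra h11
    refine J.ne_zero r' (i := p - 1) (by rw [h3 r' h5]; omega) (hB _ (J.ext' fun i k => ?_))
    rcases k with _ | k
    · by_cases hi : i = r
      · obtain ⟨w, hw⟩ := h9 ((lg F p (τ x) ^ (p - 2)) (J.u r'))
        rw [apply_pow, show p - 2 + 1 = p - 1 by omega] at hw
        have := hB' x w (J.u r)
        rw [h8 (u := J.u r) (by simpa [show J.s r = 1 by omega] using J.nil r)] at this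
        simp [hi, hw, this]
      · obtain rfl : i = r' := mem_singleton.1 (hr'.le (mem_erase.2 ⟨hi, mem_univ _⟩))
        have := hB' y ((lg F p (τ x) ^ (p - 1)) (J.u i)) (J.u i)
        rw [weight_pow' (h.weight τ) _ (J.wt i), J.wt, h.pow_eq_one_iff'.2
          ⟨t, by have := h.te; rw [mul_comm]; omega⟩] at this
        simp only [map_smul, LinearMap.smul_apply, smul_eq_mul, mul_one, ← mul_assoc, ← sq] at this
        exact (mul_left_eq_self₀.1 this).resolve_left h11
    · obtain ⟨w, hw⟩ := h9 ((lg F p (τ x) ^ k) (J.u i))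
      have := hB' x ((lg F p (τ x) ^ (p - 1)) (J.u r')) w
      rw [h10] at this
      rw [← apply_pow, hw, map_sub, this, sub_self, LinearMap.zero_apply]
  rw [h11, mul_one] at h7
  rw [h6, h7, h11, one_add_one_eq_two]

omit τ J in
/-- A real character of degree `p + 1` with suitable values gives a map to `PGL₂`. -/
theorem exists_pgl_succ [IsSimpleGroup G] (hG : commutator G = ⊤) (he : 3 ≤ e) (ht : Even t)
    {M : Ideal AlgInt} (hM : IsPModular p M) [CharP (Blk.F M) p] {θ : G → ℂ}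
    (hθ : IsIrrCharacter G θ) (hd : charDegree θ = p + 1) (hr : ∀ g, θ g⁻¹ = θ g)
    {K : Subgroup G} [Fintype K] (hK : ¬ p ∣ Nat.card K) (hK0 : ∑ k : K, θ k = 0) {c : ℂ}
    (hc : c ^ e = 1) (hc1 : c ≠ 1) (hv : θ (y ^ 2) = c + c⁻¹) :
    ∃ π : G →* PGL(2, Blk.F M), π x ≠ 1 := by
  classical
  have := isAlgClosed_F (M := M)
  have := Fintype.ofFinite G
  obtain ⟨σ, hσ, hl⟩ := exists_loc hM hθ
  obtain ⟨m, hm⟩ := ht
  have hte := h.te
  have h1 : LinearMap.trace _ _ (rep (res M) σ (y ^ 2)) ≠ 2 := fun e1 => by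
    have hcV := mem_V_of_pow_eq_one (M := M) h.e_pos.ne' hc
    have h0 := red_ne_zero_of_pow_eq_one (M := M) h.e_pos.ne' hc
    rw [rep_apply, trace_lin, ← red_coe, hσ, hv, red_add hcV (mem_V_of_pow_eq_one h.e_pos.ne'
      (by rw [inv_pow, hc, inv_one])), red_inv] at e1
    refine hc1 (eq_one_of_red_eq_one hM (fun e2 => h.reg (e2.trans h.dvd_orderOf)) hc
      (sub_eq_zero.1 (pow_eq_zero_iff two_ne_zero |>.1 ?_)))
    field_simp at e1
    linear_combination e1
  have h2 : ∑ k : K, rep (res M) σ k = 0 := by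
    obtain ⟨u, u1, u2, u3⟩ := exists_inv hM hK
    have h3 : ∀ k : K, σ k * (u • ∑ k : K, σ k) = u • ∑ k : K, σ k := fun k => by
      rw [mul_smul_comm, mul_sum]
      exact congrArg _ (Fintype.sum_equiv (Equiv.mulLeft k) _ _ fun _ => by simp)
    have h4 : (u • ∑ k : K, σ k) * (u • ∑ k : K, σ k) = u • ∑ k : K, σ k := by
      rw [smul_mul_assoc, sum_mul, sum_congr rfl fun k _ => h3 k, sum_const, card_univ,
        ← Nat.card_eq_fintype_card, ← Nat.cast_smul_eq_nsmul (V M), smul_smul, u1, one_smul]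
    obtain ⟨k, k1, k2⟩ := finrank_le_trace h4
    have h5 := k2 (LinearMap.range (lin (res M) (u • ∑ k : K, σ k))) (by
      rintro _ ⟨v, rfl⟩
      rw [← End.mul_apply, ← map_mul, h4])
    simp only [Matrix.trace_smul, Matrix.trace_sum, smul_eq_mul] at k1
    push_cast at k1
    simp only [hσ, hK0, mul_zero, eq_comm (a := (0 : ℂ)), Nat.cast_eq_zero] at k1
    rw [k1, Nat.le_zero, Submodule.finrank_eq_zero, LinearMap.range_eq_bot, lin_smul, u3, map_sum,
      smul_eq_zero, inv_eq_zero, CharP.cast_eq_zero_iff _ p] at h5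
    exact h5.resolve_left hK
  have h3 : ∀ {W : Type} [AddCommGroup W] [Module (Blk.F M) W] [Nontrivial W]
      (τ : Representation (Blk.F M) G W), ∑ k : K, τ k = 0 → ∃ g, τ g ≠ 1 := fun τ h3 => by
    by_contra! h4
    simp only [h4, sum_const, card_univ, ← Nat.card_eq_fintype_card,
      ← Nat.cast_smul_eq_nsmul (Blk.F M), smul_eq_zero, one_ne_zero, or_false] at h3
    exact hK ((CharP.cast_eq_zero_iff _ p _).1 h3)
  by_cases h4 : ∃ W : Submodule (Blk.F M) (Fin (charDegree θ) → Blk.F M), W ≠ ⊥ ∧ W ≠ ⊤ ∧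
      ∀ g, W ≤ W.comap (rep (res M) σ g)
  · obtain ⟨W, w1, w2, w3⟩ := h4
    have := Submodule.nontrivial_iff_ne_bot.2 w1
    have := Submodule.Quotient.nontrivial_iff.2 w2
    have h5 := W.finrank_quotient_add_finrank
    rw [finrank_fin_fun] at h5
    obtain h6 | ⟨h6, h7⟩ := h.piece hy ((rep (res M) σ).subrepresentation W w3) hG he
      (dvd_mul_left e m) (by rw [hm] at hte; linarith) (h3 _ (LinearMap.ext fun v => Subtype.ext (by
        simpa [Representation.subrepresentation] using LinearMap.congr_fun h2 v)))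
    · exact h6
    obtain h8 | ⟨h8, h9⟩ := h.piece hy ((rep (res M) σ).quotient W w3) hG he
      (dvd_mul_left e m) (by rw [hm] at hte; linarith) (h3 _ (W.linearMap_qext (LinearMap.ext
        fun v => by simpa [Representation.quotient] using congrArg W.mkQ (LinearMap.congr_fun h2 v))))
    · exact h8
    rw [hm, add_mul] at hte
    exact absurd ((trace_eq_add _ W (w3 _)).trans ((congrArg₂ (· + ·) (h7 (by omega))
      (h9 (by omega))).trans one_add_one_eq_two)) h1
  have h5 := finrank_le_of_red (rep (inc M) (dual (kron σ σ))).invariants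
    (rep (res M) (dual (kron σ σ))).invariants fun w hw g => by
      have := hw g
      rw [rep_apply, lin_comp] at this ⊢
      exact congrArg _ (funext fun i => Subtype.ext (congrFun this i))
  have h6 : (rep (inc M) (dual (kron σ σ))).invariants ≠ ⊥ := fun e1 => by
    have e2 : ∑ g, rep (inc M) (dual (kron σ σ)) g = 0 := LinearMap.ext fun v => e1.le fun g => by
      rw [LinearMap.sum_apply, map_sum]
      exact Fintype.sum_equiv (Equiv.mulLeft g) _ _ fun _ => by simp
    have e3 := congrArg (LinearMap.trace ℂ _) e2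
    rw [map_sum, sum_congr rfl (g := fun g => θ g * (starRingEnd ℂ) (θ g)) fun g _ => by
      rw [rep_apply, trace_lin, ← hθ.isCharacter.apply_inv, ← hr g, ← hσ]
      exact congrArg _ ((Matrix.trace_transpose _).trans (Matrix.trace_kronecker _ _)),
      ← card_mul_classInner, hθ.inner_self, mul_one, map_zero] at e3
    exact card_ne_zero G e3
  obtain ⟨v, v1, v2⟩ := Submodule.exists_mem_ne_zero_of_ne_bot (Submodule.finrank_eq_zero.not.1
    ((Nat.pos_of_ne_zero (Submodule.finrank_eq_zero.not.2 h6)).trans_le h5).ne')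
  obtain ⟨B, hB⟩ : ∃ B : _ →ₗ[Blk.F M] _ →ₗ[Blk.F M] Blk.F M, ∀ u u', B u u' = v ⬝ᵥ ten _ _ _ u u' :=
    ⟨(ten _ _ _).compr₂ (dotProductBilin (Blk.F M) (Blk.F M) v), fun _ _ => rfl⟩
  have h7 : ∀ g u u', B (rep (res M) σ g u) (rep (res M) σ g u') = B u u' := fun g u u' => by
    have := v1 g⁻¹
    rw [hB, hB, rep_apply, ← lin_ten, lin_apply, Matrix.dotProduct_mulVec, ← Matrix.mulVec_transpose]
    conv_rhs => rw [← this]
    simp [rep_apply, lin_apply, dual, kron, Matrix.transpose_map]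
  refine absurd (h.trace_of_form hy _ hG he (zsc hθ hσ) hl ((finrank_fin_fun _).trans hd)
    (fun u hu => by_contra fun hu' => h4 ⟨LinearMap.ker B, fun e1 => hu' (e1.le hu), fun e1 =>
      v2 (funext fun q => ?_), fun g u hu => LinearMap.ext fun u' => ?_⟩) h7) h1
  · simpa [hB, dotProduct, ten_apply, Pi.single_apply, Fintype.sum_prod_type] using
      LinearMap.congr_fun (e1.ge (Submodule.mem_top (x := Pi.single q.1 1))) (Pi.single q.2 1)
  · have := h7 g u (rep (res M) σ g⁻¹ u')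
    rwa [← End.mul_apply, ← map_mul, mul_inv_cancel, map_one, show B u = 0 from hu] at this

end Ex

end CL.M1
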