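import Cfsg.Agent.BLK.M1Ito
import Cfsg.Agent.CHAR.BSChar
import Cfsg.Agent.CHAR.FrobKernel

/-! Cyclic TI subgroups of index two in their normalizer; characters of degree `p`. -/

set_option autoImplicit false
set_option linter.unusedSectionVars false
open Cfsg Module Finset Subgroup CL.D1T CL.Blk CL.Char

namespace CL.M1

variable {G : Type*} [Group G] [Finite G] {E H : Subgroup G}

theorem inv_of_ti [IsSimpleGroup G] {y : G} (hE : zpowers y = E) (hH : H ≤ normalizer (E : Set G))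
    (hi : E.relIndex H = 2) (hTI : ∀ g, g ∉ H → ∀ k ∈ E, g * k * g⁻¹ ∈ E → k = 1) (hH' : H ≠ ⊤)
    (hle : E ≤ H) {w : G} (hw : w ∈ H) (hw' : w ∉ E) {k : G} (hk : k ∈ E) : w * k * w⁻¹ = k⁻¹ := by
  classical
  have hc : ∀ {a b}, a ∈ E → b ∈ E → a * b = b * a := by
    subst hE
    rintro _ _ ⟨i, rfl⟩ ⟨j, rfl⟩
    exact zpow_mul_comm y i j
  have h1 : ∀ {a b}, a ∈ H → b ∈ H → (a * b ∈ E ↔ (a ∈ E ↔ b ∈ E)) := fun {a b} ha hb =>
    mul_mem_iff_of_index_two (H := E.subgroupOf H) hi (a := ⟨a, ha⟩) (b := ⟨b, hb⟩)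
  have h2 : ∀ {a k}, a ∈ H → k ∈ E → a * k * a⁻¹ ∈ E := fun ha hk =>
    (mem_normalizer_iff.1 (hH ha) _).1 hk
  have h3 : ∀ {a b k}, a ∈ H → a ∉ E → b ∈ H → b ∉ E → k ∈ E → a * k * a⁻¹ = b * k * b⁻¹ :=
    fun {a b k} ha ha' hb hb' hk => by
      have := hc ((h1 (inv_mem hb) ha).2 (by simp [ha', hb'])) hk
      calc _ = b * (b⁻¹ * a * k) * a⁻¹ := by group
        _ = _ := by rw [this]; group
  obtain ⟨V, hV⟩ : ∃ V : H →* G, ∀ s : H,
      V s = if (s : G) ∈ E then s * (w * s * w⁻¹) else (s : G) * s := by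
    refine ⟨MonoidHom.mk' (fun s => if (s : G) ∈ E then s * (w * s * w⁻¹) else (s : G) * s)
      fun ⟨a, ha⟩ ⟨b, hb⟩ => ?_, fun _ => rfl⟩
    by_cases ha' : a ∈ E <;> by_cases hb' : b ∈ E <;>
      simp only [MulMemClass.mk_mul_mk, h1 ha hb, ha', hb', if_true, if_false, iff_true, iff_false,
        not_true]
    · calc _ = a * (b * (w * a * w⁻¹)) * (w * b * w⁻¹) := by group
        _ = _ := by rw [hc hb' (h2 hw ha')]; group
    · rw [h3 hw hw' hb hb' ha']; group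
    · calc _ = a * b * a⁻¹ * (a * a * b) := by group
        _ = _ := by
          rw [hc (h2 ha hb') (mul_mem ((h1 ha ha).2 Iff.rfl) hb'), h3 hw hw' ha ha' hb']; group
    · rw [h3 hw hw' (inv_mem ha) (by simpa) ((h1 ha hb).2 (by simp [ha', hb'])),
        hc ((h1 ha ha).2 Iff.rfl) ((h1 hb hb).2 Iff.rfl)]
      calc _ = a * (b * b) * a⁻¹ * (a * a) := by group
        _ = _ := by rw [h3 ha ha' hb hb' ((h1 hb hb).2 Iff.rfl)]; group
  obtain ⟨M, m1, -, m2, m3, -⟩ := frobenius_wielandt H (V.ker.map H.subtype) (map_subtype_le _)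
    (by rw [subgroupOf, comap_map_eq_self_of_injective H.subtype_injective]; infer_instance)
    fun g hg s hs hs' => ⟨⟨s, hs⟩, by
      have h4 := hTI g hg _ ((h1 hs hs).2 Iff.rfl) (by simpa [mul_assoc] using (h1 hs' hs').2 Iff.rfl)
      rw [SetLike.mem_coe, MonoidHom.mem_ker, hV]
      split_ifs with h5
      · obtain ⟨r, hr⟩ := hE.ge (h2 hw (hE.le (mem_zpowers y)))
        obtain ⟨i, rfl⟩ := hE.ge h5
        have h6 : w * y ^ i * w⁻¹ = (y ^ i) ^ r := by
          rw [← conj_zpow, ← hr, ← zpow_mul, ← zpow_mul, mul_comm]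
        obtain ⟨j, rfl | rfl⟩ := r.even_or_odd' <;>
          simp only [zpow_add_one, zpow_mul (y ^ i), zpow_two, h4, one_zpow, one_mul] at h6
        · simp [conj_eq_one_iff.1 h6]
        · simpa only [h6] using h4
      · exact h4, rfl⟩
  rcases m1.eq_bot_or_eq_top with rfl | rfl
  · exact absurd (by simpa using m3) hH'
  · obtain ⟨⟨k', hk'⟩, h4, rfl⟩ := m2.le ⟨mem_top k, hle hk⟩
    exact eq_inv_of_mul_eq_one_right (((hV _).trans (if_pos hk)).symm.trans h4)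

theorem ind_val [Fintype G] (hle : E ≤ H) (hi : E.relIndex H = 2) (lam : E →* ℂˣ)
    (hTI : ∀ g, g ∉ H → ∀ k ∈ E, g * k * g⁻¹ ∈ E → k = 1)
    (hinv : ∀ w ∈ H, w ∉ E → ∀ k ∈ E, w * k * w⁻¹ = k⁻¹) (k : E) :
    indFun E (fun k => (lam k : ℂ) - 1) k = lam k + (lam k : ℂ)⁻¹ - 2 := by
  classical
  have h1 : ∀ g : G, extendByZero E (fun k => (lam k : ℂ) - 1) (g * k * g⁻¹) =
      (if g ∈ E then (lam k : ℂ) - (lam k : ℂ)⁻¹ else 0) + if g ∈ H then (lam k : ℂ)⁻¹ - 1 else 0 :=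
    fun g => by
      by_cases h1 : g ∈ E
      · rw [extendByZero_conj_mem E (θ := fun k => (lam k : ℂ) - 1) ((isIrrCharacter_hom
          lam).isClassFunction.sub isIrrCharacter_one.isClassFunction) h1, extendByZero_coe, if_pos h1, if_pos (hle h1)]
        simp
      by_cases h2 : g ∈ H
      · rw [hinv g h2 h1 k k.2, ← Subgroup.coe_inv, extendByZero_coe]; simp [h1, h2]
      by_cases h3 : g * k * g⁻¹ ∈ E
      · simp [hTI g h2 k k.2 h3, extendByZero_one, h1, h2]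
      · simp [extendByZero_of_not_mem _ _ h3, h1, h2]
  have h2 : ∀ K : Subgroup G, #{g | g ∈ K} = Nat.card K := fun K => by
    rw [Nat.card_eq_fintype_card, Fintype.card_subtype]
  have h3 := (E.subgroupOf H).card_mul_index
  rw [show (E.subgroupOf H).index = 2 from hi, Nat.card_congr (subgroupOfEquivOfLe hle).toEquiv] at h3
  simp only [indFun_apply', h1, sum_add_distrib, ← sum_filter, sum_const, h2, ← h3, nsmul_eq_mul]
  have := card_subgroup_ne_zero E
  push_cast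
  field_simp
  ring

theorem exists_succ [Fintype G] (hle : E ≤ H) (hi : E.relIndex H = 2) (lam : E →* ℂˣ)
    (hTI : ∀ g, g ∉ H → ∀ k ∈ E, g * k * g⁻¹ ∈ E → k = 1)
    (hinv : ∀ w ∈ H, w ∉ E → ∀ k ∈ E, w * k * w⁻¹ = k⁻¹) (h2 : ∃ k, lam k ^ 2 ≠ 1) {ψ : G → ℂ}
    (hψ : IsIrrCharacter G ψ) (h1 : ψ ≠ fun _ => 1) (hr : ∀ g, ψ g⁻¹ = ψ g)
    (hv : ∀ k ∈ E, k ≠ 1 → ψ k = 1) : ∃ θ, IsIrrCharacter G θ ∧ θ 1 = ψ 1 + 1 ∧
      (∀ g, θ g⁻¹ = θ g) ∧ ∀ k : E, k ≠ 1 → θ k = lam k + (lam k : ℂ)⁻¹ := by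
  classical
  have h3 := ind_val hle hi lam hTI hinv
  have h4 : classInner (fun k => (lam k : ℂ) - 1) (fun _ : E => 1) = -1 := by
    obtain ⟨k, hk⟩ := h2
    refine (classInner_sub_left _ _ _).trans ?_
    rw [isIrrCharacter_one.inner_self, (isIrrCharacter_hom lam).inner_of_ne isIrrCharacter_one
      fun e => hk (by rw [hom_coe_eq_one_iff.1 e]; simp), zero_sub]
  obtain ⟨χ, χ', a1, a2, -, -, a3⟩ := CL.BSQ.exists_of_norm_three (Θ := indFun E fun k => lam k - 1)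
    ((isIrrCharacter_hom lam).isGen.sub isIrrCharacter_one.isGen).ind
    (CL.BSQ.norm_ind_eq_three E H hle hi lam (fun g hg k hk e => hk (by
      rw [show k = 1 from Subtype.ext (hTI g⁻¹ (by simpa) k k.2 (by simpa))]; simp))
      (fun g hg hg' k => by
        have := hinv g⁻¹ (inv_mem hg) (by simpa) k k.2
        rw [inv_inv] at this
        exact ⟨this ▸ inv_mem k.2, by simp only [this]; exact map_inv lam k⟩) h2)
    ((classInner_indFun_left _ _ isIrrCharacter_one.isClassFunction).trans h4)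
    (by simpa [one_add_one_eq_two] using h3 1)
  have h5 : χ' = ψ := by
    by_contra h5
    have h6 := classInner_indFun_left E (fun k => (lam k : ℂ) - 1) hψ.isClassFunction
    rw [show indFun E _ = χ - χ' - fun _ => 1 from funext a3, classInner_sub_left,
      classInner_sub_left, a2.inner_of_ne hψ h5, isIrrCharacter_one.inner_of_ne hψ h1.symm,
      classInner_def (G := E), sum_congr rfl (g := fun k => ((lam k : ℂ) - 1) * (starRingEnd ℂ) 1)
        fun k _ => by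
          by_cases hk : k = 1
          · simp [hk]
          · rw [hv k k.2 (by simpa)], ← classInner_def, h4] at h6
    by_cases h7 : χ = ψ
    · rw [h7, hψ.inner_self] at h6; norm_num at h6
    · rw [a1.inner_of_ne hψ h7] at h6; norm_num at h6
  subst h5
  have h6 : ∀ g, χ g = indFun E (fun k => (lam k : ℂ) - 1) g + χ' g + 1 := fun g => by
    rw [show indFun E _ g = _ from a3 g]; ring
  refine ⟨χ, a1, by rw [h6, ← coe_one E, h3]; simp; ring, fun g => ?_, fun k hk => by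
    rw [h6, h3, hv k k.2 (by simpa)]; ring⟩
  rw [h6, h6, hr]
  congr 2
  by_cases h7 : ∃ c : G, c⁻¹ * g * c ∈ E
  · obtain ⟨c, hc⟩ := h7
    have e1 := h3 ⟨_, hc⟩
    have e2 := h3 ⟨_, hc⟩⁻¹
    rw [(indFun_isClassFunction E _).conj_inv] at e1
    rw [Subgroup.coe_inv, show (c⁻¹ * g * c)⁻¹ = c⁻¹ * g⁻¹ * c by group,
      (indFun_isClassFunction E _).conj_inv] at e2
    rw [e1, e2]; simp [add_comm]
  · push Not at h7
    rw [indFun_eq_zero_of_not_conj _ _ _ h7, indFun_eq_zero_of_not_conj _ _ _ fun c hc =>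
      h7 c (by simpa [mul_assoc] using inv_mem hc)]

variable {p : ℕ} [hp : Fact p.Prime] {x y : G} {b : ZMod p} {e t : ℕ}

theorem Ex.of_mul (h : Ex p x y b e t) (j : ℕ) (hr : ¬ p ∣ orderOf (x ^ j * y)) :
    Ex p x (x ^ j * y) b e t := by
  refine ⟨h.toPZ, hr, ?_, h.ordb, h.cardA, h.te, fun n hn => ?_⟩
  · calc _ = x ^ j * (y * x * y⁻¹) * (x ^ j)⁻¹ := by group
      _ = _ := by rw [h.conj]; group
  have h1 : ∀ i : ℕ, y ^ i * ((x ^ j * y) ^ i)⁻¹ ∈ zpowers x := fun i => by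
    induction i with
    | zero => simp
    | succ i ih =>
      convert mul_mem ((mem_normalizer_iff.1 h.y_mem _).1 ih) (inv_mem (npow_mem_zpowers x j)) using 1
      rw [pow_succ' y, pow_succ' (x ^ j * y)]; simp [mul_assoc]
  obtain ⟨z, hz, i, k, rfl⟩ := h.gen n hn
  obtain ⟨l, hl⟩ := mem_powers_iff_mem_zpowers.2 (h1 i)
  exact ⟨z, hz, i, k + l, by rw [pow_add, show x ^ l = _ from hl]; group⟩

theorem Ex.deg_p (h : Ex p x y b e t) {ψ : G → ℂ} (hψ : IsIrrCharacter G ψ)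
    (hd : charDegree ψ = p) : ∃ μ : ℂ, μ ^ orderOf y = 1 ∧ (∀ i, ¬ e ∣ i → ψ (y ^ i) = μ ^ i) ∧
      (commutator G = ⊤ → y ^ e = 1 → Even t → μ = 1) := by
  classical
  obtain ⟨M, hM⟩ := CL.BS.exists_isPModular p hp.out
  have := charP_F hM
  have := isAlgClosed_F (M := M)
  obtain ⟨σ, hσ, hl⟩ := exists_loc hM hψ
  obtain ⟨J⟩ := h.nonempty_jor (rep (res M) σ)
  have h1 := (J.sum_s.trans (finrank_fin_fun _)).trans hd
  have h2 := J.le_of_pow ((asc_lg (h.x_pow _)).pow_p (h.x_pow _))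
  have h3 : ∀ r, J.s r = p := fun r => (h2 r).antisymm (not_lt.1 fun hr => by
    rw [← add_sum_erase _ _ (mem_univ r), sum_congr rfl fun r' hr' => (h2 r').antisymm (not_lt.1
      fun e => ne_of_mem_erase hr' (h.eq_of_lt (zsc hψ hσ) hl J e hr)), sum_const, smul_eq_mul] at h1
    exact Nat.not_dvd_of_pos_of_lt (J.pos r) hr ((Nat.dvd_add_left (dvd_mul_left p _)).1 h1.symm.dvd))
  rw [sum_congr rfl fun r _ => h3 r, sum_const, smul_eq_mul, mul_eq_right₀ hp.out.ne_zero,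
    card_univ, Fintype.card_eq_one_iff] at h1
  obtain ⟨r, hr⟩ := h1
  obtain ⟨μ, m1, m2, m3⟩ := h.trace_jor hM σ J
  refine ⟨μ r, m1 r, fun i hi => ?_, fun hG hy ⟨m, hm⟩ => eq_one_of_red_eq_one hM h.reg (m1 r) ?_⟩
  · obtain ⟨β, b1, b2, b3⟩ := m3 i hi
    rw [← hσ, b3, Fintype.sum_eq_single r fun r' h => (h (hr r')).elim,
      (h3 r).trans h.te.symm, (geom_one b1 b2).2, mul_one]
  · have h4 := J.det_eq (h.weight _)
    have h5 := sum_range_id_mul_two (t * e + 1)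
    rw [det_eq_one hG, Fintype.prod_eq_single r fun r' h => (h (hr r')).elim,
      (h3 r).trans h.te.symm, pow_succ, h.μ_pow hy _ J r (dvd_mul_left _ _), one_mul,
      h.pow_eq_one_iff'.2 ⟨(t * e + 1) * m, by rw [Nat.add_sub_cancel, hm] at h5; rw [hm]; linarith⟩,
      mul_one] at h4
    rw [m2, h4]

end CL.M1
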