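import Mathlib
import Cfsg.Agent.BLK.PairDict
import Cfsg.Agent.BLK.CycLift
import Cfsg.Agent.BLK.Deg

/-! Blocks of minimal dimension are nilpotent (Linckelmann). -/

open MonoidAlgebra Subgroup Module
open scoped CL.MSS

namespace CL.Blk

variable {F : Type*} [Field F] {G : Type*} [Group G] [Finite G] {p : ℕ}

/-- The two-sided action through a pair of homomorphisms. -/
@[reducible] def biAct {R : Type*} [Group R] (l r : R →* G) : MulAction R G where
  smul γ g := l γ * g * (r γ)⁻¹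
  one_smul g := by change l 1 * g * (r 1)⁻¹ = g; simp
  mul_smul a b g := by
    change l (a * b) * g * (r (a * b))⁻¹ = l a * (l b * g * (r b)⁻¹) * (r a)⁻¹
    simp [mul_assoc]

omit [Finite G] in
theorem exists_bifixed_of_sum_ne_zero (hp : p.Prime) (hF : (p : F) = 0) {R : Type*} [Group R]
    [Finite R] (hR : IsPGroup p R) (l r : R →* G) (f : G → F)
    (hf : ∀ γ x, f (l γ * x * (r γ)⁻¹) = f x) (X : Finset G)
    (hX : ∀ γ, ∀ x ∈ X, l γ * x * (r γ)⁻¹ ∈ X) (h : ∑ x ∈ X, f x ≠ 0) :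
    ∃ x ∈ X, f x ≠ 0 ∧ ∀ γ, l γ * x * (r γ)⁻¹ = x := by
  classical
  letI := biAct l r
  by_contra hcon
  push Not at hcon
  refine h ?_
  rw [← Finset.sum_filter_ne_zero]
  refine sum_eq_zero_of_no_fixed_action hp hR (nsmul_eq_zero_of_cast hF) f hf _
    (fun γ x hx => ?_) fun x hx => hcon x (Finset.mem_filter.1 hx).1 (Finset.mem_filter.1 hx).2
  rw [Finset.mem_filter] at hx ⊢
  exact ⟨hX γ x hx.1, (hf γ x).symm ▸ hx.2⟩

omit [Finite G] in
theorem coeff_bimul (s t g : G) (a : F[G]) :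
    (single s (1 : F) * a * single t 1).coeff g = a.coeff (s⁻¹ * g * t⁻¹) := by
  rw [coeff_mul_single', coeff_single_mul', mul_one, one_mul, mul_assoc]

omit [Finite G] in
theorem exists_bifixed (hp : p.Prime) (hF : (p : F) = 0) {S : Subgroup G} [Finite S]
    (hS : IsPGroup p S) (W : Submodule F F[G])
    (hW : ∀ s ∈ S, ∀ t ∈ S, ∀ a ∈ W, single s (1 : F) * a * single t 1 ∈ W) {v : F[G]}
    (hv : v ∈ W) (h0 : v ≠ 0) :
    ∃ w ∈ W, w ≠ 0 ∧ ∀ s ∈ S, ∀ t ∈ S, ∀ g, w.coeff (s * g * t) = w.coeff g := by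
  let _ : DistribMulAction (S × S) W :=
    { smul := fun u v => ⟨single (u.1 : G) (1 : F) * (v : F[G]) * single (u.2 : G)⁻¹ 1,
        hW _ u.1.2 _ (inv_mem u.2.2) _ v.2⟩
      one_smul := fun v => Subtype.ext (by
        change single (1 : G) (1 : F) * (v : F[G]) * single (1 : G)⁻¹ 1 = (v : F[G])
        rw [inv_one, ← one_def, one_mul, mul_one])
      mul_smul := fun u u' v => Subtype.ext (by
        change single ((u.1 : G) * u'.1) (1 : F) * (v : F[G]) * single ((u.2 : G) * u'.2)⁻¹ 1 =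
          single _ _ * (single _ _ * _ * single _ _) * single _ _
        rw [mul_inv_rev, ← one_mul (1 : F), ← single_mul_single, ← single_mul_single]
        simp only [mul_assoc, one_mul])
      smul_zero := fun u => Subtype.ext (by
        change single _ _ * (0 : F[G]) * single _ _ = 0
        rw [mul_zero, zero_mul])
      smul_add := fun u v w => Subtype.ext (by
        change single _ _ * ((v : F[G]) + (w : F[G])) * single _ _ =
          single _ _ * (v : F[G]) * single _ _ + _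
        rw [mul_add, add_mul]; rfl) }
  have hA : (p : F[G]) = 0 := by rw [← map_natCast (algebraMap F F[G]), hF, map_zero]
  have hSS : IsPGroup p (S × S) := fun u => by
    obtain ⟨k, hk⟩ := hS u.1
    obtain ⟨m, hm⟩ := hS u.2
    exact ⟨k + m, Prod.ext (by rw [Prod.pow_fst, pow_add, pow_mul, hk, one_pow]; rfl)
      (by rw [Prod.pow_snd, add_comm, pow_add, pow_mul, hm, one_pow]; rfl)⟩
  obtain ⟨w, hw0, hw⟩ := exists_fixed_ne_zero (V := W) hp hSS
    (fun v => Subtype.ext (nsmul_eq_zero_of_cast hA (v : F[G]))) (v := ⟨v, hv⟩)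
    (fun h => h0 (congrArg Subtype.val h))
  refine ⟨w, w.2, fun h => hw0 (Subtype.ext h), fun s hs t ht g => ?_⟩
  have h1 : single s⁻¹ (1 : F) * (w : F[G]) * single t⁻¹ 1 = (w : F[G]) :=
    congrArg Subtype.val (hw (⟨s⁻¹, inv_mem hs⟩, ⟨t, ht⟩))
  conv_rhs => rw [← h1, coeff_bimul]
  simp

/-- The double coset `S h S`. -/
def dbl (S : Subgroup G) (h : G) : Set G := {x | ∃ s ∈ S, ∃ t ∈ S, s * h * t = x}

omit [Finite G] in
theorem self_mem_dbl (S : Subgroup G) (h : G) : h ∈ dbl S h :=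
  ⟨1, one_mem _, 1, one_mem _, by simp⟩

omit [Finite G] in
theorem mul_mem_dbl {S : Subgroup G} {h x s t : G} (hx : x ∈ dbl S h) (hs : s ∈ S) (ht : t ∈ S) :
    s * x * t ∈ dbl S h := by
  obtain ⟨a, ha, b, hb, rfl⟩ := hx
  exact ⟨s * a, mul_mem hs ha, b * t, mul_mem hb ht, by group⟩

omit [Finite G] in
theorem mul_mem_dbl_iff {S : Subgroup G} {h x s t : G} (hs : s ∈ S) (ht : t ∈ S) :
    s * x * t ∈ dbl S h ↔ x ∈ dbl S h :=
  ⟨fun hx => by simpa [mul_assoc] using mul_mem_dbl hx (inv_mem hs) (inv_mem ht),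
    fun hx => mul_mem_dbl hx hs ht⟩

omit [Finite G] in
theorem dbl_eq_of_mem {S : Subgroup G} {h x : G} (hx : x ∈ dbl S h) : dbl S x = dbl S h := by
  obtain ⟨a, ha, b, hb, rfl⟩ := hx
  ext y
  constructor
  · rintro ⟨s, hs, t, ht, rfl⟩
    exact mul_mem_dbl (mul_mem_dbl (self_mem_dbl S h) ha hb) hs ht
  · rintro ⟨s, hs, t, ht, rfl⟩
    exact ⟨s * a⁻¹, mul_mem hs (inv_mem ha), b⁻¹ * t, mul_mem (inv_mem hb) ht, by group⟩

theorem card_dbl_mul (S : Subgroup G) (h : G) :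
    Nat.card (dbl S h) * Nat.card (S ⊓ h⁻¹ •ᶜ S : Subgroup G) = Nat.card S ^ 2 := by
  letI := biAct (S.subtype.comp (MonoidHom.fst S S)) (S.subtype.comp (MonoidHom.snd S S))
  have hsm : ∀ (γ : S × S) (g : G), γ • g = γ.1 * g * (γ.2 : G)⁻¹ := fun _ _ => rfl
  have h1 : MulAction.orbit (S × S) h = dbl S h := by
    ext x
    constructor
    · rintro ⟨γ, rfl⟩
      exact ⟨_, γ.1.2, _, inv_mem γ.2.2, rfl⟩
    · rintro ⟨s, hs, t, ht, rfl⟩
      exact ⟨(⟨s, hs⟩, ⟨t⁻¹, inv_mem ht⟩), by simp [hsm]⟩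
  have h2 : Nat.card (MulAction.stabilizer (S × S) h) = Nat.card (S ⊓ h⁻¹ •ᶜ S : Subgroup G) := by
    refine Nat.card_congr (Equiv.ofBijective (fun γ => ⟨γ.1.2, γ.1.2.2, ?_⟩) ⟨?_, ?_⟩)
    · have h3 : (γ.1.1 : G) * h * (γ.1.2 : G)⁻¹ = h := γ.2
      refine MSS.mem_cj.2 ?_
      rw [mul_inv_eq_iff_eq_mul] at h3
      rw [inv_inv, ← h3, mul_inv_cancel_right]
      exact γ.1.1.2
    · intro γ δ hγ
      have h3 : (γ.1.1 : G) * h * (γ.1.2 : G)⁻¹ = h := γ.2
      have h4 : (δ.1.1 : G) * h * (δ.1.2 : G)⁻¹ = h := δ.2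
      have h5 : (γ.1.2 : G) = δ.1.2 := Subtype.mk.inj hγ
      refine Subtype.ext (Prod.ext (Subtype.ext ?_) (Subtype.ext h5))
      rw [h5] at h3
      simpa using h3.trans h4.symm
    · rintro ⟨t, ht, ht'⟩
      have h3 := MSS.mem_cj.1 ht'
      rw [inv_inv] at h3
      exact ⟨⟨(⟨_, h3⟩, ⟨t, ht⟩), by simp [hsm]⟩, rfl⟩
  rw [← h1, ← h2, sq, ← Nat.card_prod, ← Nat.card_prod]
  exact Nat.card_congr (MulAction.orbitProdStabilizerEquivGroup _ h)

/-- Elements supported on a set. -/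
def suppOn (F : Type*) [Field F] (X : Set G) : Submodule F F[G] where
  carrier := {a | ∀ g, g ∉ X → a.coeff g = 0}
  add_mem' ha hb g hg := by rw [coeff_add', ha g hg, hb g hg, add_zero]
  zero_mem' _ _ := rfl
  smul_mem' r a ha g hg := by rw [coeff_smul', ha g hg, mul_zero]

omit [Finite G] in
theorem bimul_mem_suppOn {S : Subgroup G} {h s t : G} (hs : s ∈ S) (ht : t ∈ S) {a : F[G]}
    (ha : a ∈ suppOn F (dbl S h)) : single s (1 : F) * a * single t 1 ∈ suppOn F (dbl S h) :=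
  fun g hg => by
    rw [coeff_bimul]
    exact ha _ fun h1 => hg ((mul_mem_dbl_iff (inv_mem hs) (inv_mem ht)).1 h1)

theorem IsCentral.mul_bimul {e : F[G]} (he : IsCentral e) (x a y : F[G]) :
    e * (x * a * y) = x * (e * a) * y := by
  rw [← mul_assoc, ← mul_assoc, he.comm x, mul_assoc x]

open Classical in
/-- Multiplication by `e` is injective on a double coset as soon as it does not kill its sum. -/
theorem eq_zero_of_dbl (hp : p.Prime) (hF : (p : F) = 0) {e : F[G]} (he : IsCentral e)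
    {S : Subgroup G} (hS : IsPGroup p S) {h : G}
    (h0 : e * ofFun (fun g => if g ∈ dbl S h then (1 : F) else 0) ≠ 0) {a : F[G]}
    (ha : a ∈ suppOn F (dbl S h)) (hea : e * a = 0) : a = 0 := by
  by_contra hne
  obtain ⟨w, ⟨hw1, hw2⟩, hw0, hw⟩ := exists_bifixed hp hF hS
    (suppOn F (dbl S h) ⊓ LinearMap.ker (LinearMap.mulLeft F e))
    (fun s hs t ht b hb => ⟨bimul_mem_suppOn hs ht hb.1, by
      have h1 : e * b = 0 := hb.2
      change e * _ = 0
      rw [he.mul_bimul, h1, mul_zero, zero_mul]⟩) (v := a) ⟨ha, hea⟩ hne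
  have h1 : w = w.coeff h • ofFun (fun g => if g ∈ dbl S h then (1 : F) else 0) :=
    ga_ext fun g => by
      rw [coeff_smul', coeff_ofFun]
      split_ifs with hg
      · obtain ⟨s, hs, t, ht, rfl⟩ := hg
        rw [hw s hs t ht, mul_one]
      · rw [hw1 g hg, mul_zero]
  have h2 : e * w = 0 := hw2
  rw [h1, mul_smul_comm, smul_eq_zero] at h2
  exact hw0 (by rw [h1, h2.resolve_right h0, zero_smul])

theorem exists_dbl (hp : p.Prime) (hF : (p : F) = 0) {e : F[G]} (he : IsCentral e)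
    (hee : e * e = e) {D S : Subgroup G} (hD : IsDef p e D) (hS : IsPGroup p S) :
    ∃ h, Nat.card (S ⊓ h⁻¹ •ᶜ S : Subgroup G) ≤ Nat.card D ∧
      ∀ a ∈ suppOn F (dbl S h), e * a = 0 → a = 0 := by
  classical
  have := Fintype.ofFinite G
  obtain ⟨v, hv, hv0, hw⟩ := exists_bifixed hp hF hS (Cyc.rId e)
    (fun s hs t ht b hb => by
      rw [Cyc.mem_rId_idem hee] at hb ⊢
      rw [he.mul_bimul, hb]) (v := e) ((Cyc.mem_rId_idem hee).2 hee)
    (brNe_bot.1 (hD.brNe.mono bot_le))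
  rw [Cyc.mem_rId_idem hee] at hv
  -- decomposition of `v` along double cosets
  have h1 : ∃ h, v.coeff h ≠ 0 ∧ e * ofFun (fun g => if g ∈ dbl S h then (1 : F) else 0) ≠ 0 := by
    by_contra hcon
    push Not at hcon
    refine hv0 ?_
    have h2 : ∀ X : Set G, e * trunc {g | dbl S g = X} v = 0 := fun X => by
      by_cases hX : ∃ h, dbl S h = X ∧ v.coeff h ≠ 0
      · obtain ⟨h, rfl, hh⟩ := hX
        have : trunc {g | dbl S g = dbl S h} v =
            v.coeff h • ofFun (fun g => if g ∈ dbl S h then (1 : F) else 0) := ga_ext fun g => by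
          rw [coeff_smul', coeff_ofFun]
          split_ifs with hg
          · rw [coeff_trunc_of_mem _ (show g ∈ {g | dbl S g = dbl S h} from dbl_eq_of_mem hg)]
            obtain ⟨s, hs, t, ht, rfl⟩ := hg
            rw [hw s hs t ht, mul_one]
          · rw [coeff_trunc_of_notMem _ fun h3 => hg (by
              rw [← show dbl S g = dbl S h from h3]; exact self_mem_dbl S g), mul_zero]
        rw [this, mul_smul_comm, hcon h hh, smul_zero]
      · push Not at hX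
        have : trunc {g | dbl S g = X} v = 0 := ga_ext fun g => by
          rw [coeff_trunc]
          split_ifs with hg
          · exact hX g hg
          · rfl
        rw [this, mul_zero]
    have h3 : v = ∑ X ∈ Finset.univ.image (dbl S), trunc {g | dbl S g = X} v := ga_ext fun g => by
      rw [coeff_sum', Finset.sum_eq_single (dbl S g),
        coeff_trunc_of_mem _ (show g ∈ {g' | dbl S g' = dbl S g} from rfl)]
      · exact fun X _ hX => coeff_trunc_of_notMem _ fun h => hX (Eq.symm h)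
      · exact fun h => (h (Finset.mem_image_of_mem _ (Finset.mem_univ g))).elim
    rw [← hv, h3, Finset.mul_sum]
    exact Finset.sum_eq_zero fun X _ => h2 X
  obtain ⟨h, hh, h2⟩ := h1
  refine ⟨h, ?_, fun a ha hea => eq_zero_of_dbl hp hF he hS h2 ha hea⟩
  set T : Subgroup G := S ⊓ h⁻¹ •ᶜ S with hT
  have hTp : IsPGroup p T := hS.to_le inf_le_left
  rw [← hv, he.comm, coeff_mul_sum] at hh
  obtain ⟨x, -, hx, hfix⟩ := exists_bifixed_of_sum_ne_zero hp hF hTp
    ((MulAut.conj h).toMonoidHom.comp T.subtype) T.subtype _ (fun γ x => by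
      have h3 := MSS.mem_cj.1 γ.2.2
      rw [inv_inv] at h3
      change v.coeff (h * γ * h⁻¹ * x * (γ : G)⁻¹) *
        e.coeff ((h * γ * h⁻¹ * x * (γ : G)⁻¹)⁻¹ * h) = v.coeff x * e.coeff (x⁻¹ * h)
      rw [hw _ h3 _ (inv_mem γ.2.1), ← he (x⁻¹ * h) γ]
      congr 2
      group) _ (fun _ _ _ => Finset.mem_univ _) hh
  refine hD.card_le hTp ⟨x⁻¹ * h, mem_centralizer_iff.2 fun t ht => ?_, right_ne_zero_of_mul hx⟩
  have h3 : h * t * h⁻¹ * x * t⁻¹ = x := hfix ⟨t, ht⟩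
  calc t * (x⁻¹ * h) = x⁻¹ * (h * t * h⁻¹ * x * t⁻¹) * t * (x⁻¹ * h) := by rw [h3]; group
    _ = _ := by group

theorem exists_suppOn_mul_eq {e : F[G]} (hee : e * e = e) {X : Set G}
    (hinj : ∀ a ∈ suppOn F X, e * a = 0 → a = 0) (hdim : finrank F (Cyc.rId e) ≤ Nat.card X) :
    finrank F (Cyc.rId e) = Nat.card X ∧ ∀ v, e * v = v → ∃ a ∈ suppOn F X, e * a = v := by
  classical
  have := Fintype.ofFinite X
  let b : X → Cyc.rId e := fun x => ⟨e * single (x : G) 1, _, rfl⟩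
  have h1 : ∀ c : X → F, ∑ x, c x • single (x : G) (1 : F) ∈ suppOn F X := fun c =>
    Submodule.sum_mem _ fun x _ => Submodule.smul_mem _ _ fun g hg => by
      rw [coeff_single', if_neg fun h : (x : G) = g => hg (h ▸ x.2)]
  have h2 : ∀ c : X → F, ((∑ x, c x • b x : Cyc.rId e) : F[G]) =
      e * ∑ x, c x • single (x : G) (1 : F) := fun c => by
    simp only [b, Finset.mul_sum, Submodule.coe_sum, Submodule.coe_smul, mul_smul_comm]
  have h3 : LinearIndependent F b := Fintype.linearIndependent_iff.2 fun c hc x => by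
    have h4 := hinj _ (h1 c) (by rw [← h2, hc]; rfl)
    have h5 := congrArg (fun a : F[G] => a.coeff x) h4
    simp only [coeff_sum', coeff_smul', coeff_single', coeff_zero', Subtype.coe_inj] at h5
    simpa using h5
  have h4 : Fintype.card X = finrank F (Cyc.rId e) :=
    le_antisymm h3.fintype_card_le_finrank (by rwa [← Nat.card_eq_fintype_card])
  refine ⟨by rw [← h4, Nat.card_eq_fintype_card], fun v hv => ?_⟩
  have h5 := h3.span_eq_top_of_card_eq_finrank' h4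
  obtain ⟨c, hc⟩ := (Submodule.mem_span_range_iff_exists_fun F).1
    (h5 ▸ Submodule.mem_top : (⟨v, (Cyc.mem_rId_idem hee).2 hv⟩ : Cyc.rId e) ∈ _)
  exact ⟨_, h1 c, by rw [← h2, hc]⟩

/-- **Linckelmann**: in a block of minimal dimension, fusion is induced by a Sylow subgroup. -/
theorem exists_conj_of_minDim (hp : p.Prime) (hF : (p : F) = 0) {e : F[G]} (he : IsCentral e)
    (hee : e * e = e) {D S : Subgroup G} (hD : IsDef p e D) (hS : IsPGroup p S) (hDS : D ≤ S)
    (hdim : finrank F (Cyc.rId e) * Nat.card D ≤ Nat.card S ^ 2) {Q : Subgroup G} (hQ : Q ≤ S)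
    (hb : BrNe Q e) {x : G} (hx : x •ᶜ Q ≤ S) : ∃ s ∈ S, ∀ u ∈ Q, x * u * x⁻¹ = s * u * s⁻¹ := by
  classical
  have := Fintype.ofFinite G
  obtain ⟨h, hh, hinj⟩ := exists_dbl hp hF he hee hD hS
  have h1 := card_dbl_mul S h
  have h2 : finrank F (Cyc.rId e) ≤ Nat.card (dbl S h) :=
    Nat.le_of_mul_le_mul_right (hdim.trans (h1 ▸ Nat.mul_le_mul_left _ hh)) Nat.card_pos
  obtain ⟨h3, hsurj⟩ := exists_suppOn_mul_eq hee hinj h2
  have key : ∀ (Q : Subgroup G) (x : G), Q ≤ S → BrNe Q e → x •ᶜ Q ≤ S →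
      ∃ y ∈ dbl S h, ∀ u ∈ Q, x * u * x⁻¹ = y * u * y⁻¹ := by
    rintro Q x hQ ⟨c, hc, hec⟩ hx
    have hxu : ∀ u ∈ Q, x * u * x⁻¹ ∈ S := fun u hu => hx (MSS.mem_cj.2 (by simpa [mul_assoc]))
    obtain ⟨a, ha, hea⟩ := hsurj (e * single x 1) (by rw [← mul_assoc, hee])
    have h4 : ∀ u ∈ Q, ∀ g, a.coeff (x * u * x⁻¹ * g * u⁻¹) = a.coeff g := fun u hu g => by
      have h5 := hinj _ (sub_mem (bimul_mem_suppOn (inv_mem (hxu u hu)) (hQ hu) ha) ha) (by
        rw [mul_sub, he.mul_bimul, hea, ← he.mul_bimul, single_mul_single, single_mul_single]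
        simp [mul_assoc])
      conv_rhs => rw [← sub_eq_zero.1 h5, coeff_bimul, inv_inv]
    have h5 : (a * e).coeff (x * c) ≠ 0 := by
      rw [← he.comm, hea, coeff_mul_single', mul_one, he c x]
      exact hec
    rw [coeff_mul_sum] at h5
    obtain ⟨y, -, hy, hfix⟩ := exists_bifixed_of_sum_ne_zero hp hF (hS.to_le hQ)
      ((MulAut.conj x).toMonoidHom.comp Q.subtype) Q.subtype _ (fun γ y => by
        change a.coeff (x * γ * x⁻¹ * y * (γ : G)⁻¹) *
          e.coeff ((x * γ * x⁻¹ * y * (γ : G)⁻¹)⁻¹ * (x * c)) = a.coeff y * e.coeff (y⁻¹ * (x * c))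
        rw [h4 _ γ.2, ← he (y⁻¹ * (x * c)) γ]
        congr 2
        have h6 := mem_centralizer_iff.1 hc _ (inv_mem γ.2)
        calc _ = γ * y⁻¹ * x * ((γ : G)⁻¹ * c) := by group
          _ = _ := by rw [h6]; group) _ (fun _ _ _ => Finset.mem_univ _) h5
    refine ⟨y, by_contra fun h6 => left_ne_zero_of_mul hy (ha y h6), fun u hu => ?_⟩
    have h6 : x * u * x⁻¹ * y * u⁻¹ = y := hfix ⟨u, hu⟩
    calc x * u * x⁻¹ = (x * u * x⁻¹ * y * u⁻¹) * u * y⁻¹ := by group
      _ = _ := by rw [h6]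
  obtain ⟨h', hh', h4⟩ := key D 1 hDS hD.brNe (by rwa [MSS.cj_one])
  have h5 : D = S ⊓ h'⁻¹ •ᶜ S := by
    refine eq_of_le_of_card_ge (le_inf hDS fun u hu => MSS.mem_cj.2 ?_) ?_
    · rw [inv_inv, ← h4 u hu]
      simpa using hDS hu
    · have h6 := card_dbl_mul S h'
      rw [dbl_eq_of_mem hh', ← h1] at h6
      have : Nonempty (dbl S h) := ⟨⟨h, self_mem_dbl S h⟩⟩
      rw [Nat.eq_of_mul_eq_mul_left Nat.card_pos h6]
      exact hh
  obtain ⟨y, hy, h6⟩ := key Q x hQ hb hx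
  rw [← dbl_eq_of_mem hh'] at hy
  obtain ⟨s, hs, t, ht, rfl⟩ := hy
  refine ⟨s * t, mul_mem hs ht, fun u hu => ?_⟩
  have h7 : t * u * t⁻¹ ∈ D := by
    rw [h5]
    refine ⟨S.mul_mem (S.mul_mem ht (hQ hu)) (S.inv_mem ht), MSS.mem_cj.2 ?_⟩
    have h8 : x * u * x⁻¹ ∈ S := hx (MSS.mem_cj.2 (by simpa [mul_assoc]))
    rw [h6 u hu] at h8
    simpa [mul_assoc] using mul_mem (mul_mem (inv_mem hs) h8) hs
  have h8 := h4 _ h7
  rw [h6 u hu]
  calc _ = s * (h' * (t * u * t⁻¹) * h'⁻¹) * s⁻¹ := by group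
    _ = _ := by rw [← h8]; group

theorem nilF_of_minDim [IsAlgClosed F] (hp : p.Prime) (hF : (p : F) = 0) {e : F[G]} (he : IsCentral e)
    (hee : e * e = e) {D : Subgroup G} (hD : IsDef p e D)
    (hdim : finrank F (Cyc.rId e) * Nat.card D ≤ (p ^ (Nat.card G).factorization p) ^ 2) :
    NilF p e := by
  have : Fact p.Prime := ⟨hp⟩
  intro R g hR x hx
  obtain ⟨S, hS⟩ := hR.pair.pgroup.exists_le_sylow
  obtain ⟨T, hT⟩ := hD.pgroup.exists_le_sylow
  obtain ⟨y, rfl⟩ := MulAction.exists_smul_eq G T S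
  have hxn : x ∈ normalizer (R : Set G) := hx.1
  obtain ⟨s, hs, h1⟩ := exists_conj_of_minDim hp hF he hee (hD.cj he y) (y • T).isPGroup'
    (MSS.cj_mono y hT) (by rwa [MSS.card_cj, Sylow.card_eq_multiplicity]) hS hR.brNe (x := x)
    (by rwa [MSS.cj_eq_of_mem_normalizer hxn])
  obtain ⟨k, hk⟩ := (y • T).isPGroup' ⟨s, hs⟩
  have h2 : ∀ n : ℕ, ∀ u ∈ R, x ^ n * u * (x ^ n)⁻¹ = s ^ n * u * (s ^ n)⁻¹ := fun n => by
    induction n with
    | zero => simp
    | succ n ih =>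
      intro u hu
      have h3 := ih _ ((mem_normalizer_iff.1 hxn u).1 hu)
      calc _ = x ^ n * (x * u * x⁻¹) * (x ^ n)⁻¹ := by rw [pow_succ]; group
        _ = _ := by rw [h3, h1 u hu, pow_succ]; group
  refine ⟨k, mem_centralizer_iff.2 fun u hu => ?_⟩
  have h3 := h2 (p ^ k) u hu
  rw [show s ^ p ^ k = 1 from congrArg Subtype.val hk, one_mul, inv_one, mul_one,
    mul_inv_eq_iff_eq_mul] at h3
  exact h3.symm

open Cfsg in
theorem finrank_rId_eB {M : Ideal AlgInt} (hM : IsPModular p M) {B : Set (IrrCharacter G)}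
    (hB : IsBlockUnion M B) :
    finrank (CL.Blk.F M) (Cyc.rId (eB M B)) = ∑ᶠ χ ∈ B, charDegree (χ : G → ℂ) ^ 2 := by
  classical
  have h1 := Cyc.finrank_rId_redA_cast (hB.isInt hM) (blockIdem_mul_self B)
  rw [finsum_mem_block_eq_ite]
  refine Nat.cast_injective (R := ℂ) (h1.trans ?_)
  push_cast
  refine Finset.sum_congr rfl fun χ _ => ?_
  rw [← mul_one (blockIdem B), charLin_blockIdem_mul]
  split_ifs
  · rw [charLin_one, irr_one_eq, sq]
  · rw [mul_zero]

end CL.Blk
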