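import Mathlib
import Cfsg.Agent.BLK.IBr
import Cfsg.Agent.BLK.Section
import Cfsg.Agent.BLK.KRSum
import Cfsg.Agent.BLK.BlockOrth
import Cfsg.Agent.BLK.FrobCol
import Cfsg.Agent.CHAR.Galois
import Cfsg.Agent.CHAR.Linear

/-!
# Characters of a block fixed by a Galois automorphism over the `p'`-roots of unity
-/

open Cfsg CL.Char Subgroup MonoidAlgebra
open scoped ComplexConjugate

namespace CL.Blk.PRat

variable {p : ℕ} {M : Ideal AlgInt}

open Classical in
/-- An automorphism permutes the Brauer characters: its trace on them is a natural number. -/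
theorem aut_trace {H : Type*} [Group H] [Fintype H] (hM : IsPModular p M)
    {b : Set (IrrCharacter H)} (hb : IsBlockUnion M b) (α : H ≃* H) :
    ∃ n : ℕ, ∑ s : H with ¬ p ∣ orderOf s,
      ∑ ψ with ψ ∈ b, (ψ : H → ℂ) (α s) * conj ((ψ : H → ℂ) s) = Nat.card H * n := by
  obtain ⟨S, hS⟩ := exists_isBrauer hM hb
  have h1 : ∀ s : H, ¬ p ∣ orderOf s →
      ∑ ψ with ψ ∈ b, (ψ : H → ℂ) (α s) * conj ((ψ : H → ℂ) s) =
        ∑ j, S.Φ j (α s) * conj (S.φ j s) := by
    intro s hs
    have h2 : ∀ j, S.Φ j (α s) = ∑ ψ with ψ ∈ b, (S.D ψ j : ℂ) * (ψ : H → ℂ) (α s) := by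
      intro j
      rw [show S.Φ j = zcomb (fun χ => S.D χ j) from rfl, zcomb_apply, Finset.sum_filter]
      refine Finset.sum_congr rfl fun ψ _ => ?_
      split_ifs with h
      · rfl
      · rw [S.D_zero ψ h]; simp
    simp only [h2, Finset.sum_mul]
    rw [Finset.sum_comm]
    refine Finset.sum_congr rfl fun ψ hψ => ?_
    rw [S.apply_eq (Finset.mem_filter.1 hψ).2 (g := s) hs, map_sum, Finset.mul_sum]
    refine Finset.sum_congr rfl fun j _ => ?_
    rw [map_mul, map_intCast]; ring
  have h3 : ∀ j, ∃ n : ℕ, classInner (fun s => S.Φ j (α s)) (S.φ j) = n := by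
    intro j
    obtain ⟨E, hE, hEi, -, -, hED⟩ := hS.prim j
    obtain ⟨m, hm⟩ := hS.idem (amb α.symm.toMonoidHom E) (by rw [← map_mul, hE]) (hEi.amb _)
    refine ⟨m j, ?_⟩
    have h4 : (fun s => S.Φ j (α s)) =
        ∑ ψ : IrrCharacter H, charLin ψ.1 (amb α.symm.toMonoidHom E) • ψ.1 := by
      funext s
      rw [show S.Φ j = zcomb (fun χ => S.D χ j) from rfl, zcomb_apply, Finset.sum_apply]
      refine Fintype.sum_equiv (irrCongr α) _ _ fun ψ => ?_
      rw [Pi.smul_apply, smul_eq_mul, irrCongr_apply, charLin_amb, ← hED]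
      congr 3
      funext h
      simp [irrCongr_apply]
    rw [h4, classInner_sum_left, ← S.inner_sum_Φ_φ (fun i => (m i : ℂ)) j, classInner_sum_left]
    have h5 : ∀ i, classInner ((m i : ℂ) • S.Φ i) (S.φ j) =
        ∑ ψ : IrrCharacter H, (m i : ℂ) * S.D ψ i * classInner ψ.1 (S.φ j) := by
      intro i
      rw [classInner_smul_left, show S.Φ i = zcomb (fun χ => S.D χ i) from rfl,
        classInner_zcomb_left, Finset.mul_sum]
      exact Finset.sum_congr rfl fun ψ _ => by ring
    simp only [h5]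
    rw [Finset.sum_comm]
    refine Finset.sum_congr rfl fun ψ _ => ?_
    rw [classInner_smul_left, ← Finset.sum_mul]
    by_cases hψ : ψ ∈ b
    · rw [hm ψ hψ]
    · rw [classInner_eq_zero_comm.1 (S.inner_φ_irr_of_notMem j hψ), mul_zero, mul_zero]
  choose n hn using h3
  refine ⟨∑ j, n j, ?_⟩
  rw [Finset.sum_congr rfl fun s hs => h1 s (Finset.mem_filter.1 hs).2, Finset.sum_comm,
    Nat.cast_sum, Finset.mul_sum]
  refine Finset.sum_congr rfl fun j _ => ?_
  rw [← hn j, classInner_def, mul_inv_cancel_left₀ (by exact_mod_cast Nat.card_pos.ne'),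
    Finset.sum_filter]
  refine Finset.sum_congr rfl fun s _ => ?_
  split_ifs with h
  · rw [S.φ_of_not j (g := s) (fun h' => h' h), map_zero, mul_zero]
  · rfl

variable {G : Type*} [Group G] [Fintype G]

open Classical in
/-- The contribution of the elements with `p`-part `u`. -/
theorem section_nonneg (hM : IsPModular p M) {A : Set (IrrCharacter G)} (hA : IsBlockUnion M A)
    {k : ℕ} (hk : k.Coprime (Nat.card G)) (hreg : ∀ g : G, ¬ p ∣ orderOf g → g ^ k = g) (u : G) :
    ∃ n : ℕ, ∑ x with IsPPart p x u,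
      ∑ χ with χ ∈ A, (χ : G → ℂ) (x ^ k) * conj ((χ : G → ℂ) x) = n := by
  have hp := hM.1
  by_cases hu : ∃ j, orderOf u = p ^ j
  swap
  · exact ⟨0, by
      rw [Finset.sum_eq_zero fun x hx => absurd (Finset.mem_filter.1 hx).2.pElt hu]; simp⟩
  by_cases hc : IsConj (u ^ k) u
  swap
  · refine ⟨0, ?_⟩
    rw [Finset.sum_eq_zero, Nat.cast_zero]
    intro x hx
    have hx := (Finset.mem_filter.1 hx).2
    exact block_orth_conj_of_int hM (hA.isInt hM) (hx.pow hp k) hx hc
  obtain ⟨g, hg⟩ := isConj_iff.1 hc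
  set C := centralizer ({u} : Set G) with hC
  have hk' : k.Coprime (orderOf u) := hk.coprime_dvd_right (orderOf_dvd_natCard u)
  obtain ⟨m, hm⟩ := exists_pow_eq_self_of_coprime hk'
  have hcen : ∀ s, s ∈ C ↔ Commute (u ^ k) s := by
    intro s
    rw [hC, mem_centralizer_singleton_iff]
    constructor
    · intro h
      exact (show Commute u s from h.symm).pow_left k
    · intro h
      have := h.pow_left m
      rw [hm] at this
      exact this.symm
  have hgn : g ∈ normalizer (C : Set G) := by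
    rw [mem_normalizer_iff]
    intro s
    rw [hcen s, hC, mem_centralizer_singleton_iff]
    generalize u ^ k = w at hg
    subst hg
    constructor
    · intro h
      have := h.eq
      calc g * s * g⁻¹ * (g * w * g⁻¹) = g * (s * w) * g⁻¹ := by group
        _ = g * (w * s) * g⁻¹ := by rw [this]
        _ = _ := by group
    · intro h
      have : s * w = w * s := by
        calc s * w = g⁻¹ * (g * s * g⁻¹ * (g * w * g⁻¹)) * g := by group
          _ = g⁻¹ * (g * w * g⁻¹ * (g * s * g⁻¹)) * g := by rw [h]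
          _ = _ := by group
      exact this.symm
  let α : C ≃* C := C.normalizerMonoidHom ⟨g, hgn⟩
  have hα : ∀ s : C, ((α s : C) : G) = g * s * g⁻¹ := fun s => rfl
  have hsec := isSec_centralizer (p := p) hu
  obtain ⟨n, hn⟩ := aut_trace hM (isBlockUnion_locSet hM C.subtype A) α
  refine ⟨Nat.card C * n, ?_⟩
  rw [Nat.cast_mul, ← hn]
  symm
  refine Finset.sum_bij (fun s _ => u * (s : G)) ?_ ?_ ?_ ?_
  · intro s hs
    exact Finset.mem_filter.2 ⟨Finset.mem_univ _, hsec.isPPart (Finset.mem_filter.1 hs).2⟩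
  · intro s _ t _ h
    exact Subtype.ext (mul_left_cancel h)
  · intro x hx
    obtain ⟨c, hc, h⟩ := hsec.exists_of_isPPart (Finset.mem_filter.1 hx).2
    exact ⟨c, Finset.mem_filter.2 ⟨Finset.mem_univ _, hc⟩, h⟩
  · intro s hs
    have hs := (Finset.mem_filter.1 hs).2
    have hαs : ¬ p ∣ orderOf (α s) := by rwa [MulEquiv.orderOf_eq]
    rw [← hsec.column hM hA hαs hs]
    refine Finset.sum_congr rfl fun χ _ => ?_
    congr 1
    have hsu : Commute u (s : G) := (mem_centralizer_singleton_iff.1 s.2).symm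
    have e1 : (u * (s : G)) ^ k = u ^ k * s := by
      rw [hsu.mul_pow, hreg s (by rwa [Subgroup.orderOf_coe])]
    rw [e1]
    refine χ.2.isClassFunction.eq_of_isConj (isConj_iff.2 ⟨g⁻¹, ?_⟩)
    change g⁻¹ * (u * ((α s : C) : G)) * g⁻¹⁻¹ = _
    rw [hα]
    conv_lhs => rw [← hg]
    group

open Classical in
/-- Brauer's permutation lemma in a block: a Galois automorphism fixing the `p'`-roots of unity
fixes at least `l(B)` characters of `B`. -/
theorem rank_le_card_fixed (hM : IsPModular p M) {A : Set (IrrCharacter G)}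
    (hA : IsBlockUnion M A) {k : ℕ} (hk : k.Coprime (Nat.card G))
    (hreg : ∀ g : G, ¬ p ∣ orderOf g → g ^ k = g) :
    blockRank p A ≤ Nat.card {χ : IrrCharacter G // χ ∈ A ∧ ∀ g, χ.1 (g ^ k) = χ.1 g} := by
  have hp := hM.1
  choose π hπ using exists_isPPart (G := G) hp
  have hG : (Nat.card G : ℂ) ≠ 0 := by exact_mod_cast Nat.card_pos.ne'
  set K : G → ℂ := fun x => ∑ χ with χ ∈ A, (χ : G → ℂ) (x ^ k) * conj ((χ : G → ℂ) x) with hK
  have h1 : ∑ x, K x = Nat.card G *
      Nat.card {χ : IrrCharacter G // χ ∈ A ∧ ∀ g, χ.1 (g ^ k) = χ.1 g} := by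
    rw [hK, Finset.sum_comm, Nat.card_eq_fintype_card (α := {χ : IrrCharacter G // _}),
      Fintype.card_subtype, Finset.card_filter, Nat.cast_sum, Finset.mul_sum, Finset.sum_filter]
    refine Finset.sum_congr rfl fun χ _ => ?_
    by_cases hχ : χ ∈ A
    · have := classInner_irr_irr (powIrr hk χ) χ
      rw [classInner_def] at this
      simp only [powIrr_apply] at this
      rw [if_pos hχ, ← mul_inv_cancel_left₀ hG (∑ x, _), this]
      congr 1
      by_cases h : ∀ g, χ.1 (g ^ k) = χ.1 g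
      · rw [if_pos (Subtype.ext (funext h)), if_pos ⟨hχ, h⟩, Nat.cast_one]
      · rw [if_neg (fun h' => h fun g => by rw [← powIrr_apply hk, h']), if_neg (fun h' => h h'.2),
          Nat.cast_zero]
    · simp [hχ]
  have h2 : ∀ u, ∑ x with π x = u, K x = ∑ x with IsPPart p x u, K x := fun u =>
    Finset.sum_congr (by
      ext x
      simp only [Finset.mem_filter, Finset.mem_univ, true_and]
      exact ⟨fun h => h ▸ hπ x, fun h => (hπ x).unique hp h⟩) fun _ _ => rfl
  choose n hn using section_nonneg hM hA hk hreg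
  have h3 : (n 1 : ℂ) = Nat.card G * blockRank p A := by
    rw [← hn 1, ← hA.sum_contr_self hM, Finset.sum_comm, Finset.mul_sum]
    refine Finset.sum_congr rfl fun χ _ => ?_
    rw [contr_def, classInner_def, mul_inv_cancel_left₀ hG, Finset.sum_filter]
    refine Finset.sum_congr rfl fun x _ => ?_
    rw [isPPart_one_iff]
    split_ifs with h
    · rw [pRegularPart_of_not (fun h' => h' h), zero_mul]
    · rw [pRegularPart_of h, hreg x h]
  have h4 : ∑ x, K x = ∑ u, (n u : ℂ) := by
    rw [← Finset.sum_fiberwise Finset.univ π K]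
    exact Finset.sum_congr rfl fun u _ => by rw [h2, hn]
  have h5 : ∑ u, n u = Nat.card G *
      Nat.card {χ : IrrCharacter G // χ ∈ A ∧ ∀ g, χ.1 (g ^ k) = χ.1 g} := by
    have := h4.symm.trans h1
    exact_mod_cast this
  have h6 : n 1 = Nat.card G * blockRank p A := by exact_mod_cast h3
  have h7 : n 1 ≤ ∑ u, n u := Finset.single_le_sum (f := n) (fun _ _ => Nat.zero_le _)
    (Finset.mem_univ 1)
  rw [h5, h6] at h7
  exact Nat.le_of_mul_le_mul_left h7 Nat.card_pos

end CL.Blk.PRat
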