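import Mathlib
import Cfsg.Agent.BLK.RPMod
import Cfsg.Agent.TECH.NoQuad
import Cfsg.Agent.INV.AbBase

/-!
# An element of order `27` in an extension of a direct product
-/

set_option autoImplicit false
set_option linter.unusedSectionVars false

namespace CL.RP

open Subgroup Cfsg Abelem
open scoped commutatorElement

theorem Irr.mul_ne_prod {k M S S' : Type*} [CommRing k] [AddCommGroup M] [Module k M] [Group S] [Group S']
    {φ : S × S' →* Module.End k M} (hI : Irr φ) {A B : Module.End k M}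
    (hA : ∀ y, Commute A (φ (1, y))) (hB : ∀ x, Commute B (φ (x, 1))) (h1 : A ≠ 0) (h2 : B ≠ 0) :
    A * B ≠ 0 := fun h0 => by
  let U : Submodule k M := ⨅ x : S, LinearMap.ker (A * φ (x, 1))
  have hU : ∀ v, v ∈ U ↔ ∀ x : S, (A * φ (x, 1)) v = 0 := fun v => by simp [U]
  have h3 := hI U fun h v hv => (hU _).2 fun x => by
    have e1 : (x, 1) * h = (1, h.2) * (x * h.1, 1) := by ext <;> simp
    rw [← Module.End.mul_apply, mul_assoc, ← map_mul, e1, map_mul, ← mul_assoc,
      (hA _).eq, mul_assoc, Module.End.mul_apply, (hU v).1 hv, map_zero]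
  rcases h3 with e | e
  · refine h2 (LinearMap.ext fun v => (Submodule.mem_bot k).1 (e ▸ (hU _).2 fun x => ?_))
    rw [← Module.End.mul_apply, mul_assoc, ← (hB x).eq, ← mul_assoc, h0, zero_mul]; rfl
  · refine h1 (LinearMap.ext fun v => ?_)
    simpa [show ((1, 1) : S × S') = 1 from rfl] using (hU v).1 (e ▸ Submodule.mem_top) 1

variable {X L : Type*} [Group X] [Finite X] [Group L]

/-- no quadratic action when the Sylow `2`-subgroups are abelian -/
theorem sq_ne_zero {r : ℕ} [Fact r.Prime] (hr : r ≠ 2) (hA : AbS.Ab2 X) (π : X →* L)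
    (hπ : Function.Surjective π) (hE : IsElementaryAbelian r π.ker)
    (hmin : ∀ H : Subgroup X, H.Normal → H ≤ π.ker → H = ⊥ ∨ H = π.ker)
    {φ : L →* Module.End (ZMod r) (V hE)} (hφ : ∀ x v, (φ (π x) v).val = x * v.val * x⁻¹) {z : L}
    (hz : φ z ≠ 1) : (φ z - 1) ^ 2 ≠ 0 := fun h0 => by
  obtain ⟨x, rfl⟩ := hπ z
  have h1 : ⁅zpowers x, π.ker⁆ ≤ centralizer (zpowers x : Set X) := commutator_le.2 (by
    rintro _ ⟨n, rfl⟩ v hv
    have h2 : ∀ n : ℤ, (φ (π x) - 1) * φ (π (x ^ n)) = φ (π x) - 1 := fun n => by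
      have h3 : (φ (π x) - 1) * φ (π x) = φ (π x) - 1 := by
        rw [← sub_eq_zero, ← mul_sub_one, ← pow_two, h0]
      have h4 : (φ (π x) - 1) * φ (π x⁻¹) = φ (π x) - 1 := by
        nth_rw 1 [← h3]
        rw [mul_assoc, ← map_mul, ← map_mul, mul_inv_cancel, map_one, map_one, mul_one]
      induction n using Int.induction_on with
      | zero => simp
      | succ n ih => rw [zpow_add_one, map_mul, map_mul, ← mul_assoc, ih, h3]
      | pred n ih => rw [zpow_sub_one, map_mul, map_mul, ← mul_assoc, ih, h4]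
    have h5 : φ (π x) (φ (π (x ^ n)) ⟨v, hv⟩ - ⟨v, hv⟩) = φ (π (x ^ n)) ⟨v, hv⟩ - ⟨v, hv⟩ := by
      have := congrArg (fun A => A (⟨v, hv⟩ : V hE)) (h2 n)
      simp only [Module.End.mul_apply, LinearMap.sub_apply, Module.End.one_apply] at this
      rw [map_sub, sub_eq_sub_iff_sub_eq_sub, this]
    have h6 := congrArg V.val h5
    rw [hφ, V.val_sub, hφ] at h6
    refine le_centralizer_iff.1 (zpowers_le.2 (mem_centralizer_iff.2 ?_)) (mem_zpowers _)
    rintro _ ⟨j, rfl⟩
    exact (Commute.zpow_right (mul_inv_eq_iff_eq_mul.1 h6) j).symm)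
  have h2 := NoQuad.no_quadratic hr hE (H := ⊤) le_normalizer_of_normal
    (fun U h1 h2 => hmin U (normalizer_eq_top_iff.1 (eq_top_iff.2 h2)) h1)
    (fun P a ha b hb _ _ => ((hA.subgroup ⊤).of_surjective _ (QuotientGroup.mk'_surjective _)) P
      P.isPGroup' a ha b hb) (A := zpowers x) le_top
    (by rw [commutator_comm π.ker]; exact commutator_eq_bot_iff_le_centralizer.2 h1)
  refine hz (LinearMap.ext fun v => V.ext ?_)
  rw [hφ, mul_inv_eq_iff_eq_mul]
  exact (commutator_eq_bot_iff_le_centralizer.1 h2 v.mem) x (mem_zpowers x)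

/-- both factors act non-trivially on a minimal normal `3`-subgroup -/
theorem exists_27 {S S' : Type*} [Group S] [Group S'] (hA : AbS.Ab2 X) (π : X →* S × S')
    (hπ : Function.Surjective π) (hE : IsElementaryAbelian 3 π.ker)
    (hmin : ∀ H : Subgroup X, H.Normal → H ≤ π.ker → H = ⊥ ∨ H = π.ker) {g : S} {g' : S'}
    (hg : orderOf g = 9) (hg' : orderOf g' = 9)
    (h1 : (g ^ 3, 1) ∉ (centralizer (π.ker : Set X)).map π)
    (h2 : (1, g' ^ 3) ∉ (centralizer (π.ker : Set X)).map π) : ∃ x : X, orderOf x = 27 := by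
  obtain ⟨φ, hφ⟩ := exists_rep π hE hπ
  have hI := irr_of_min π hE hπ hφ hmin
  have key : ∀ z, z ∉ (centralizer (π.ker : Set X)).map π → φ z ≠ 1 := fun z hz e => by
    obtain ⟨x, rfl⟩ := hπ z
    refine hz (mem_map_of_mem _ (mem_centralizer_iff.2 fun v hv => ?_))
    have := hφ x ⟨v, hv⟩
    rw [e] at this
    exact (mul_inv_eq_iff_eq_mul.1 this.symm).symm
  have n9 : ∀ y : S × S', y ^ 9 = 1 → IsNilpotent (φ y - 1) := fun y hy =>
    ⟨9, by rw [(three_facts _).2.1, ← map_pow, hy, map_one, sub_self]⟩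
  have c : ∀ (x : S) (y : S'), Commute ((x, 1) : S × S') (1, y) := fun x y => by ext <;> simp
  have h3 : (φ (g, 1) - 1) ^ 6 ≠ 0 := by
    rw [show 6 = 3 * 2 from rfl, pow_mul, (three_facts _).1, ← map_pow, Prod.pow_mk, one_pow]
    exact sq_ne_zero (by decide) hA π hπ hE hmin hφ (key _ h1)
  have h4 : (φ (1, g') - 1) ^ 2 ≠ 0 := fun k => key _ h2 (by
    have := (three_facts (φ (1, g'))).1
    rw [pow_succ, k, zero_mul, ← map_pow, Prod.pow_mk, one_pow] at this
    exact sub_eq_zero.1 this.symm)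
  have h5 := pow_mul_sub_ne φ (c g g') (n9 _ (by rw [Prod.pow_mk, ← hg, pow_orderOf_eq_one, one_pow]; rfl))
    (n9 _ (by rw [Prod.pow_mk, ← hg', pow_orderOf_eq_one, one_pow]; rfl)) (fun u v => hI.mul_ne_prod
      (fun y => (((c g y).map φ).sub_left (.one_left _)).pow_left u)
      fun x => (((c x g').symm.map φ).sub_left (.one_left _)).pow_left v) h3 h4 (by decide)
  have h6 : orderOf (((g, 1) : S × S') * (1, g')) = 9 := by
    rw [Prod.mk_mul_mk, mul_one, one_mul, Prod.orderOf_mk, hg, hg']; rfl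
  obtain ⟨x, hx⟩ := exists_lift π hE Nat.prime_three hπ hφ (g := (g, 1) * (1, g'))
    (by rw [nm, h6, (three_facts _).2.2]; exact h5)
  exact ⟨x, by rw [hx, h6]⟩

end CL.RP
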