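import Mathlib.RepresentationTheory.Basic
import Mathlib.LinearAlgebra.BilinearForm.Properties
import Mathlib.LinearAlgebra.BilinearForm.Orthogonal
import Mathlib.LinearAlgebra.Dual.Lemmas
import Mathlib.Algebra.CharP.Two
import Mathlib.Tactic.LinearCombination
import Mathlib.RingTheory.Artinian.Module
import Mathlib.LinearAlgebra.FiniteDimensional.Lemmas

/-! A self-dual coprime module is the sum of a symplectic and an orthogonal module. -/

set_option autoImplicit false
open Module LinearMap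

namespace CL.SelfDual

variable {F : Type*} [Field F] {G : Type*} [Group G] {V : Type*} [AddCommGroup V] [Module F V]
  {ρ : Representation F G V}

/-- Invariant bilinear forms. -/
def InvF (ρ : Representation F G V) (B : LinearMap.BilinForm F V) : Prop :=
  ∀ g x y, B (ρ g x) (ρ g y) = B x y

/-- Equivariant endomorphisms. -/
def Eqv (ρ : Representation F G V) (f : V →ₗ[F] V) : Prop := ∀ g x, f (ρ g x) = ρ g (f x)

theorem InvF.comp {B : LinearMap.BilinForm F V} (hB : InvF ρ B) {f f' : V →ₗ[F] V} (hf : Eqv ρ f)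
    (hf' : Eqv ρ f') : InvF ρ (B.comp f f') := fun g x y => by
  simp only [BilinForm.comp_apply, hf g, hf' g, hB g]

theorem InvF.add {B B' : LinearMap.BilinForm F V} (hB : InvF ρ B) (hB' : InvF ρ B') :
    InvF ρ (B + B') := fun g x y => by simp only [add_apply, hB g, hB' g]

theorem InvF.left {B : LinearMap.BilinForm F V} (hB : InvF ρ B) (g : G) (x y : V) :
    B (ρ g x) y = B x (ρ g⁻¹ y) := by
  rw [← hB g x, ← Module.End.mul_apply, ← map_mul, mul_inv_cancel, map_one, Module.End.one_apply]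

theorem InvF.ker {B : LinearMap.BilinForm F V} (hB : InvF ρ B) (g : G) {x : V} (hx : B x = 0) :
    B (ρ g x) = 0 := by
  ext y; rw [hB.left, hx]; rfl

theorem avg [Fintype G] (f : V →ₗ[F] V) :
    Eqv ρ ((Nat.card G : F)⁻¹ • ∑ g, ρ g ∘ₗ f ∘ₗ ρ g⁻¹) := fun g x => by
  simp only [smul_apply, LinearMap.sum_apply, comp_apply, map_smul, map_sum]
  congr 1
  refine (Fintype.sum_equiv (Equiv.mulLeft g) _ _ fun s => ?_).symm
  simp only [Equiv.coe_mulLeft, map_mul, Module.End.mul_apply, mul_inv_rev]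
  rw [← Module.End.mul_apply (ρ g⁻¹) (ρ g), ← map_mul, inv_mul_cancel, map_one,
    Module.End.one_apply]

theorem exists_ginv [Finite G] (hG : (Nat.card G : F) ≠ 0) {f : V →ₗ[F] V} (hf : Eqv ρ f) :
    ∃ φ, Eqv ρ φ ∧ ∀ x, f (φ (f x)) = f x := by
  have := Fintype.ofFinite G
  obtain ⟨s, hs⟩ := f.rangeRestrict.exists_rightInverse_of_surjective f.range_rangeRestrict
  obtain ⟨φ, hφ⟩ := s.exists_extend
  have h1 : ∀ x, f (φ (f x)) = f x := fun x => by
    have h2 := congrArg Subtype.val (LinearMap.congr_fun hs ⟨f x, x, rfl⟩)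
    have h3 := LinearMap.congr_fun hφ ⟨f x, x, rfl⟩
    simp only [comp_apply, Submodule.subtype_apply] at h3
    rw [h3]; exact h2
  refine ⟨_, avg φ, fun x => ?_⟩
  have h4 : ∀ g, f (ρ g (φ (ρ g⁻¹ (f x)))) = f x := fun g => by
    rw [hf, ← hf g⁻¹ x, h1, ← hf, ← Module.End.mul_apply (ρ g), ← map_mul, mul_inv_cancel,
      map_one, Module.End.one_apply]
  simp only [smul_apply, LinearMap.sum_apply, comp_apply, map_smul, map_sum]
  simp only [h4, Finset.sum_const, Finset.card_univ, ← Nat.card_eq_fintype_card]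
  rw [← Nat.cast_smul_eq_nsmul F, smul_smul, inv_mul_cancel₀ hG, one_smul]

variable [FiniteDimensional F V] {B : LinearMap.BilinForm F V}

theorem eqv_symmComp (hB : B.Nondegenerate) (hBi : InvF ρ B) {Φ : LinearMap.BilinForm F V}
    (hΦ : InvF ρ Φ) : Eqv ρ (Φ.symmCompOfNondegenerate B hB) := fun g x => by
  refine sub_eq_zero.1 (hB.1 _ fun y => ?_)
  rw [map_sub, sub_apply, hBi.left, BilinForm.symmCompOfNondegenerate_left_apply,
    BilinForm.symmCompOfNondegenerate_left_apply, hΦ.left, sub_self]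

/-- An equivariant projection onto the radical of an invariant form. -/
theorem exists_proj [Finite G] (hG : (Nat.card G : F) ≠ 0) (hB : B.Nondegenerate) (hBi : InvF ρ B)
    {Φ : LinearMap.BilinForm F V} (hΦ : InvF ρ Φ) :
    ∃ π, Eqv ρ π ∧ (∀ x, Φ (π x) = 0) ∧ ∀ x, Φ x = 0 → π x = x := by
  obtain ⟨φ, hφ, h⟩ := exists_ginv hG (eqv_symmComp hB hBi hΦ)
  refine ⟨1 - φ ∘ₗ Φ.symmCompOfNondegenerate B hB, fun g x => ?_, fun x => ?_, fun x hx => ?_⟩
  · simp [eqv_symmComp hB hBi hΦ g, hφ g]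
  · ext y
    rw [← BilinForm.symmCompOfNondegenerate_left_apply Φ hB]
    simp [h]
  · have : Φ.symmCompOfNondegenerate B hB x = 0 := hB.1 _ fun y => by
      rw [BilinForm.symmCompOfNondegenerate_left_apply, hx]; rfl
    simp [this]

theorem exists_form_on_ker [Finite G] (hG : (Nat.card G : F) ≠ 0) (hB : B.Nondegenerate)
    (hBi : InvF ρ B) {Φ : LinearMap.BilinForm F V} (hΦ : InvF ρ Φ)
    (hr : ∀ r, Φ r = 0 → ∀ x, Φ x r = 0) {r₀ : V} (h0 : Φ r₀ = 0) (hne : r₀ ≠ 0) :
    ∃ Ψ, InvF ρ Ψ ∧ ∃ r r', Φ r = 0 ∧ Φ r' = 0 ∧ Ψ r r' ≠ 0 := by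
  by_contra hcon
  push Not at hcon
  set τ := Φ.symmCompOfNondegenerate B hB
  have hτ : ∀ x y, B (τ x) y = Φ x y := fun x y =>
    BilinForm.symmCompOfNondegenerate_left_apply Φ hB y x
  obtain ⟨φ, hφ, h⟩ := exists_ginv hG (eqv_symmComp hB hBi hΦ)
  have hrange : LinearMap.range Φ = (LinearMap.ker Φ).dualAnnihilator := by
    refine Submodule.eq_of_le_of_finrank_eq ?_ ?_
    · rintro _ ⟨x, rfl⟩
      exact (Submodule.mem_dualAnnihilator _).2 fun r hr' => hr r hr' x
    · have h1 := Φ.finrank_range_add_finrank_ker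
      have h2 := Subspace.finrank_add_finrank_dualAnnihilator_eq (LinearMap.ker Φ)
      exact Nat.add_right_cancel (h1.trans (h2.symm.trans (add_comm _ _)))
  have hmem : ∀ u, (∀ r, Φ r = 0 → B u r = 0) → τ (φ u) = u := fun u hu => by
    obtain ⟨x, hx⟩ := hrange.ge ((Submodule.mem_dualAnnihilator (B u)).2 hu)
    obtain rfl : τ x = u := sub_eq_zero.1 (hB.1 _ fun y => by
      rw [map_sub, sub_apply, hτ, hx, sub_self])
    exact h x
  let ψ : V →ₗ[F] V := φ ∘ₗ τ ∘ₗ φ
  have hψ : Eqv ρ ψ := fun g x => by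
    simp only [ψ, comp_apply, hφ g, eqv_symmComp hB hBi hΦ g, τ]
  have hψk : ∀ k : ℕ, Eqv ρ (ψ ^ k) := fun k g x => by
    induction k generalizing x with
    | zero => rfl
    | succ k ih => rw [pow_succ, Module.End.mul_apply, hψ, ih, Module.End.mul_apply]
  let Y : Submodule F V := ⨅ k : ℕ, ⨅ r ∈ LinearMap.ker Φ, LinearMap.ker (B.flip r ∘ₗ (ψ ^ k))
  have hY : ∀ u, u ∈ Y ↔ ∀ (k : ℕ) r, Φ r = 0 → B ((ψ ^ k) u) r = 0 := fun u => by simp [Y]
  have hst : ∀ u ∈ Y, ψ u ∈ Y := fun u hu => (hY _).2 fun k r hr' => by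
    rw [← Module.End.mul_apply, ← pow_succ]; exact (hY u).1 hu _ r hr'
  have hτψ : ∀ u ∈ Y, τ (ψ u) = u := fun u hu => by
    have := hmem u ((hY u).1 hu 0)
    simp only [ψ, comp_apply, this]
  have hinj : Function.Injective (ψ.restrict hst) := fun a b hab => Subtype.ext (by
    rw [← hτψ a a.2, ← hτψ b b.2]
    exact congrArg τ (congrArg Subtype.val hab))
  have h1 : r₀ ∈ Y := (hY _).2 fun k r hr' =>
    hcon (B.comp (ψ ^ k) 1) (hBi.comp (hψk k) fun _ _ => rfl) r₀ r h0 hr'
  obtain ⟨u, hu⟩ := (LinearMap.injective_iff_surjective.1 hinj) ⟨r₀, h1⟩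
  have h2 : ψ u = r₀ := congrArg Subtype.val hu
  have h3 : τ r₀ = 0 := hB.1 _ fun y => by rw [hτ, h0]; rfl
  have h4 := hτψ u u.2
  rw [h2, h3] at h4
  rw [← h4, map_zero] at h2
  exact hne h2.symm

theorem exists_decomp [Finite G] (hG : (Nat.card G : F) ≠ 0) (hB : B.Nondegenerate)
    (hBi : InvF ρ B) : ∃ (π : V →ₗ[F] V) (A S : LinearMap.BilinForm F V), Eqv ρ π ∧
      (∀ x, π (π x) = π x) ∧ InvF ρ A ∧ InvF ρ S ∧ (∀ x, A x x = 0) ∧ (∀ x y, S x y = S y x) ∧
      (∀ x, A x = 0 ↔ π x = x) ∧ (∀ x, S x = 0 ↔ π x = 0) ∧ (∀ x y, S x (π y) = S x y) ∧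
      ((2 : F) = 0 → ∀ g x, ρ g (π x) = π x) := by
  classical
  obtain ⟨A, ⟨hA, hAa⟩, hAm⟩ := exists_minimalFor_of_wellFoundedLT
    (fun A : LinearMap.BilinForm F V => InvF ρ A ∧ ∀ x, A x x = 0) LinearMap.ker
    ⟨0, fun _ _ _ => rfl, fun _ => rfl⟩
  obtain ⟨π, hπ, hπ1, hπ2⟩ := exists_proj hG hB hBi hA
  have hππ : ∀ x, π (π x) = π x := fun x => hπ2 _ (hπ1 x)
  have hAs : ∀ x y, A x y = -A y x := fun x y => (LinearMap.IsAlt.neg hAa y x).symm
  have hAr : ∀ x y, A x (π y) = 0 := fun x y => by rw [hAs, hπ1]; simp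
  have hsum : ∀ (S : LinearMap.BilinForm F V) (x : V), (A + S.comp π π) x = 0 →
      A x = 0 ∧ ∀ y, S (π x) (π y) = 0 := fun S x hx => by
    have h1 : ∀ y, S (π x) (π y) = 0 := fun y => by
      simpa [hAr, hππ] using LinearMap.congr_fun hx (π y)
    exact ⟨LinearMap.ext fun y => by simpa [h1] using LinearMap.congr_fun hx y, h1⟩
  have halt : ∀ S : LinearMap.BilinForm F V, InvF ρ S → (∀ x, S x x = 0) →
      ∀ x y, S (π x) (π y) = 0 := fun S hS hSa x y => by
    have := hAm (j := A + S.comp π π) ⟨hA.add (hS.comp hπ hπ), fun x => by simp [hAa, hSa]⟩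
      (fun x hx => (hsum S x hx).1) (hπ1 x)
    simpa [hππ] using (hsum S _ this).2 y
  have hsym : ∀ S : LinearMap.BilinForm F V, InvF ρ S → ∀ x y, S (π x) (π y) = S (π y) (π x) :=
    fun S hS x y => sub_eq_zero.1 (halt (S - S.flip) (fun g x y => by simp [hS g])
      (fun x => by simp) x y)
  obtain ⟨S, hS, hSm⟩ := exists_minimalFor_of_wellFoundedLT (fun S => InvF ρ S)
    (fun S : LinearMap.BilinForm F V => LinearMap.ker (A + S.comp π π)) ⟨0, fun _ _ _ => rfl⟩
  have hΦ := hA.add (hS.comp hπ hπ)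
  have hr : ∀ r, (A + S.comp π π) r = 0 → ∀ x, (A + S.comp π π) x r = 0 := fun r hr x => by
    obtain ⟨h1, h2⟩ := hsum S r hr
    simp [hAs x r, h1, hsym S hS x r, h2]
  have hnd : ∀ r, (A + S.comp π π) r = 0 → r = 0 := fun r₀ h0 => by
    by_contra hne
    obtain ⟨Ψ, hΨ, r, r', h1, h2, h3⟩ := exists_form_on_ker hG hB hBi hΦ hr h0 hne
    obtain ⟨π', hπ', hπ1', hπ2'⟩ := exists_proj hG hB hBi hΦ
    have h4 : ∀ x, π (π' x) = π' x := fun x => hπ2 _ (hsum S _ (hπ1' x)).1
    have h5 : ∀ x, (A + (S + Ψ.comp π' π').comp π π) x = 0 →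
        ∀ y, Ψ (π' (π x)) (π' y) = 0 := fun x hx y => by
      have h6 := (hsum _ x hx).2 (π' y)
      have h7 := (hsum S _ (hπ1' y)).2 x
      rw [hsym S hS, h4] at h7
      simpa [h7, h4, hπ2' _ (hπ1' y)] using h6
    have := hSm (j := S + Ψ.comp π' π') (hS.add (hΨ.comp hπ' hπ')) (fun x hx => by
      ext y
      simpa [h5 x hx] using LinearMap.congr_fun hx y) h1
    have h6 := h5 r this r'
    rw [hπ2 r (hsum S r h1).1, hπ2' r h1, hπ2' r' h2] at h6
    exact h3 h6
  refine ⟨π, A, S.comp π π, hπ, hππ, hA, hS.comp hπ hπ, hAa, hsym S hS,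
    fun x => ⟨hπ2 x, fun h => h ▸ hπ1 x⟩, fun x => ⟨fun h => hnd _ ?_, fun h => ?_⟩,
    fun x y => by simp [hππ], fun h2 g x => ?_⟩
  · ext y; simpa [hπ1, hππ] using LinearMap.congr_fun h y
  · ext y; simp [h]
  · have := Fintype.ofFinite G
    let e : V →ₗ[F] V := (Nat.card G : F)⁻¹ • ∑ g, ρ g
    have he : ∀ g x, ρ g (e x) = e x := fun g x => by
      simp only [e, smul_apply, LinearMap.sum_apply, map_smul, map_sum]
      congr 1
      exact Fintype.sum_equiv (Equiv.mulLeft g) _ _ fun s => by simp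
    have he' : Eqv ρ e := fun g x => by
      rw [he]
      simp only [e, smul_apply, LinearMap.sum_apply]
      congr 1
      exact Fintype.sum_equiv (Equiv.mulRight g) _ _ fun s => by simp
    have hf : Eqv ρ (1 - e) := fun g x => by simp [he' g]
    have hfe : ∀ x, (1 - e) x = (Nat.card G : F)⁻¹ • ∑ g, (x - ρ g x) := fun x => by
      simp only [e, sub_apply, Module.End.one_apply, smul_apply, LinearMap.sum_apply,
        Finset.sum_sub_distrib, Finset.sum_const, Finset.card_univ, smul_sub,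
        ← Nat.card_eq_fintype_card]
      rw [← Nat.cast_smul_eq_nsmul F, smul_smul, inv_mul_cancel₀ hG, one_smul]
    set T := S.comp π π
    have hT : InvF ρ T := hS.comp hπ hπ
    have hTs : ∀ x y, T x y = T y x := hsym S hS
    let Z : Submodule F V :=
      { carrier := {x | T x x = 0}
        add_mem' := fun {a b} ha hb => by
          simp only [Set.mem_ofPred_eq, map_add, add_apply] at ha hb ⊢
          rw [ha, hb, hTs b a]
          linear_combination T a b * h2
        zero_mem' := by simp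
        smul_mem' := fun c a ha => by
          simp only [Set.mem_ofPred_eq, map_smul, smul_apply] at ha ⊢
          rw [ha]; simp }
    have h3 := halt (T.comp (1 - e) (1 - e)) (hT.comp hf hf) fun x => by
      have : (1 - e) x ∈ Z := by
        rw [hfe]
        refine Z.smul_mem _ (Z.sum_mem fun g _ => ?_)
        show T (x - ρ g x) (x - ρ g x) = 0
        simp only [map_sub, sub_apply, hT g, hTs (ρ g x) x]
        linear_combination (T x x - T x (ρ g x)) * h2
      exact this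
    have h4 : (1 - e) (π x) = 0 := by
      have hπe : ∀ z, π (e z) = e (π z) := fun z => by
        simp only [e, smul_apply, LinearMap.sum_apply, map_smul, map_sum, hπ _]
      have h5 : π ((1 - e) (π x)) = (1 - e) (π x) := by simp [hπe, hππ]
      refine hnd _ (LinearMap.ext fun y => ?_)
      have h6 : T ((1 - e) (π x)) (e (π y)) = 0 := by
        rw [hfe]
        simp [map_sum, hT.left, he]
      have h7 : T ((1 - e) (π x)) ((1 - e) (π y)) = 0 := h3 x y
      have h8 : T ((1 - e) (π x)) y = T ((1 - e) (π x)) (π y) := by simp [T, hππ]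
      have h9 : π y = e (π y) + (1 - e) (π y) := by simp
      rw [add_apply, add_apply, h8, ← h5, hπ1, h5, h9, map_add, h6, h7]
      simp
    have h5 : π x = e (π x) := by simpa [sub_eq_zero] using h4
    rw [h5, he]

end CL.SelfDual
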