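import Cfsg.Agent.BLK.RVecA
import Cfsg.Agent.S4966

/-! Knörr functions for symplectic modules, through extensions of Heisenberg characters. -/

set_option autoImplicit false
open Cfsg Subgroup
open scoped ComplexConjugate

namespace CL.RVec
open CL.Char CL.Blk CL.VCh CL.Glb

variable {p : ℕ} [hp : Fact p.Prime] {H U : Type*} [Group H] [AddCommGroup U] [Module (ZMod p) U]

/-- a module with an invariant bilinear form -/
structure IF (p : ℕ) [Fact p.Prime] (H U : Type*) [Group H] [AddCommGroup U]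
    [Module (ZMod p) U] where
  ρ : Representation (ZMod p) H U
  γ : LinearMap.BilinForm (ZMod p) U
  inv : ∀ g x y, γ (ρ g x) (ρ g y) = γ x y

/-- the Heisenberg group extended by `H` -/
@[ext] structure Hs (D : IF p H U) where
  u : U
  a : ZMod p
  h : H

namespace Hs
variable {D : IF p H U}

instance : Mul (Hs D) := ⟨fun x y => ⟨x.u + D.ρ x.h y.u, x.a + y.a + D.γ x.u (D.ρ x.h y.u), x.h * y.h⟩⟩
instance : One (Hs D) := ⟨⟨0, 0, 1⟩⟩
instance : Inv (Hs D) := ⟨fun x => ⟨-D.ρ x.h⁻¹ x.u, -x.a + D.γ x.u x.u, x.h⁻¹⟩⟩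

@[simp] theorem mul_u (x y : Hs D) : (x * y).u = x.u + D.ρ x.h y.u := rfl
@[simp] theorem mul_a (x y : Hs D) : (x * y).a = x.a + y.a + D.γ x.u (D.ρ x.h y.u) := rfl
@[simp] theorem mul_h (x y : Hs D) : (x * y).h = x.h * y.h := rfl
@[simp] theorem one_u : (1 : Hs D).u = 0 := rfl
@[simp] theorem one_a : (1 : Hs D).a = 0 := rfl
@[simp] theorem one_h : (1 : Hs D).h = 1 := rfl
@[simp] theorem inv_u (x : Hs D) : x⁻¹.u = -D.ρ x.h⁻¹ x.u := rfl
@[simp] theorem inv_a (x : Hs D) : x⁻¹.a = -x.a + D.γ x.u x.u := rfl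
@[simp] theorem inv_h (x : Hs D) : x⁻¹.h = x.h⁻¹ := rfl

instance : Group (Hs D) := Group.ofLeftAxioms
  (fun x y z => by
    ext
    · simp [add_assoc]
    · simp only [mul_a, mul_u, mul_h, map_add, map_mul, LinearMap.add_apply, Module.End.mul_apply,
        D.inv]
      ring
    · simp [mul_assoc])
  (fun x => by ext <;> simp)
  (fun x => by ext <;> simp [D.inv])

/-- the underlying product -/
def eqv (D : IF p H U) : Hs D ≃ U × ZMod p × H :=
  ⟨fun x => (x.u, x.a, x.h), fun x => ⟨x.1, x.2.1, x.2.2⟩, fun _ => rfl, fun _ => rfl⟩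

instance [Finite U] [Finite H] : Finite (Hs D) := Finite.of_equiv _ (eqv D).symm

/-- the projection -/
def pr (D : IF p H U) : Hs D →* H := ⟨⟨Hs.h, rfl⟩, fun _ _ => rfl⟩

/-- the section -/
def sec (D : IF p H U) : H →* Hs D :=
  ⟨⟨fun h => ⟨0, 0, h⟩, rfl⟩, fun _ _ => by ext <;> simp⟩

/-- the central element -/
def z (D : IF p H U) : Hs D := ⟨0, 1, 1⟩

theorem z_pow (k : ℕ) : z D ^ k = ⟨0, k, 1⟩ := by
  induction k with
  | zero => ext <;> simp
  | succ k ih => rw [pow_succ, ih]; ext <;> simp [z]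

theorem z_mem : z D ∈ center (Hs D) := mem_center_iff.2 fun g => by
  ext <;> simp [z, add_comm]

end Hs

theorem vanish {K : Type*} [Group K] [Finite K] {χ : K → ℂ} (hχ : IsIrrCharacter K χ) {z : K}
    (hz : z ∈ center K) (hzp : z ^ p = 1) (h1 : χ z ≠ χ 1) :
    (∀ (k : ℕ) x, ‖χ (z ^ k * x)‖ = ‖χ x‖) ∧
      ∀ k : ℕ, ¬ p ∣ k → ∀ x y, y * x * y⁻¹ = z ^ k * x → χ x = 0 := by
  obtain ⟨c, hc1, hc⟩ := mem_charCenter_iff.1 (hχ.center_le_charCenter hz)
  have h2 : ∀ (k : ℕ) x, χ (z ^ k * x) = c ^ k * χ x := fun k x => by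
    induction k with
    | zero => simp
    | succ k ih => rw [pow_succ', mul_assoc, hc, ih, pow_succ', mul_assoc]
  refine ⟨fun k x => by rw [h2, norm_mul, norm_pow, hc1, one_pow, one_mul], fun k hk x y h => ?_⟩
  have h3 : c ^ p = 1 := by
    have := h2 p 1
    rw [hzp, mul_one] at this
    exact mul_right_cancel₀ hχ.one_ne_zero (by rw [← this, one_mul])
  have h4 : c ≠ 1 := fun e => h1 (by simpa [e] using hc 1)
  have h5 := hχ.isCharacter.isClassFunction x y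
  rw [h, h2] at h5
  by_contra h6
  exact hk (orderOf_eq_prime h3 h4 ▸ orderOf_dvd_of_pow_eq_one
    (mul_right_cancel₀ h6 (h5.trans (one_mul _).symm)))

theorem exists_weil [Finite H] [Finite U] (hH : ¬ p ∣ Nat.card H) (D : IF p H U)
    (hnd : ∀ x, (∀ y, D.γ x y - D.γ y x = 0) → x = 0) :
    ∃ φ : Hs D → ℂ, IsCharacter _ φ ∧ ∀ h, φ (Hs.sec D h) ^ 2 = Nat.card (Fx D.ρ h) := by
  classical
  let E := (Hs.pr D).ker
  have := Fintype.ofFinite (Hs D)
  have hidx : E.index = Nat.card H := by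
    rw [index_ker, MonoidHom.range_eq_top.2 fun h => ⟨Hs.sec D h, rfl⟩, card_top]
  obtain ⟨k, hk⟩ := card_eq_pow (p := p) (U := U)
  have hE : Nat.card E = p ^ (k + 1) := by
    have := E.card_mul_index
    rw [hidx, Nat.card_congr (Hs.eqv D), Nat.card_prod, Nat.card_prod, hk, Nat.card_zmod,
      ← mul_assoc, ← pow_succ] at this
    exact Nat.eq_of_mul_eq_mul_right Nat.card_pos this
  have hcop : E.index.Coprime (Nat.card E) := by
    rw [hE, hidx]
    exact ((hp.out.coprime_iff_not_dvd.2 hH).pow_left _).symm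
  have hzp : Hs.z D ^ p = 1 := by rw [Hs.z_pow]; ext <;> simp
  let zE : E := ⟨Hs.z D, rfl⟩
  obtain ⟨θ, hθ, hθz⟩ : ∃ θ, IsIrrCharacter E θ ∧ θ zE ≠ θ 1 := by
    by_contra! h
    simpa [zE, Hs.z] using congrArg (fun x : E => x.1.a) (eq_one_of_irr_eq h)
  let A : LinearMap.BilinForm (ZMod p) U := D.γ - D.γ.flip
  have hA : ∀ x y, A x y = D.γ x y - D.γ y x := fun _ _ => rfl
  have hconj : ∀ (h : H) (x : Hs D), x.h = h → x.u ∈ Fx D.ρ h → x.u ≠ 0 → ∃ k : ℕ, ¬ p ∣ k ∧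
      ∃ y ∈ E, y * x * y⁻¹ = Hs.z D ^ k * x := fun h x hx hu h0 => by
    obtain ⟨w, hw, hw0⟩ : ∃ w ∈ Fx D.ρ h, A x.u w ≠ 0 := by
      by_contra! h1
      exact h0 (nondeg_Fx (B := A) hH (fun g x y => by rw [hA, hA, D.inv, D.inv]) hnd h hu h1)
    refine ⟨(-A x.u w).val, fun h1 => hw0 ?_, ⟨w, 0, 1⟩, rfl, ?_⟩
    · rwa [← ZMod.natCast_eq_zero_iff, ZMod.natCast_zmod_val, neg_eq_zero] at h1
    · rw [Hs.z_pow, mul_inv_eq_iff_eq_mul]
      ext <;> simp [hx, mem_Fx.1 hw, hA, add_comm]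
      ring
  have hθ0 : ∀ x : E, x.1.u ≠ 0 → θ x = 0 := fun x hx => by
    obtain ⟨k, hk, y, hyE, hy⟩ := hconj 1 x x.2 (by simp [mem_Fx]) hx
    exact (vanish hθ (z := zE) (mem_center_iff.2 fun g => Subtype.ext
      (mem_center_iff.1 Hs.z_mem g.1)) (Subtype.ext hzp) hθz).2 k hk x ⟨y, hyE⟩ (Subtype.ext hy)
  obtain ⟨φ, hφ, hφθ, hdet⟩ := exists_ext_of_coprime_card E hθ (fun g n => by
    have hn : n.1.h = 1 := n.2
    by_cases h0 : n.1.u = 0
    · congr 1
      refine Subtype.ext ?_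
      change g * n * g⁻¹ = n
      rw [mul_inv_eq_iff_eq_mul]
      ext <;> simp [h0, hn, add_comm]
    · rw [hθ0 n h0, hθ0]
      intro h1
      have h2 : D.ρ g.h n.1.u = 0 := by simpa [hn] using h1
      exact h0 (by simpa using congrArg (D.ρ g.h⁻¹) h2)) hcop
  have hφE : IsIrrCharacter E fun g => φ g := by rw [funext hφθ]; exact hθ
  obtain ⟨hv1, hv2⟩ := vanish hφ Hs.z_mem hzp (by
    have := hφθ 1
    rw [OneMemClass.coe_one] at this
    rw [this]
    exact (hφθ zE).trans_ne hθz)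
  refine ⟨φ, hφ.isCharacter, fun h => ?_⟩
  set x := Hs.sec D h with hx
  have hxH : x ^ Nat.card H = 1 := by rw [hx, ← map_pow, pow_card_eq_one', map_one]
  have hreal : (φ x).im = 0 := by
    obtain ⟨j, hj1, hj2⟩ := Nat.chineseRemainder (hidx ▸ hcop) (Nat.card H - 1) 1
    have hpos : 1 ≤ Nat.card H := Nat.card_pos
    rw [← conj_eq_iff_apply_inv hφ.isCharacter, ← canon_apply_pow hcop hφ.isCharacter hφE
      (hdet ▸ hcop.coprime_dvd_right (detOrder_dvd_card θ)) (k := j) ?_ hj2 x,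
      pow_eq_pow_of_modEq hj1 hxH, eq_comm, ← mul_eq_one_iff_eq_inv.1]
    · rw [← pow_succ, Nat.sub_add_cancel hpos, hxH]
    · rw [← E.index_mul_card, hidx]
      refine Nat.Coprime.mul_right ?_ ?_
      · rw [Nat.Coprime, hj1.gcd_eq]
        exact (Nat.coprime_self_sub_left hpos).2 (Nat.coprime_one_left _)
      · rw [Nat.Coprime, hj2.gcd_eq]
        exact Nat.coprime_one_left _
  let C := E ⊓ centralizer {x}
  have h1 := inner_coset_self (G := E) (C := C) (x := x) ((hidx ▸ hcop).symm.coprime_dvd_right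
    (orderOf_dvd_of_pow_eq_one hxH)) rfl hφ.isCharacter hφE
  let e : C ≃ Fx D.ρ h × ZMod p :=
    ⟨fun c => (⟨c.1.u, by
        have := congrArg Hs.u (mem_centralizer_singleton_iff.1 c.2.2)
        simpa [hx, Hs.sec, mem_Fx, eq_comm] using this⟩, c.1.a),
      fun y => ⟨⟨y.1, y.2, 1⟩, rfl, mem_centralizer_singleton_iff.2 (by
        ext <;> simp [hx, Hs.sec, mem_Fx.1 y.1.2])⟩,
      fun c => Subtype.ext (Hs.ext rfl rfl (Eq.symm c.2.1)), fun _ => rfl⟩
  have := Fintype.ofFinite (Fx D.ρ h)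
  have h2 := card_mul_classInner (fun c : C => φ (c * x)) (fun c : C => φ (c * x))
  rw [h1, mul_one, ← Equiv.sum_comp e.symm, Fintype.sum_prod_type, Finset.sum_eq_single 0,
    Nat.card_congr e, Nat.card_prod, Nat.card_zmod] at h2
  · have h3 : ∀ a : ZMod p, φ (e.symm (0, a) * x) * conj (φ (e.symm (0, a) * x)) = φ x ^ 2 := by
      intro a
      have : (e.symm (0, a) : Hs D) = Hs.z D ^ a.val := by rw [Hs.z_pow, ZMod.natCast_zmod_val]; rfl
      rw [Complex.mul_conj', this, hv1, ← Complex.mul_conj', Complex.conj_eq_iff_im.2 hreal, sq]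
    simp only [h3, Finset.sum_const, Finset.card_univ, ZMod.card, nsmul_eq_mul] at h2
    push_cast at h2
    have hp0 : (p : ℂ) ≠ 0 := by exact_mod_cast hp.out.ne_zero
    exact mul_left_cancel₀ hp0 (by rw [← h2, mul_comm])
  · intro u _ hu
    refine Finset.sum_eq_zero fun a _ => ?_
    obtain ⟨k, hk, y, -, hy⟩ := hconj h (e.symm (u, a) * x) (by simp [e, hx, Hs.sec])
      (by simp [e, hx, Hs.sec]) (by simpa [e, hx, Hs.sec] using hu)
    rw [hv2 k hk _ _ hy, zero_mul]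
  · simp

theorem exists_GR_symp [Finite H] [Finite U] {M : Ideal AlgInt} (hM : IsPModular p M) {n : ℕ}
    (hn0 : n ≠ 0) (hn : Nat.card H ∣ n) (hH : ¬ p ∣ Nat.card H) (ρ : Representation (ZMod p) H U)
    {A : LinearMap.BilinForm (ZMod p) U} (hA : ∀ x, A x x = 0)
    (hi : ∀ g x y, A (ρ g x) (ρ g y) = A x y) (hnd : ∀ x, (∀ y, A x y = 0) → x = 0) :
    ∃ ψ, GR M n ρ ψ := by
  classical
  have := Fintype.ofFinite H
  let b := Module.finBasis (ZMod p) U
  let γ₀ : LinearMap.BilinForm (ZMod p) U :=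
    b.constr (ZMod p) fun i => b.constr (ZMod p) fun j => if i < j then A (b i) (b j) else 0
  have h0 : ∀ x y, γ₀ x y - γ₀ y x = A x y := by
    have : γ₀ - γ₀.flip = A := LinearMap.BilinForm.ext_basis b fun i j => by
      change γ₀ (b i) (b j) - γ₀ (b j) (b i) = _
      simp only [γ₀, Module.Basis.constr_basis]
      rcases lt_trichotomy i j with h | rfl | h
      · rw [if_pos h, if_neg h.not_gt, sub_zero]
      · simp [hA]
      · rw [if_neg h.not_gt, if_pos h, zero_sub, LinearMap.IsAlt.neg hA]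
    exact fun x y => congrArg (fun f : LinearMap.BilinForm (ZMod p) U => f x y) this
  let D : IF p H U := ⟨ρ, ∑ h, γ₀.comp (ρ h) (ρ h), fun g x y => by
    simp only [LinearMap.sum_apply, LinearMap.BilinForm.comp_apply]
    rw [← Equiv.sum_comp (Equiv.mulRight g) fun h => γ₀ (ρ h x) (ρ h y)]
    simp⟩
  obtain ⟨φ, hφ, hφ2⟩ := exists_weil hH D fun x hx => hnd x fun y => by
    have := hx y
    simp only [D, LinearMap.sum_apply, LinearMap.BilinForm.comp_apply, ← Finset.sum_sub_distrib,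
      h0, hi, Finset.sum_const, Finset.card_univ, nsmul_eq_mul, ← Nat.card_eq_fintype_card] at this
    exact (mul_eq_zero.1 this).resolve_left fun h4 => hH ((ZMod.natCast_eq_zero_iff _ _).1 h4)
  let χ : H → ℂ := fun h => φ (Hs.sec D h)
  have hχ : IsCharacter H χ := hφ.comp _
  have h2 : ∀ h, χ h ^ 2 = Nat.card (Fx ρ h) := hφ2
  have h3 : Fx ρ 1 = ⊤ := top_le_iff.1 fun x _ => by simp [mem_Fx]
  have h4 : χ 1 ^ 2 = Nat.card U := by rw [h2, h3, Nat.card_congr Submodule.topEquiv.toEquiv]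
  have hne : ∀ h, χ h ≠ 0 := fun h e => by
    have := h2 h
    rw [e, zero_pow two_ne_zero, eq_comm, Nat.cast_eq_zero] at this
    exact Nat.card_pos.ne' this
  have hd : ∀ h, ∃ d : ℕ, Nat.card U = Nat.card (Fx ρ h) * d ∧ (χ 1 / χ h) ^ 2 = d := fun h => by
    obtain ⟨d, hd⟩ := (Fx ρ h).toAddSubgroup.card_addSubgroup_dvd_card
    refine ⟨d, hd, ?_⟩
    rw [div_pow, div_eq_iff (pow_ne_zero _ (hne h)), h4, h2, hd, Nat.cast_mul, mul_comm]
    rfl
  have hint : ∀ h, IsIntegral ℤ (χ 1 / χ h) := fun h => by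
    obtain ⟨d, -, hd⟩ := hd h
    exact IsIntegral.of_pow two_pos (hd ▸ isIntegral_natCast' d)
  obtain ⟨k, hk⟩ := card_eq_pow (p := p) (U := U)
  have hfix : ∀ h, χ h ∈ Fix n := fun h => char_mem_fix hn0 hχ
    (orderOf_dvd_iff_pow_eq_one.1 ((orderOf_dvd_natCard h).trans hn))
  refine ⟨fun h => χ 1 / χ h, mem_of_mul_eq (mem_of_char hχ) (const_mem (hχ.isIntegral 1)) hint
    (fun h => mul_div_cancel₀ _ (hne h))
    (q := Nat.card U) (hk ▸ (hp.out.coprime_iff_not_dvd.2 hH).pow_left _) fun h => ?_,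
    fun h => div_mem (hfix 1) (hfix h), fun σ h => ?_, div_self (hne 1), fun h hh => ?_⟩
  · obtain ⟨d, hd, -⟩ := hd h
    refine ⟨d * χ h, (isIntegral_natCast' d).mul (hχ.isIntegral h), ?_⟩
    rw [hd, Nat.cast_mul, ← h2]
    ring
  · obtain ⟨d, hd1, hd2⟩ := hd h
    rw [← norm_pow, ← map_pow, hd2, map_natCast, Complex.norm_natCast, hd1, Nat.cast_mul, mul_comm]
  · obtain ⟨d, hd1, hd2⟩ := hd h
    refine pow_eq_zero_iff two_ne_zero |>.1 ?_
    rw [← red_pow (mem_V_of_isIntegral (hint h)), hd2, red_natCast_eq_zero_iff hM]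
    obtain ⟨j, -, rfl⟩ := (Nat.dvd_prime_pow hp.out).1 (hk ▸ Dvd.intro_left _ hd1.symm : d ∣ p ^ k)
    refine dvd_pow_self p fun h0 => hh ?_
    rw [h0, pow_zero, mul_one] at hd1
    exact Submodule.toAddSubgroup_injective (AddSubgroup.eq_top_of_card_eq _ hd1.symm)

theorem exists_GR [Finite H] [Finite U] {M : Ideal AlgInt} (hM : IsPModular p M) {n : ℕ}
    (hn0 : n ≠ 0) (hpn : p ∣ n) (hn : Nat.card H ∣ n) (hH : ¬ p ∣ Nat.card H)
    (ρ : Representation (ZMod p) H U) {B : LinearMap.BilinForm (ZMod p) U} (hB : B.Nondegenerate)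
    (hi : ∀ g x y, B (ρ g x) (ρ g y) = B x y) : ∃ ψ, GR M n ρ ψ := by
  obtain ⟨U₁, U₂, hc, h1, h2, ⟨A, hA, hAi, hAn⟩, ⟨S, hS, hSi, hSn⟩, h3⟩ :=
    Cfsg.Agent.S4966.result p hH ρ B hB hi
  let ρ₁ := ρ.subrepresentation U₁ fun g u hu => h1 g u hu
  let ρ₂ := ρ.subrepresentation U₂ fun g u hu => h2 g u hu
  obtain ⟨ψ₁, hψ₁⟩ := exists_GR_symp hM hn0 hn hH ρ₁ (A := A.restrict U₁) (fun x => hA x)
    (fun g x y => hAi g x x.2 y y.2) fun x hx => Subtype.ext (hAn x x.2 fun y hy => hx ⟨y, hy⟩)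
  obtain ⟨ψ₂, hψ₂⟩ : ∃ ψ, GR M n ρ₂ ψ := by
    by_cases hp2 : p = 2
    · have : ∀ h, Fx ρ₂ h = ⊤ := fun h => top_le_iff.1 fun x _ => Subtype.ext (h3 hp2 h x x.2)
      exact ⟨1, one_mem _, fun _ => one_mem _, fun σ h => by
        simpa using Nat.card_le_card_of_injective _ (Fx ρ₂ h).injective_subtype, rfl,
        fun h hh => (hh (this h)).elim⟩
    · exact exists_GR_orth hM hpn hp2 hH ρ₂ (S := S.restrict U₂) (fun x y => hS x y)
        (fun g x y => hSi g x x.2 y y.2) fun x hx => Subtype.ext (hSn x x.2 fun y hy => hx ⟨y, hy⟩)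
  let e := Submodule.prodEquivOfIsCompl _ _ hc
  have he : ∀ h (x : U₁ × U₂), e x ∈ Fx ρ h ↔ x.1 ∈ Fx ρ₁ h ∧ x.2 ∈ Fx ρ₂ h := fun h x => by
    have : ρ h (e x) = e (ρ₁ h x.1, ρ₂ h x.2) := by simp [e, ρ₁, ρ₂]
    rw [mem_Fx, this, e.injective.eq_iff, Prod.ext_iff]
    rfl
  have hV : ∀ {f : H → ℂ}, f ∈ VC H → ∀ h, f h ∈ Blk.V M := fun hf h =>
    mem_V_of_isIntegral (isIntegral_apply hf h)
  refine ⟨ψ₁ * ψ₂, mul_mem hψ₁.mem hψ₂.mem, fun h => mul_mem (hψ₁.fix h) (hψ₂.fix h),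
    fun σ h => ?_, by simp [hψ₁.one, hψ₂.one], fun h hh => ?_⟩
  · have a1 : Nat.card (Fx ρ h) = Nat.card (Fx ρ₁ h) * Nat.card (Fx ρ₂ h) := by
      rw [← Nat.card_prod]
      exact Nat.card_congr ((e.toEquiv.subtypeEquiv fun x => (he h x).symm).symm.trans
        (Equiv.subtypeProdEquivProd (p := (· ∈ Fx ρ₁ h)) (q := (· ∈ Fx ρ₂ h))))
    rw [a1, ← Nat.card_congr e.toEquiv, Nat.card_prod, Pi.mul_apply, map_mul, norm_mul, mul_pow,
      Nat.cast_mul, Nat.cast_mul, mul_mul_mul_comm]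
    exact mul_le_mul (hψ₁.le σ h) (hψ₂.le σ h) (by positivity) (by positivity)
  · rw [Pi.mul_apply, red_mul (hV hψ₁.mem h) (hV hψ₂.mem h)]
    by_contra h0
    refine hh (top_le_iff.1 fun x _ => ?_)
    obtain ⟨y, rfl⟩ := e.surjective x
    have a1 : Fx ρ₁ h = ⊤ := by_contra fun h4 => h0 (by rw [hψ₁.zero h h4, zero_mul])
    have a2 : Fx ρ₂ h = ⊤ := by_contra fun h4 => h0 (by rw [hψ₂.zero h h4, mul_zero])
    rw [he, a1, a2]
    exact ⟨trivial, trivial⟩

end CL.RVec
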